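import Cfsg.Agent.Lib.AltDoubleCent.FrameDef

/-!
The centraliser and normaliser of the three three-cycles of the frame in `Perm (Fin n)`,
`n = 9, 10`.
-/

set_option autoImplicit false
set_option maxRecDepth 40000

namespace CfsgLib.AltDoubleCent

open Equiv CfsgLib.RealChar.AltCover

variable {n : ℕ}

/-- Elementary facts about the frame, checked by computation. -/
theorem frame_facts (h9 : 9 ≤ n) (h10 : n ≤ 10) :
    (∀ i j k : Fin 3,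
      ((a0 h9 ^ (i:ℕ) * b0 h9 ^ (j:ℕ) * c0 h9 ^ (k:ℕ)) ⟨0, by omega⟩).val = i.val ∧
      ((a0 h9 ^ (i:ℕ) * b0 h9 ^ (j:ℕ) * c0 h9 ^ (k:ℕ)) ⟨3, by omega⟩).val = 3 + j.val ∧
      ((a0 h9 ^ (i:ℕ) * b0 h9 ^ (j:ℕ) * c0 h9 ^ (k:ℕ)) ⟨6, by omega⟩).val = 6 + k.val) ∧
    (∀ x : Fin n,
      (a0 h9 x ≠ x ↔ x.val < 3) ∧ (b0 h9 x ≠ x ↔ 3 ≤ x.val ∧ x.val < 6) ∧
      (c0 h9 x ≠ x ↔ 6 ≤ x.val ∧ x.val < 9) ∧
      ((∃ r : Fin 3, (a0 h9 ^ (r:ℕ)) ⟨0, by omega⟩ = x) ∨ (∃ r : Fin 3, (b0 h9 ^ (r:ℕ)) ⟨3, by omega⟩ = x) ∨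
        (∃ r : Fin 3, (c0 h9 ^ (r:ℕ)) ⟨6, by omega⟩ = x) ∨ 9 ≤ x.val)) ∧
    (a0 h9 * b0 h9 = b0 h9 * a0 h9 ∧ a0 h9 * c0 h9 = c0 h9 * a0 h9 ∧ b0 h9 * c0 h9 = c0 h9 * b0 h9) ∧
    Perm.sign (a0 h9) = 1 ∧ Perm.sign (b0 h9) = 1 ∧ Perm.sign (c0 h9) = 1 := by
  rcases (show n = 9 ∨ n = 10 by omega) with rfl | rfl
  all_goals (revert h9 h10; decide +kernel)

theorem E_centralizer (h9 : 9 ≤ n) (h10 : n ≤ 10) {s : Perm (Fin n)} (ha : Commute s (a0 h9))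
    (hb : Commute s (b0 h9)) (hc : Commute s (c0 h9)) :
    ∃ i j k : ℕ, s = a0 h9 ^ i * b0 h9 ^ j * c0 h9 ^ k := by
  obtain ⟨hval, hpt, ⟨hab, hac, hbc⟩, -⟩ := frame_facts h9 h10
  have move : ∀ (p : Perm (Fin n)), Commute s p → ∀ x, p x ≠ x → p (s x) ≠ s x := by
    intro p hp x hx h
    refine hx (s.injective ?_)
    have := congrArg (fun q : Perm (Fin n) => q x) hp.eq
    simp only [Perm.mul_apply] at this
    rw [this, h]
  have h0 := (hpt _).1.mp (move _ ha ⟨0, by omega⟩ ((hpt _).1.mpr (by simp)))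
  have h3 := (hpt _).2.1.mp (move _ hb ⟨3, by omega⟩ ((hpt _).2.1.mpr (by simp)))
  have h6 := (hpt _).2.2.1.mp (move _ hc ⟨6, by omega⟩ ((hpt _).2.2.1.mpr (by simp)))
  refine ⟨(s ⟨0, by omega⟩).val, (s ⟨3, by omega⟩).val - 3, (s ⟨6, by omega⟩).val - 6, ?_⟩
  obtain ⟨v0, v3, v6⟩ := hval ⟨(s ⟨0, by omega⟩).val, h0⟩ ⟨(s ⟨3, by omega⟩).val - 3, by omega⟩
    ⟨(s ⟨6, by omega⟩).val - 6, by omega⟩
  simp only at v0 v3 v6
  set i := (s ⟨0, by omega⟩).val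
  set j := (s ⟨3, by omega⟩).val - 3
  set k := (s ⟨6, by omega⟩).val - 6
  set w := a0 h9 ^ i * b0 h9 ^ j * c0 h9 ^ k
  have wa : Commute w (a0 h9) :=
    (((Commute.refl _).pow_left i).mul_left ((Commute.symm hab).pow_left j)).mul_left
      ((Commute.symm hac).pow_left k)
  have wb : Commute w (b0 h9) :=
    ((Commute.pow_left hab i).mul_left ((Commute.refl _).pow_left j)).mul_left
      ((Commute.symm hbc).pow_left k)
  have wc : Commute w (c0 h9) :=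
    ((Commute.pow_left hac i).mul_left (Commute.pow_left hbc j)).mul_left
      ((Commute.refl _).pow_left k)
  have orb : ∀ (p : Perm (Fin n)), Commute s p → Commute w p → ∀ x (r : ℕ), s x = w x →
      s ((p ^ r) x) = w ((p ^ r) x) := by
    intro p hs hw x r hx
    have e1 := congrArg (fun q : Perm (Fin n) => q x) (hs.pow_right r).eq
    have e2 := congrArg (fun q : Perm (Fin n) => q x) (hw.pow_right r).eq
    simp only [Perm.mul_apply] at e1 e2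
    rw [e1, e2, hx]
  refine Equiv.ext fun x => ?_
  rcases (hpt x).2.2.2 with ⟨r, rfl⟩ | ⟨r, rfl⟩ | ⟨r, rfl⟩ | hx
  · exact orb _ ha wa _ r (Fin.ext v0.symm)
  · exact orb _ hb wb _ r (Fin.ext (by rw [v3]; omega))
  · exact orb _ hc wc _ r (Fin.ext (by rw [v6]; omega))
  · have fix : ∀ q : Perm (Fin n), Commute q (a0 h9) → Commute q (b0 h9) → Commute q (c0 h9) →
        9 ≤ (q x).val := by
      intro q qa qb qc
      have st : ∀ (p : Perm (Fin n)), Commute q p → p x = x → p (q x) = q x := by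
        intro p hp h
        have := congrArg (fun r : Perm (Fin n) => r x) hp.eq
        simp only [Perm.mul_apply] at this
        rw [← this, h]
      have f1 := mt (hpt (q x)).1.mpr (not_not.mpr (st _ qa (not_not.mp (mt (hpt x).1.mp (by omega)))))
      have f2 := mt (hpt (q x)).2.1.mpr
        (not_not.mpr (st _ qb (not_not.mp (mt (hpt x).2.1.mp (by omega)))))
      have f3 := mt (hpt (q x)).2.2.1.mpr
        (not_not.mpr (st _ qc (not_not.mp (mt (hpt x).2.2.1.mp (by omega)))))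
      omega
    have := fix s ha hb hc
    have := fix w wa wb wc
    exact Fin.ext (by omega)

/-- The three-cycles in the group of the frame and the pairs multiplying to `a b`. -/
theorem frame_cases (h9 : 9 ≤ n) (h10 : n ≤ 10) :
    (∀ i j k : Fin 3,
      (a0 h9 ^ (i:ℕ) * b0 h9 ^ (j:ℕ) * c0 h9 ^ (k:ℕ)).support.card = 3 →
        a0 h9 ^ (i:ℕ) * b0 h9 ^ (j:ℕ) * c0 h9 ^ (k:ℕ) ∈
          [a0 h9, a0 h9 ^ 2, b0 h9, b0 h9 ^ 2, c0 h9, c0 h9 ^ 2]) ∧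
    (∀ p ∈ [a0 h9, a0 h9 ^ 2, b0 h9, b0 h9 ^ 2, c0 h9, c0 h9 ^ 2],
      ∀ q ∈ [a0 h9, a0 h9 ^ 2, b0 h9, b0 h9 ^ 2, c0 h9, c0 h9 ^ 2],
        p * q = a0 h9 * b0 h9 → (p = a0 h9 ∧ q = b0 h9) ∨ (p = b0 h9 ∧ q = a0 h9)) ∧
    (a0 h9).support.card = 3 ∧ (b0 h9).support.card = 3 ∧ (c0 h9).support.card = 3 ∧
    a0 h9 ^ 3 = 1 ∧ b0 h9 ^ 3 = 1 ∧ c0 h9 ^ 3 = 1 ∧
    (c0 h9 ≠ a0 h9 ∧ c0 h9 ≠ a0 h9 ^ 2 ∧ c0 h9 ≠ b0 h9 ∧ c0 h9 ≠ b0 h9 ^ 2) ∧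
    (t0 h9 * a0 h9 * t0 h9 = b0 h9 ∧ t0 h9 * b0 h9 * t0 h9 = a0 h9 ∧
      t0 h9 * c0 h9 * t0 h9 = c0 h9 ^ 2 ∧ t0 h9 * t0 h9 = 1) ∧
    (∃ u : Perm (Fin n), u * u = 1 ∧ Perm.sign u = -1 ∧ u * a0 h9 * u = a0 h9 ∧
      u * b0 h9 * u = b0 h9 ∧ u * c0 h9 * u = c0 h9 ^ 2) ∧
    (∃ u : Perm (Fin n), u * u = 1 ∧ Perm.sign u = -1 ∧ u * a0 h9 * u = b0 h9 ∧
      u * b0 h9 * u = a0 h9 ∧ u * c0 h9 * u = c0 h9) := by
  rcases (show n = 9 ∨ n = 10 by omega) with rfl | rfl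
  all_goals
    refine ⟨?_, ?pairs, ?_, ?_, ?_, ?_, ?_, ?_, ?_, ?_, ⟨swap 6 7, ?_⟩,
      ⟨swap 0 3 * swap 1 4 * swap 2 5, ?_⟩⟩
    case pairs =>
      simp only [List.forall_mem_cons, List.not_mem_nil, IsEmpty.forall_iff, forall_const, and_true]
      clear h10
      refine ⟨⟨?_, ?_, ?_, ?_, ?_, ?_⟩, ⟨?_, ?_, ?_, ?_, ?_, ?_⟩, ⟨?_, ?_, ?_, ?_, ?_, ?_⟩,
        ⟨?_, ?_, ?_, ?_, ?_, ?_⟩, ⟨?_, ?_, ?_, ?_, ?_, ?_⟩, ⟨?_, ?_, ?_, ?_, ?_, ?_⟩⟩ <;>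
        (revert h9; decide +kernel)
    all_goals (clear h10; revert h9; decide +kernel)

theorem E_normalizer (h9 : 9 ≤ n) (h10 : n ≤ 10) {s : Perm (Fin n)} (hs : Perm.sign s = 1)
    (hy : s * (a0 h9 * b0 h9) * s⁻¹ = a0 h9 * b0 h9)
    (ha : ∃ i j k : ℕ, s * a0 h9 * s⁻¹ = a0 h9 ^ i * b0 h9 ^ j * c0 h9 ^ k)
    (hb : ∃ i j k : ℕ, s * b0 h9 * s⁻¹ = a0 h9 ^ i * b0 h9 ^ j * c0 h9 ^ k)
    (hc : ∃ i j k : ℕ, s * c0 h9 * s⁻¹ = a0 h9 ^ i * b0 h9 ^ j * c0 h9 ^ k) :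
    (Commute s (a0 h9) ∧ Commute s (b0 h9) ∧ Commute s (c0 h9)) ∨
      (Commute (s * t0 h9) (a0 h9) ∧ Commute (s * t0 h9) (b0 h9) ∧ Commute (s * t0 h9) (c0 h9)) := by
  obtain ⟨-, -, -, sa, sb, sc⟩ := frame_facts h9 h10
  obtain ⟨hlist, hpair, ca, cb, cc, a3, b3, c3, ⟨ne1, ne2, ne3, ne4⟩, ⟨ta, tb, tc, tt⟩,
    ⟨u, uu, us, ua, ub, uc⟩, ⟨v, vv, vs, va, vb, vc⟩⟩ := frame_cases h9 h10
  set L := [a0 h9, a0 h9 ^ 2, b0 h9, b0 h9 ^ 2, c0 h9, c0 h9 ^ 2] with hL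
  have inL : ∀ x : Perm (Fin n), x.support.card = 3 →
      (∃ i j k : ℕ, s * x * s⁻¹ = a0 h9 ^ i * b0 h9 ^ j * c0 h9 ^ k) → s * x * s⁻¹ ∈ L := by
    rintro x hx ⟨i, j, k, e⟩
    have red : ∀ (p : Perm (Fin n)), p ^ 3 = 1 → ∀ m : ℕ, p ^ m = p ^ (m % 3) := by
      intro p hp m
      conv_lhs => rw [← Nat.div_add_mod m 3, pow_add, pow_mul, hp, one_pow, one_mul]
    rw [red _ a3 i, red _ b3 j, red _ c3 k] at e
    have := hlist ⟨i % 3, Nat.mod_lt _ (by norm_num)⟩ ⟨j % 3, Nat.mod_lt _ (by norm_num)⟩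
      ⟨k % 3, Nat.mod_lt _ (by norm_num)⟩ (by
        show (a0 h9 ^ (i % 3) * b0 h9 ^ (j % 3) * c0 h9 ^ (k % 3)).support.card = 3
        rw [← e, Perm.card_support_conj, hx])
    rw [e]; exact this
  have hA := inL _ ca ha; have hB := inL _ cb hb; have hC := inL _ cc hc
  have inj : ∀ x y : Perm (Fin n), s * x * s⁻¹ = s * y * s⁻¹ → x = y := fun x y e =>
    mul_left_cancel (mul_right_cancel e)
  have pw : ∀ x : Perm (Fin n), s * x ^ 2 * s⁻¹ = (s * x * s⁻¹) ^ 2 := fun x => by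
    rw [pow_two, pow_two]; group
  have hcom : ∀ x : Perm (Fin n), s * x * s⁻¹ = x → Commute s x := fun x e =>
    mul_inv_eq_iff_eq_mul.mp e
  have sgn : ∀ w : Perm (Fin n), Perm.sign w = -1 → Commute (s * w) (a0 h9) →
      Commute (s * w) (b0 h9) → Commute (s * w) (c0 h9) → False := by
    intro w hw h1 h2 h3
    obtain ⟨i, j, k, e⟩ := E_centralizer h9 h10 h1 h2 h3
    have := congrArg Perm.sign e
    simp only [map_mul, map_pow, hs, hw, sa, sb, sc, one_pow, mul_one] at this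
    exact absurd this (by decide)
  have twist : ∀ w x y : Perm (Fin n), w * w = 1 → w * x * w = y → s * y * s⁻¹ = x →
      Commute (s * w) x := by
    intro w x y hw h1 h2
    have e : w * x = y * w := by rw [← h1, mul_assoc, hw, mul_one]
    show s * w * x = x * (s * w)
    rw [mul_assoc, e, ← mul_assoc, ← mul_assoc, mul_inv_eq_iff_eq_mul.mp h2]
  rcases hpair _ hA _ hB (by rw [← hy]; group) with ⟨eA, eB⟩ | ⟨eA, eB⟩
  · simp only [hL, List.mem_cons, List.not_mem_nil, or_false] at hC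
    rcases hC with e | e | e | e | e | e
    · exact absurd (inj _ _ (e.trans eA.symm)) ne1
    · exact absurd (inj _ _ (e.trans (by rw [pw, eA]))) ne2
    · exact absurd (inj _ _ (e.trans eB.symm)) ne3
    · exact absurd (inj _ _ (e.trans (by rw [pw, eB]))) ne4
    · exact Or.inl ⟨hcom _ eA, hcom _ eB, hcom _ e⟩
    · refine (sgn u us (twist u _ _ uu ua eA) (twist u _ _ uu ub eB) (twist u _ _ uu uc ?_)).elim
      rw [pw, e, ← pow_mul, show 2 * 2 = 3 + 1 by norm_num, pow_add, c3, one_mul, pow_one]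
  · simp only [hL, List.mem_cons, List.not_mem_nil, or_false] at hC
    rcases hC with e | e | e | e | e | e
    · exact absurd (inj _ _ (e.trans eB.symm)) ne3
    · exact absurd (inj _ _ (e.trans (by rw [pw, eB]))) ne4
    · exact absurd (inj _ _ (e.trans eA.symm)) ne1
    · exact absurd (inj _ _ (e.trans (by rw [pw, eA]))) ne2
    · exact (sgn v vs (twist v _ _ vv va eB) (twist v _ _ vv vb eA) (twist v _ _ vv vc e)).elim
    · refine Or.inr ⟨twist _ _ _ tt ta eB, twist _ _ _ tt tb eA, twist _ _ _ tt tc ?_⟩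
      rw [pw, e, ← pow_mul, show 2 * 2 = 3 + 1 by norm_num, pow_add, c3, one_mul, pow_one]

end CfsgLib.AltDoubleCent
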