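import Cfsg.Agent.Lib.AltDoubleCent.BigR

/-!
Degree nine: the centraliser of a three-cycle has no normal three-subgroup of order 243.
-/

set_option autoImplicit false
set_option linter.unusedSectionVars false
set_option linter.style.haveILetI false
set_option linter.unusedVariables false

namespace CfsgLib.AltDoubleCent

open Equiv

universe u

variable {G : Type u} [Group G] [Finite G] {z : G} {S : Setting G 9 z} {h9 : 9 ≤ 9}

namespace Frame

variable {F : Frame S h9} {R Q : Subgroup G}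

theorem Good.odd (hR : F.Good R) : Odd (Nat.card R) := by rw [hR.card]; decide

theorem Good.mem_P (hR : F.Good R) {v g : G} (hv : F.Inv v) (hg : g ∈ R) (hgv : Commute g v) :
    F.P v g := F.P_of_odd hv (hR.cent g hg) hgv (odd_orderOf_of_mem hR.odd hg)

theorem Good.le_of_A (hR : F.Good R) {K : Subgroup G}
    (h : ∀ v, F.Inv v → ∀ g, F.P v g → g ∈ K) : R ≤ K :=
  F.le_of_parts hR.odd (hR.norm z (Or.inl rfl)) (hR.norm F.t (Or.inr (Or.inl rfl)))
    fun v hv g hg hgv => h v hv g (hR.mem_P hv hg hgv)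

/-- Some element outside `⟨y⟩` fixed by one of the involutions is central. -/
theorem Good.exists_central (hR : F.Good R) : ∃ v x₀, F.Inv v ∧ F.P v x₀ ∧
    x₀ ∉ Subgroup.zpowers F.y ∧ ∀ r ∈ R, Commute x₀ r := by
  haveI : Fact (Nat.Prime 3) := ⟨Nat.prime_three⟩
  have hR3 : IsPGroup 3 R := IsPGroup.of_card (n := 7) (by rw [hR.card]; norm_num)
  have hyR : F.y ∈ R := hR.contains z (Or.inl rfl) _ (F.P_y (Or.inl rfl))
  set Y := Subgroup.zpowers F.y with hY
  have hYc : ∀ g, Commute g F.y → ∀ f ∈ Y, g * f * g⁻¹ = f := fun g hg f hf => by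
    obtain ⟨m, rfl⟩ := Subgroup.mem_zpowers_iff.mp hf
    rw [(hg.zpow_right m).eq, mul_inv_cancel_right]
  obtain ⟨q, hq, hqY⟩ : ∃ q ∈ R, q ∉ Y := by
    by_contra hcon
    push Not at hcon
    have := Subgroup.card_le_of_le (show R ≤ Y from hcon)
    rw [hR.card, hY, F.card_zpowers_y] at this
    omega
  obtain ⟨x₁, hx₁, hx₁Y, hcen⟩ := exists_central_mod hR3 le_rfl
    (fun g hg x hx => R.mul_mem (R.mul_mem hg hx) (R.inv_mem hg))
    (fun g hg f hf => by rw [hYc g (hR.cent g hg) f hf]; exact hf) hq hqY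
  let Z2 : Subgroup G :=
    { carrier := {x | x ∈ R ∧ ∀ g ∈ R, g * x * g⁻¹ * x⁻¹ ∈ Y}
      one_mem' := ⟨R.one_mem, fun g _ => by simp⟩
      mul_mem' := by
        rintro x x' ⟨hx, hxa⟩ ⟨hx', hxa'⟩
        refine ⟨R.mul_mem hx hx', fun g hg => ?_⟩
        have h2 := hYc x (hR.cent x hx) _ (hxa' g hg)
        rw [show g * (x * x') * g⁻¹ * (x * x')⁻¹ =
          g * x * g⁻¹ * x⁻¹ * (x * (g * x' * g⁻¹ * x'⁻¹) * x⁻¹) by group, h2]
        exact mul_mem (hxa g hg) (hxa' g hg)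
      inv_mem' := by
        rintro x ⟨hx, hxa⟩
        refine ⟨R.inv_mem hx, fun g hg => ?_⟩
        have h2 := hYc x⁻¹ (hR.cent x hx).inv_left _ (inv_mem (hxa g hg))
        rw [show g * x⁻¹ * g⁻¹ * x⁻¹⁻¹ = x⁻¹ * (g * x * g⁻¹ * x⁻¹)⁻¹ * x⁻¹⁻¹ by group, h2]
        exact inv_mem (hxa g hg) }
  have hn : ∀ v, F.Inv v → ∀ x ∈ Z2, v * x * v⁻¹ ∈ Z2 := by
    rintro v hv x ⟨hx, hxa⟩
    refine ⟨hR.norm v hv x hx, fun g hg => ?_⟩
    have hg' := hxa _ (hR.norm v hv g hg)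
    have e : g * (v * x * v⁻¹) * g⁻¹ * (v * x * v⁻¹)⁻¹ =
        v * (v⁻¹ * g * v * x * (v⁻¹ * g * v)⁻¹ * x⁻¹) * v⁻¹ := by group
    rw [e, show v⁻¹ * g * v = v * g * v⁻¹ by rw [F.inv_inv' hv],
      hYc v (F.inv_y hv) _ hg']
    exact hg'
  have hodd : Odd (Nat.card Z2) :=
    hR.odd.of_dvd_nat (Subgroup.card_dvd_of_le fun x hx => hx.1)
  obtain ⟨v, hv, x₀, hx₀, hxv, hxY⟩ : ∃ v, F.Inv v ∧ ∃ x ∈ Z2, Commute x v ∧ x ∉ Y := by
    by_contra hcon
    push Not at hcon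
    exact hx₁Y (F.le_of_parts hodd (hn z (Or.inl rfl)) (hn F.t (Or.inr (Or.inl rfl)))
      (fun v hv g hg hgv => hcon v hv g hg hgv) (⟨hx₁, hcen⟩ : x₁ ∈ Z2))
  have hPx := hR.mem_P hv hx₀.1 hxv
  refine ⟨v, x₀, hv, hPx, hxY, fun r hr => ?_⟩
  refine (Subgroup.mem_centralizer_singleton_iff.mp
    (hR.le_of_A (K := Subgroup.centralizer {x₀}) (fun w hw g hg => ?_) hr)).symm
  refine Subgroup.mem_centralizer_singleton_iff.mpr (Commute.eq ?_)
  by_cases hwv : w = v
  · exact F.P_comm hv (hwv ▸ hg) hPx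
  obtain ⟨e, i, he, hi, hinv, rfl⟩ := F.exists_split hw hv hwv hg
  obtain ⟨m, hm⟩ := Subgroup.mem_zpowers_iff.mp he
  refine (hm ▸ hPx.1.symm.zpow_left m).mul_left ?_
  have hiR := hR.contains w hw i hi
  have hf := hx₀.2 i hiR
  obtain ⟨k, hk⟩ := Subgroup.mem_zpowers_iff.mp hf
  have hf' : i * x₀ * i⁻¹ * x₀⁻¹ = F.y ^ k := hk.symm
  have h : x₀ * i = (F.y ^ k)⁻¹ * (i * x₀) := by rw [← hf']; group
  refine (commute_of_comm_fixed (u := v) (f := (F.y ^ k)⁻¹) ?_ ?_ ?_ hxv.symm hinv h).symm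
  · rw [orderOf_inv]
    exact odd_orderOf_of_mem hR.odd (R.zpow_mem hyR k)
  · exact ((F.inv_y hv).zpow_right k).inv_right
  · exact (hi.1.symm.zpow_left k).inv_left

/-- The transported group: some element of `P z` outside `⟨y⟩` is central. -/
theorem Good.exists_good_z (hR : F.Good R) : ∃ R' : Subgroup G, F.Good R' ∧
    ∃ e, F.Form e ∧ e ∉ Subgroup.zpowers F.y ∧ ∀ r ∈ R', Commute e r := by
  obtain ⟨v, x₀, hv, hP, hY, hcen⟩ := hR.exists_central
  obtain ⟨h, hy, hvz, hperm⟩ := F.exists_to_z hv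
  refine ⟨R.map (MulAut.conj h).toMonoidHom, ⟨?_, ?_, ?_, ?_⟩, h * x₀ * h⁻¹, ?_, ?_, ?_⟩
  · rw [Subgroup.card_map_of_injective (MulAut.conj h).injective, hR.card]
  · rintro _ ⟨g, hg, rfl⟩
    exact (hy.mul_left (hR.cent g hg)).mul_left hy.inv_left
  · rintro w hw _ ⟨g, hg, rfl⟩
    refine ⟨h⁻¹ * w * h * g * (h⁻¹ * w * h)⁻¹, hR.norm _ (hperm w hw).2 g hg, ?_⟩
    simp only [MulEquiv.coe_toMonoidHom, MulAut.conj_apply]
    group
  · intro w hw g hg
    refine ⟨h⁻¹ * g * h, hR.contains _ (hperm w hw).2 _ ?_, ?_⟩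
    · have h1 := F.P_conj hy.inv_left hg
      rwa [inv_inv] at h1
    · simp only [MulEquiv.coe_toMonoidHom, MulAut.conj_apply]
      group
  · have h1 := F.P_conj hy hP
    rw [hvz] at h1
    exact F.P_z_iff.mp h1
  · intro hmem
    apply hY
    obtain ⟨m, hm⟩ := Subgroup.mem_zpowers_iff.mp hmem
    refine Subgroup.mem_zpowers_iff.mpr ⟨m, ?_⟩
    calc F.y ^ m = h⁻¹ * (F.y ^ m * h) := by
          rw [← (hy.zpow_right m).eq, inv_mul_cancel_left]
      _ = x₀ := by rw [hm]; group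
  · rintro _ ⟨g, hg, rfl⟩
    exact (hcen g hg).map (MulAut.conj h)

/-- The element `c` is not central. -/
theorem Good.not_central_c (hR : F.Good R) (hQ : F.BigQ Q) (hc : ∀ r ∈ R, Commute F.c r) : False :=
  hQ.not_At_le_c fun g hg => (hc g (hR.contains F.t (Or.inr (Or.inl rfl)) g hg)).symm

/-- The element `a` is not central. -/
theorem Good.not_central_a (hR : F.Good R) (hQ : F.BigQ Q) (hc : ∀ r ∈ R, Commute F.a r) : False := by
  classical
  have hIz : F.Inv z := Or.inl rfl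
  have hIt : F.Inv F.t := Or.inr (Or.inl rfl)
  have hItz : F.Inv (F.t * z) := Or.inr (Or.inr rfl)
  obtain ⟨hs, ha, hb⟩ := nineW_facts h9
  obtain ⟨g, hg, hgi⟩ := S.exists_img hs
  have hga : g * F.a * g⁻¹ = F.c := S.conj_eq_of_img hg hgi F.a_comm F.c_comm F.a_odd F.c_odd
    (by rw [F.img_a, F.img_c]; exact ha)
  have hgb : g * F.b * g⁻¹ = F.b⁻¹ := S.conj_eq_of_img hg hgi F.b_comm F.b_comm.inv_left F.b_odd
    (by rw [orderOf_inv]; exact F.b_odd) (by rw [S.img_inv F.b_comm, F.img_b]; exact hb)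
  have hgz : g * z * g⁻¹ = z := by rw [hg.eq, mul_inv_cancel_right]
  set It := CfsgLib.GW.invertedIn (F.A hIt) z with hItdef
  set Iu := CfsgLib.GW.invertedIn (F.A hItz) z with hIudef
  have hcomm : ∀ {v i}, F.Inv v → F.P v i → Commute i F.a ∧ Commute i F.b := by
    intro v i hv hi
    have h1 := (hc i (hR.contains v hv i hi)).symm
    refine ⟨h1, ?_⟩
    have := h1.inv_right.mul_right hi.1
    rwa [Frame.y, inv_mul_cancel_left] at this
  have hQmem : ∀ {v i}, F.Inv v → F.P v i → z * i * z⁻¹ = i⁻¹ →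
      g * i * g⁻¹ ∈ Q ∧ Commute (g * i * g⁻¹) F.b := by
    intro v i hv hi hinv
    obtain ⟨h1, h2⟩ := hcomm hv hi
    have e1 := h1.map (MulAut.conj g)
    have e2 := h2.inv_right.map (MulAut.conj g)
    simp only [MulAut.conj_apply, hga, ← conj_inv, hgb, inv_inv] at e1 e2
    refine ⟨hQ.max _ e1 ?_ (by rw [conj_pow, hi.2.2]; group), e2⟩
    calc z * (g * i * g⁻¹) * z⁻¹ = z * g * i * (z * g)⁻¹ := by group
      _ = g * z * i * (g * z)⁻¹ := by rw [hg.eq]
      _ = g * (z * i * z⁻¹) * g⁻¹ := by group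
      _ = _ := by rw [hinv, conj_inv]
  set K := Q ⊓ Subgroup.centralizer ({F.b} : Set G) with hK
  have hgp : ∀ m : ℕ, g * F.a ^ m * g⁻¹ = F.c ^ m := fun m => by rw [← conj_pow, hga]
  let φ : It × Iu × Fin 3 → K := fun p => ⟨g * p.1 * g⁻¹ * (g * p.2.1 * g⁻¹) * F.c ^ (p.2.2 : ℕ),
    Q.mul_mem (Q.mul_mem (hQmem hIt p.1.2.1 p.1.2.2).1 (hQmem hItz p.2.1.2.1 p.2.1.2.2).1)
      (Q.pow_mem hQ.c_mem _),
    Subgroup.mem_centralizer_singleton_iff.mpr
      (((hQmem hIt p.1.2.1 p.1.2.2).2.mul_left (hQmem hItz p.2.1.2.1 p.2.1.2.2).2).mul_left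
        (F.bc.symm.pow_left _)).eq⟩
  have hinj : Function.Injective φ := by
    rintro ⟨⟨p, hp⟩, ⟨q, hq⟩, i⟩ ⟨⟨p', hp'⟩, ⟨q', hq'⟩, i'⟩ h
    have h0 : g * p * g⁻¹ * (g * q * g⁻¹) * F.c ^ (i : ℕ) =
        g * p' * g⁻¹ * (g * q' * g⁻¹) * F.c ^ (i' : ℕ) := congrArg Subtype.val h
    have h1 : p * q * F.a ^ (i : ℕ) = p' * q' * F.a ^ (i' : ℕ) := by
      rw [← hgp, ← hgp, conj_mul, conj_mul, conj_mul, conj_mul] at h0
      exact (MulAut.conj g).injective h0
    set m := F.a ^ (i' : ℕ) * (F.a ^ (i : ℕ))⁻¹ with hm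
    have hmA : F.P z m :=
      (F.A hIz).mul_mem ((F.A hIz).pow_mem (F.form_P ⟨1, 0, 0, by simp⟩) _)
        ((F.A hIz).inv_mem ((F.A hIz).pow_mem (F.form_P ⟨1, 0, 0, by simp⟩) _))
    have hme : ∀ {w}, Commute F.a w → Commute m w := fun hw => by
      exact (hw.pow_left _).mul_left (hw.pow_left _).inv_left
    set e₁ := p'⁻¹ * p with he₁
    set e₂ := q' * q⁻¹ with he₂
    have he₁P : F.P F.t e₁ := (F.A hIt).mul_mem ((F.A hIt).inv_mem hp'.1) hp.1
    have he₂P : F.P (F.t * z) e₂ := (F.A hItz).mul_mem hq'.1 ((F.A hItz).inv_mem hq.1)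
    have he : e₁ = e₂ * m := by
      have h2 : p'⁻¹ * p = q' * m * q⁻¹ := by
        calc p'⁻¹ * p = p'⁻¹ * (p * q * F.a ^ (i : ℕ)) * (F.a ^ (i : ℕ))⁻¹ * q⁻¹ := by group
          _ = _ := by rw [h1, hm]; group
      rw [he₁, h2, mul_assoc, (hme (hcomm hItz hq.1).1.symm).inv_right.eq, ← mul_assoc]
    have h1z : z * e₁ * z⁻¹ = e₁⁻¹ :=
      inverted_mul (F.P_comm hIt ((F.A hIt).inv_mem hp'.1) hp.1) (inverted_inv hp'.2) hp.2
    have h2z : z * e₂ * z⁻¹ = e₂⁻¹ :=
      inverted_mul (F.P_comm hItz hq'.1 ((F.A hItz).inv_mem hq.1)) hq'.2 (inverted_inv hq.2)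
    have hm1 : m = 1 := by
      have hz1 : z * e₁ * z⁻¹ = e₂⁻¹ * m := by
        rw [he, ← conj_mul, h2z, hmA.2.1.symm.eq, mul_inv_cancel_right]
      have hc2 : Commute m e₂⁻¹ := (hme (hcomm hItz he₂P).1.symm).inv_right
      have h3 : e₂⁻¹ * m = m⁻¹ * e₂⁻¹ := by rw [← hz1, h1z, he, mul_inv_rev]
      rw [hc2.inv_left.eq] at h3
      refine eq_one_of_sq (F.P_odd hmA) ?_
      nth_rewrite 1 [mul_left_cancel h3]
      exact inv_mul_cancel m
    rw [hm1, mul_one] at he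
    have h2 : e₂ = 1 := by
      have h4 : Commute z e₂ := by
        have h5 := ((he ▸ he₁P.2.1 : Commute e₂ F.t)).inv_right.mul_right he₂P.2.1
        rw [inv_mul_cancel_left] at h5
        exact h5.symm
      exact eq_one_of_fixed_inverted (F.P_odd he₂P) h4 h2z
    rw [h2] at he
    have hpp : p' = p := inv_mul_eq_one.mp he
    have hqq : q' = q := mul_inv_eq_one.mp h2
    have hii : (i' : ℕ) = i := by
      have e3 : F.a ^ (i' : ℕ) = F.a ^ (i : ℕ) := mul_inv_eq_one.mp hm1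
      exact pow_injOn_Iio_orderOf (by simp [F.a_ord]) (by simp [F.a_ord]) e3
    subst hpp hqq
    rw [Fin.ext hii]
  have hcard : Nat.card Q ≤ Nat.card K := by
    have := Nat.card_le_card_of_injective φ hinj
    rw [Nat.card_prod, Nat.card_prod, hItdef, hIudef,
      F.card_inverted hIt hIz (F.t_ne_z (by norm_num)),
      F.card_inverted hItz hIz (fun e => F.t_ne_one (by norm_num) (mul_eq_right.mp e)),
      Nat.card_eq_fintype_card, Fintype.card_fin] at this
    rw [hQ.card]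
    omega
  refine hQ.not_central_b fun x hx => ?_
  have eK : K = Q := Subgroup.eq_of_le_of_card_ge inf_le_left hcard
  have : x ∈ K := eK.symm ▸ hx
  exact Subgroup.mem_centralizer_singleton_iff.mp this.2

/-- An element `a * c₁` with `c₁ = c ^ (±1)` is not central. -/
theorem Good.not_central_ac (hR : F.Good R) (hQ : F.BigQ Q) {c₁ : G} (hc₁ : F.Form c₁)
    (hc₁inv : F.t * c₁ * F.t⁻¹ = c₁⁻¹) (hc₁c : ∀ r, Commute c₁ r → Commute F.c r)
    {g : G} (hg : Commute g z) (hga : g * F.a * g⁻¹ = c₁) (hgb : g * F.b * g⁻¹ = F.a)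
    (hgc : g * c₁ * g⁻¹ = F.b) (hnY : F.a * c₁ ∉ Subgroup.zpowers F.y)
    (hcen : ∀ r ∈ R, Commute (F.a * c₁) r) : False := by
  classical
  have hIz : F.Inv z := Or.inl rfl
  have hIt : F.Inv F.t := Or.inr (Or.inl rfl)
  have hItz : F.Inv (F.t * z) := Or.inr (Or.inr rfl)
  have hfa : F.Form F.a := ⟨1, 0, 0, by simp⟩
  have hfb : F.Form F.b := ⟨0, 1, 0, by simp⟩
  have cac : Commute F.a c₁ := F.form_comm hfa hc₁
  have cbc : Commute F.b c₁ := F.form_comm hfb hc₁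
  set x₀ := F.a * c₁ with hx₀
  have hx₀z : Commute x₀ z := F.a_comm.mul_left (F.form_P hc₁).2.1
  have hx₀y : Commute x₀ F.y := (F.a_y).mul_left (F.form_P hc₁).1
  have hgy : g * F.y * g⁻¹ = x₀ := by
    rw [Frame.y, ← conj_mul, hga, hgb, hx₀, cac.eq]
  have hgz : g * z * g⁻¹ = z := by rw [hg.eq, mul_inv_cancel_right]
  have hgi : ∀ w, Commute w x₀ → Commute (g⁻¹ * w * g) F.y := fun w hw => by
    have h1 := hw.map (MulAut.conj g⁻¹)
    simp only [MulAut.conj_apply, inv_inv] at h1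
    rwa [← hgy, show g⁻¹ * (g * F.y * g⁻¹) * g = F.y by group] at h1
  have htx : F.t * x₀ * F.t⁻¹ = F.y * x₀⁻¹ := by
    rw [hx₀, Frame.y, ← conj_mul, F.t_conj_a (by norm_num), hc₁inv, mul_inv_rev,
      cac.inv_inv.eq.symm, ← mul_assoc, mul_assoc F.a F.b, F.ab.symm.inv_right.eq, ← mul_assoc,
      mul_inv_cancel, one_mul]
  -- `R` consists of the elements of odd order centralising `y` and `x₀`
  set Mx := Subgroup.centralizer ({F.y, x₀} : Set G) with hMx
  have memMx : ∀ {r}, r ∈ Mx ↔ Commute r F.y ∧ Commute r x₀ := fun {r} => by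
    rw [hMx, Subgroup.mem_centralizer_iff]
    simp only [Set.mem_insert_iff, Set.mem_singleton_iff, forall_eq_or_imp, forall_eq]
    exact ⟨fun h => ⟨h.1.symm, h.2.symm⟩, fun h => ⟨h.1.symm, h.2.symm⟩⟩
  have hz2 : ∀ {w}, w ∈ Subgroup.zpowers z → w = 1 ∨ w = z := fun {w} hw => by
    obtain ⟨m, rfl⟩ := Subgroup.mem_zpowers_iff.mp hw
    rcases Int.even_or_odd' m with ⟨q, rfl | rfl⟩
    · left; rw [zpow_mul, zpow_two, S.z_sq, one_zpow]
    · right; rw [zpow_add_one, zpow_mul, zpow_two, S.z_sq, one_zpow, one_mul]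
  obtain ⟨L, hLM, hLodd, -, hLmem⟩ := exists_odd_complement (M := Mx)
    (V := Subgroup.zpowers z) (Subgroup.zpowers_le.mpr (memMx.mpr ⟨F.comm_y_z.symm, hx₀z.symm⟩))
    (IsPGroup.of_card (n := 1) (by rw [Nat.card_zpowers, S.hz]; norm_num))
    (fun r _ hn v hv => by
      rcases hz2 (hn z (Subgroup.mem_zpowers _)) with e | e
      · exact absurd (conj_eq_one_iff.mp e) S.z_ne_one
      · rcases hz2 hv with rfl | rfl
        · exact Commute.one_right r
        · exact mul_inv_eq_iff_eq_mul.mp e)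
    (fun r hr hc ⟨k, hk⟩ => by
      obtain ⟨hry, hrx⟩ := memMx.mp hr
      have hrz := hc z (Subgroup.mem_zpowers _)
      obtain ⟨α, w, hα, hw, rfl⟩ := F.exists_form_mul hry hrz
      have hαx : Commute α x₀ := F.form_comm hα (F.form_mul hfa hc₁)
      have hwx : Commute w x₀ := by
        have := hαx.inv_left.mul_left hrx
        rwa [inv_mul_cancel_left] at this
      have hnt : ¬ Commute F.t x₀ := fun h => hnY
        (F.mem_zpowers_y hx₀y hx₀z h.symm (F.P_odd (F.form_P (F.form_mul hfa hc₁))))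
      have hwz : w = 1 ∨ w = z := by
        rcases hw with h | rfl | rfl | rfl
        · exact Or.inl h
        · exact Or.inr rfl
        · exact absurd hwx hnt
        · refine absurd ?_ hnt
          have := hwx.mul_left hx₀z.symm
          rwa [F.t_mul_z_z] at this
      have hw2 : w * w = 1 := by rcases hwz with rfl | rfl <;> [rw [one_mul]; exact S.z_sq]
      have hαw : Commute α w := by
        rcases hwz with rfl | rfl
        · exact Commute.one_right α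
        · exact (F.form_P hα).2.1
      have hα1 : α = 1 := by
        have h2 : (α * w) ^ 2 ^ (k + 1) = 1 := by rw [pow_succ, pow_mul, hk, one_pow]
        rw [pow_succ', pow_mul, hαw.mul_pow, pow_two w, hw2, mul_one, ← pow_mul] at h2
        have h3 : orderOf α ∣ 2 ^ (k + 1) :=
          orderOf_dvd_of_pow_eq_one (by rw [pow_succ']; exact h2)
        rw [← orderOf_eq_one_iff]
        exact Nat.eq_one_of_dvd_coprimes
          ((Nat.coprime_two_left.mpr (F.P_odd (F.form_P hα))).pow_left (k + 1)).symm dvd_rfl h3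
      rw [hα1, one_mul]
      rcases hwz with rfl | rfl
      · exact one_mem _
      · exact Subgroup.mem_zpowers _)
  have hLy : ∀ r ∈ L, Commute r F.y := fun r hr => (memMx.mp (hLM hr)).1
  have hRL : R ≤ L := fun r hr => (hLmem r).mpr
    ⟨memMx.mpr ⟨hR.cent r hr, (hcen r hr).symm⟩, odd_orderOf_of_mem hR.odd hr⟩
  have hLn : ∀ v, F.Inv v → ∀ r ∈ L, v * r * v⁻¹ ∈ L := by
    intro v hv r hr
    obtain ⟨hry, hrx⟩ := memMx.mp (hLM hr)
    refine (hLmem _).mpr ⟨memMx.mpr ⟨((F.inv_y hv).mul_left hry).mul_left (F.inv_y hv).inv_left, ?_⟩,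
      by rw [show v * r * v⁻¹ = MulAut.conj v r from rfl, MulEquiv.orderOf_eq]
         exact odd_orderOf_of_mem hLodd hr⟩
    have hvx : v * x₀ * v⁻¹ = x₀ ∨ v * x₀ * v⁻¹ = F.y * x₀⁻¹ := by
      rcases hv with rfl | rfl | rfl
      · left; rw [hx₀z.symm.eq, mul_inv_cancel_right]
      · exact Or.inr htx
      · right
        rw [show F.t * z * x₀ * (F.t * z)⁻¹ = F.t * (z * x₀ * z⁻¹) * F.t⁻¹ by group, hx₀z.symm.eq,
          mul_inv_cancel_right, htx]
    rcases hvx with e | e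
    · have := hrx.map (MulAut.conj v)
      simpa [MulAut.conj_apply, e] using this
    · have h1 := (hrx.inv_right.map (MulAut.conj v))
      simp only [MulAut.conj_apply, ← conj_inv, e] at h1
      have h2 : Commute (v * r * v⁻¹) F.y := ((F.inv_y hv).mul_left hry).mul_left (F.inv_y hv).inv_left
      have h3 := h1.mul_right h2
      rwa [mul_inv_rev, inv_inv, inv_mul_cancel_right] at h3
  have hyL : F.y ∈ L := hRL (hR.contains z hIz _ (F.P_y hIz))
  have hRLeq : R = L := by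
    refine Subgroup.eq_of_le_of_card_ge hRL ?_
    have h := F.bw_y hLodd hLy hyL hLn
    rw [F.inf_cent_eq_A hLodd hLy hIz (fun e he => hRL (hR.contains z hIz e he)),
      F.inf_cent_eq_A hLodd hLy hIt (fun e he => hRL (hR.contains _ hIt e he)),
      F.inf_cent_eq_A hLodd hLy hItz (fun e he => hRL (hR.contains _ hItz e he))] at h
    rw [hR.card]
    omega
  have hRmem : ∀ r, Commute r F.y → Commute r x₀ → Odd (orderOf r) → r ∈ R :=
    fun r h1 h2 h3 => hRLeq ▸ (hLmem r).mpr ⟨memMx.mpr ⟨h1, h2⟩, h3⟩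
  -- the conjugate four-group
  set t' := g * F.t * g⁻¹ with ht'
  have ht'2 : t' * t' = 1 := by
    rw [ht', show g * F.t * g⁻¹ * (g * F.t * g⁻¹) = g * (F.t * F.t) * g⁻¹ by group, F.t_sq]; group
  have ht'i : t'⁻¹ = t' := inv_eq_of_mul_eq_one_right ht'2
  have ht'z : Commute t' z := (hg.mul_left F.t_comm).mul_left hg.inv_left
  have ht'x : Commute t' x₀ := by
    have h1 := F.t_y.map (MulAut.conj g)
    simp only [MulAut.conj_apply, hgy] at h1
    exact h1
  have ht'conj : ∀ w w', F.t * w * F.t⁻¹ = w' → t' * (g * w * g⁻¹) * t'⁻¹ = g * w' * g⁻¹ :=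
    fun w w' h => by rw [← h, ht']; group
  have ht'a : t' * F.a * t'⁻¹ = c₁ := by
    have := ht'conj F.b F.a (F.t_conj_b (by norm_num))
    rwa [hga, hgb] at this
  have ht'b : t' * F.b * t'⁻¹ = F.b⁻¹ := by
    have := ht'conj c₁ c₁⁻¹ hc₁inv
    rwa [← conj_inv, hgc] at this
  have ht'y : t' * F.y * t'⁻¹ = x₀ * F.y⁻¹ := by
    rw [Frame.y, ← conj_mul, ht'a, ht'b, hx₀, mul_inv_rev, ← mul_assoc, mul_assoc F.a c₁,
      cbc.symm.inv_right.eq, ← mul_assoc, (F.ab.inv_right).eq, mul_assoc F.b⁻¹ F.a c₁, cac.eq,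
      ← mul_assoc, mul_inv_cancel_right, cbc.inv_left.eq]
  have hnt' : ∀ r ∈ R, t' * r * t'⁻¹ ∈ R := by
    intro r hr
    have hrx : Commute r x₀ := (hcen r hr).symm
    refine hRmem _ ?_ ((ht'x.mul_left hrx).mul_left ht'x.inv_left)
      (by rw [show t' * r * t'⁻¹ = MulAut.conj t' r from rfl, MulEquiv.orderOf_eq]
          exact odd_orderOf_of_mem hR.odd hr)
    have h1 : Commute r (t' * F.y * t'⁻¹) := by
      rw [ht'y]; exact hrx.mul_right (hR.cent r hr).inv_right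
    have h2 := h1.map (MulAut.conj t')
    simp only [MulAut.conj_apply] at h2
    rwa [show t' * (t' * F.y * t'⁻¹) * t'⁻¹ = t' * t' * F.y * (t' * t')⁻¹ by group, ht'2, one_mul,
      inv_one, mul_one] at h2
  have hback : ∀ v r, r ∈ R → Commute r (g * v * g⁻¹) →
      Commute (g⁻¹ * r * g) v ∧ Commute (g⁻¹ * r * g) F.y ∧ Odd (orderOf (g⁻¹ * r * g)) := by
    intro v r hr hrv
    refine ⟨?_, hgi r (hcen r hr).symm, ?_⟩
    · have h1 := hrv.map (MulAut.conj g⁻¹)
      simp only [MulAut.conj_apply, inv_inv] at h1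
      rwa [show g⁻¹ * (g * v * g⁻¹) * g = v by group] at h1
    · rw [show g⁻¹ * r * g = MulAut.conj g⁻¹ r by simp [MulAut.conj_apply], MulEquiv.orderOf_eq]
      exact odd_orderOf_of_mem hR.odd hr
  have hx₀R : x₀ ∈ R := hR.contains z hIz _ (F.form_P (F.form_mul hfa hc₁))
  have hV' : R ⊓ Subgroup.centralizer {z} ⊓ Subgroup.centralizer {t'} = Subgroup.zpowers x₀ := by
    refine le_antisymm (fun r hr => ?_) (Subgroup.zpowers_le.mpr ⟨⟨hx₀R, ?_⟩, ?_⟩)
    · obtain ⟨h1, h2, h3⟩ := hback F.t r hr.1.1 (Subgroup.mem_centralizer_singleton_iff.mp hr.2)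
      have h4 := (hback z r hr.1.1 (by
        rw [hgz]; exact Subgroup.mem_centralizer_singleton_iff.mp hr.1.2)).1
      obtain ⟨m, hm⟩ := Subgroup.mem_zpowers_iff.mp (F.mem_zpowers_y h2 h4 h1 h3)
      refine Subgroup.mem_zpowers_iff.mpr ⟨m, ?_⟩
      rw [← hgy, conj_zpow, hm]; group
    · exact Subgroup.mem_centralizer_singleton_iff.mpr hx₀z.eq
    · exact Subgroup.mem_centralizer_singleton_iff.mpr ht'x.symm.eq
  have hcardx : Nat.card (Subgroup.zpowers x₀) = 3 := by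
    rw [Nat.card_zpowers, ← hgy, show g * F.y * g⁻¹ = MulAut.conj g F.y from rfl,
      MulEquiv.orderOf_eq]
    exact F.y_ord (by norm_num)
  have hle : ∀ v (hv : F.Inv v), R ⊓ Subgroup.centralizer {g * v * g⁻¹} ≤
      (F.A hv).map (MulAut.conj g).toMonoidHom := by
    intro v hv r hr
    obtain ⟨h1, h2, h3⟩ := hback v r hr.1 (Subgroup.mem_centralizer_singleton_iff.mp hr.2)
    refine ⟨g⁻¹ * r * g, F.P_of_odd hv h2 h1 h3, ?_⟩
    simp only [MulEquiv.coe_toMonoidHom, MulAut.conj_apply]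
    group
  have hcardA : ∀ v (hv : F.Inv v),
      Nat.card ↥((F.A hv).map (MulAut.conj g).toMonoidHom) = 27 := fun v hv => by
    rw [Subgroup.card_map_of_injective (MulAut.conj g).injective, F.card_A hv]
  have hzt' : z * t' = g * (F.t * z) * g⁻¹ := by rw [← ht'z.eq, ht', ← conj_mul, hgz]
  have hb := CfsgLib.FourTransitive.card_mul_sq_eq hR.odd S.z_sq ht'2 ht'z.symm.eq
    (hR.norm z hIz) hnt'
  rw [hV', hcardx, F.inf_cent_eq_A hR.odd hR.cent hIz (hR.contains z hIz), hR.card, hzt'] at hb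
  have hu1 := Subgroup.card_le_of_le (hle F.t hIt)
  have hu2 := Subgroup.card_le_of_le (hle (F.t * z) hItz)
  rw [hcardA F.t hIt, ← ht'] at hu1
  rw [hcardA _ hItz] at hu2
  have hp : Nat.card ↥(R ⊓ Subgroup.centralizer {t'}) = 27 ∧
      Nat.card ↥(R ⊓ Subgroup.centralizer {g * (F.t * z) * g⁻¹}) = 27 := by
    constructor <;> nlinarith
  have hin : ∀ v, F.Inv v → ∀ e, F.P v e → g * e * g⁻¹ ∈ R := by
    intro v hv e he
    have hmem : g * e * g⁻¹ ∈ (F.A hv).map (MulAut.conj g).toMonoidHom :=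
      ⟨e, he, by simp [MulAut.conj_apply]⟩
    have hge : Nat.card ↥((F.A hv).map (MulAut.conj g).toMonoidHom) ≤
        Nat.card ↥(R ⊓ Subgroup.centralizer {g * v * g⁻¹}) := by
      rw [hcardA]
      rcases hv with e' | e' | e' <;> rw [e']
      · rw [hgz, F.inf_cent_eq_A hR.odd hR.cent (Or.inl rfl) (hR.contains z (Or.inl rfl))]
      · exact le_of_eq hp.1.symm
      · exact le_of_eq hp.2.symm
    rw [← Subgroup.eq_of_le_of_card_ge (hle v hv) hge] at hmem
    exact hmem.1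
  have hmap : R.map (MulAut.conj g).toMonoidHom = R := by
    refine Subgroup.eq_of_le_of_card_ge (Subgroup.map_le_iff_le_comap.mpr (hR.le_of_A ?_)) ?_
    · intro v hv e he
      show (MulAut.conj g).toMonoidHom e ∈ R
      simpa [MulAut.conj_apply] using hin v hv e he
    · rw [Subgroup.card_map_of_injective (MulAut.conj g).injective]
  -- the image of `x₀` is central, hence so is `c₁`
  have hx₁ : ∀ r ∈ R, Commute (c₁ * F.b) r := by
    intro r hr
    rw [← hmap] at hr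
    obtain ⟨r', hr', rfl⟩ := hr
    have h1 := (hcen r' hr').map (MulAut.conj g)
    simp only [MulAut.conj_apply] at h1
    rw [show g * x₀ * g⁻¹ = c₁ * F.b by rw [hx₀, ← conj_mul, hga, hgc]] at h1
    simpa [MulAut.conj_apply] using h1
  refine hR.not_central_c hQ fun r hr => hc₁c r ?_
  have h1 := (((hcen r hr).mul_left (hx₁ r hr)).mul_left (hR.cent r hr).symm.inv_left)
  have e : F.a * c₁ * (c₁ * F.b) * F.y⁻¹ = c₁ * c₁ := by
    rw [Frame.y, mul_inv_rev, show F.a * c₁ * (c₁ * F.b) * (F.b⁻¹ * F.a⁻¹) =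
      F.a * (c₁ * c₁) * F.a⁻¹ by group, (cac.mul_right cac).eq, mul_inv_cancel_right]
  rw [e] at h1
  have h3 := (F.form_P hc₁).2.2
  have := h1.mul_left h1
  rwa [show c₁ * c₁ * (c₁ * c₁) = c₁ ^ 3 * c₁ by rw [pow_succ, pow_two]; group, h3,
    one_mul] at this

theorem not_mem_zpowers_y_of_img (F : Frame S h9) (i k : Fin 3) (hi : i ≠ 0 ∨ k ≠ 0) :
    F.a ^ (i : ℕ) * F.c ^ (k : ℕ) ∉ Subgroup.zpowers F.y := by
  intro h
  obtain ⟨m, hm⟩ := Subgroup.mem_zpowers_iff.mp h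
  rw [zpow_eq_zpow_emod' m F.y_pow] at hm
  obtain ⟨n, hn⟩ := Int.eq_ofNat_of_zero_le (Int.emod_nonneg m (by norm_num : ((3 : ℕ) : ℤ) ≠ 0))
  have hn3 : n < 3 := by
    have := Int.emod_lt_of_pos m (by norm_num : (0 : ℤ) < ((3 : ℕ) : ℤ))
    omega
  rw [hn, zpow_natCast, Frame.y, F.ab.mul_pow] at hm
  have h1 : S.img (F.a ^ n * F.b ^ n * F.c ^ (0 : ℕ)) =
      S.img (F.a ^ (i : ℕ) * F.b ^ (0 : ℕ) * F.c ^ (k : ℕ)) := by
    simp only [pow_zero, mul_one, hm]
  rw [F.img_form, F.img_form] at h1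
  obtain ⟨e1, e2, e3⟩ := abc_inj h9 ⟨n, hn3⟩ ⟨n, hn3⟩ 0 i 0 k h1
  rcases hi with hi | hi
  · exact hi (e1.symm.trans e2)
  · exact hi e3.symm

theorem Good.false (hR : F.Good R) (hQ : F.BigQ Q) {e : G} (he : F.Form e)
    (hne : e ∉ Subgroup.zpowers F.y) (hcen : ∀ r ∈ R, Commute e r) : False := by
  obtain ⟨i, j, k, rfl⟩ := he
  -- reduce modulo `y`
  set m := (i + 2 * j) % 3 with hm
  set l := k % 3 with hl
  have hred : F.a ^ i * F.b ^ j * F.c ^ k * F.y ^ (2 * j) = F.a ^ m * F.c ^ l := by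
    rw [mul_assoc _ (F.c ^ k), (F.c_y.pow_pow k (2 * j)).eq, ← mul_assoc,
      Frame.y, F.ab.mul_pow, show F.a ^ i * F.b ^ j * (F.a ^ (2 * j) * F.b ^ (2 * j)) =
        F.a ^ i * (F.b ^ j * F.a ^ (2 * j)) * F.b ^ (2 * j) by group,
      (F.ab.symm.pow_pow j (2 * j)).eq, ← mul_assoc, ← pow_add, mul_assoc (F.a ^ _) (F.b ^ j),
      ← pow_add, show j + 2 * j = 3 * j by omega, pow_mul, F.b_pow, one_pow, mul_one,
      hm, hl, ← pow_eq_pow_mod _ F.a_pow, ← pow_eq_pow_mod _ F.c_pow]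
  have hcen' : ∀ r ∈ R, Commute (F.a ^ m * F.c ^ l) r := fun r hr => by
    rw [← hred]; exact (hcen r hr).mul_left ((hR.cent r hr).symm.pow_left _)
  have hne' : m ≠ 0 ∨ l ≠ 0 := by
    by_contra hcon
    push Not at hcon
    apply hne
    have : F.a ^ i * F.b ^ j * F.c ^ k = (F.y ^ (2 * j))⁻¹ := by
      rw [eq_inv_iff_mul_eq_one, hred, hcon.1, hcon.2, pow_zero, pow_zero, one_mul]
    rw [this]
    exact inv_mem (Subgroup.pow_mem _ (Subgroup.mem_zpowers _) _)
  have sq_back : ∀ {x r : G}, x ^ 3 = 1 → Commute (x ^ 2) r → Commute x r := fun {x r} hx h => by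
    have := h.pow_left 2
    rwa [← pow_mul, show 2 * 2 = 3 + 1 by norm_num, pow_succ, hx, one_mul] at this
  have hml : m < 3 ∧ l < 3 := ⟨Nat.mod_lt _ (by norm_num), Nat.mod_lt _ (by norm_num)⟩
  by_cases hl0 : l = 0
  · refine hR.not_central_a hQ fun r hr => ?_
    have h1 := hcen' r hr
    rw [hl0, pow_zero, mul_one] at h1
    rcases (show m = 1 ∨ m = 2 by omega) with e | e <;> rw [e] at h1
    · rwa [pow_one] at h1
    · exact sq_back F.a_pow h1
  by_cases hm0 : m = 0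
  · refine hR.not_central_c hQ fun r hr => ?_
    have h1 := hcen' r hr
    rw [hm0, pow_zero, one_mul] at h1
    rcases (show l = 1 ∨ l = 2 by omega) with e | e <;> rw [e] at h1
    · rwa [pow_one] at h1
    · exact sq_back F.c_pow h1
  -- scale to `a * c` or `a * c⁻¹`
  set q := l * m % 3 with hq
  have hq' : q = 1 ∨ q = 2 := by
    rcases (show m = 1 ∨ m = 2 by omega) with e | e <;>
      rcases (show l = 1 ∨ l = 2 by omega) with e' | e' <;> simp [hq, e, e']
  have hscale : ∀ r ∈ R, Commute (F.a * F.c ^ q) r := fun r hr => by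
    have h1 := (hcen' r hr).pow_left m
    rwa [(F.ac.pow_pow m l).mul_pow, ← pow_mul, ← pow_mul, pow_eq_pow_mod (l * m) F.c_pow, ← hq,
      show F.a ^ (m * m) = F.a by
        rw [pow_eq_pow_mod _ F.a_pow]
        rcases (show m = 1 ∨ m = 2 by omega) with e | e <;> norm_num [e]] at h1
  have hnY : F.a * F.c ^ q ∉ Subgroup.zpowers F.y := by
    have := F.not_mem_zpowers_y_of_img 1 ⟨q, by omega⟩ (Or.inl (by decide))
    simpa using this
  rcases hq' with e | e <;> rw [e] at hscale hnY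
  · obtain ⟨hs, ha, hb, hc⟩ := ninePP_facts h9
    obtain ⟨g, hg, hgi⟩ := S.exists_img hs
    rw [pow_one] at hscale hnY
    exact hR.not_central_ac hQ ⟨0, 0, 1, by simp⟩ F.c_tc (fun r h => h) hg
      (S.conj_eq_of_img hg hgi F.a_comm F.c_comm F.a_odd F.c_odd (by rw [F.img_a, F.img_c]; exact ha))
      (S.conj_eq_of_img hg hgi F.b_comm F.a_comm F.b_odd F.a_odd (by rw [F.img_a, F.img_b]; exact hb))
      (S.conj_eq_of_img hg hgi F.c_comm F.b_comm F.c_odd F.b_odd (by rw [F.img_c, F.img_b]; exact hc))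
      hnY hscale
  · obtain ⟨hs, ha, hb, hc⟩ := ninePM_facts h9
    obtain ⟨g, hg, hgi⟩ := S.exists_img hs
    have hci : F.c ^ 2 = F.c⁻¹ :=
      (inv_eq_of_mul_eq_one_right (by rw [← pow_succ']; exact F.c_pow)).symm
    rw [hci] at hscale hnY
    have hgc : g * F.c * g⁻¹ = F.b⁻¹ := S.conj_eq_of_img hg hgi F.c_comm F.b_comm.inv_left F.c_odd
      (by rw [orderOf_inv]; exact F.b_odd)
      (by rw [S.img_inv F.b_comm, F.img_c, F.img_b]; exact hc)
    exact hR.not_central_ac hQ ⟨0, 0, 2, by rw [pow_zero, pow_zero, one_mul, one_mul, hci]⟩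
      (by rw [← conj_inv, F.c_tc]) (fun r h => by simpa using h.inv_left) hg
      (S.conj_eq_of_img hg hgi F.a_comm F.c_comm.inv_left F.a_odd
        (by rw [orderOf_inv]; exact F.c_odd)
        (by rw [S.img_inv F.c_comm, F.img_a, F.img_c]; exact ha))
      (S.conj_eq_of_img hg hgi F.b_comm F.a_comm F.b_odd F.a_odd (by rw [F.img_a, F.img_b]; exact hb))
      (by rw [← conj_inv, hgc, inv_inv]) hnY hscale

theorem false_of_xdata {x : G} (hX : F.XData Q x) : False := by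
  obtain ⟨R, hR⟩ := exists_good hX
  obtain ⟨R', hR', e, he, hne, hcen⟩ := hR.exists_good_z
  exact hR'.false hX.big he hne hcen

end Frame

/-- In degree nine the centraliser of a three-cycle has no normal 3-subgroup of order 243 on which
`z` fixes only the three-cycle. -/
theorem Frame.big_false {n : ℕ} {S : Setting G n z} {h9 : 9 ≤ n} (F : Frame S h9) (hn : n = 9)
    {Q : Subgroup G} (h3 : IsPGroup 3 Q) (hcard : Nat.card Q = 243) (hc : F.c ∈ Q)
    (hcomm : ∀ x ∈ Q, Commute x F.c)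
    (hnorm : ∀ g x, Commute g F.c → x ∈ Q → g * x * g⁻¹ ∈ Q)
    (hz : ∀ x ∈ Q, Commute x z → x ∈ Subgroup.zpowers F.c)
    (ht : Nat.card (Q ⊓ Subgroup.centralizer {F.t} : Subgroup G) = 9)
    (htz : Nat.card (Q ⊓ Subgroup.centralizer {F.t * z} : Subgroup G) = 9)
    (hmax : ∀ r, Commute r F.c → z * r * z⁻¹ = r⁻¹ → r ^ 3 = 1 → r ∈ Q) : False := by
  subst hn
  obtain ⟨x, hx | hx⟩ :=
    BigQ.exists_x (⟨h3, hcard, hc, hcomm, hnorm, hz, ht, htz, hmax⟩ : F.BigQ Q)
  · exact Frame.false_of_xdata hx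
  · exact Frame.false_of_xdata hx

end CfsgLib.AltDoubleCent
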