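import Cfsg.Agent.Lib.AltDoubleCent.BigLocal
import Cfsg.Agent.Lib.FourTransitive.FourGroupOdd
import Cfsg.Agent.Lib.InvChar.FourGroup
import Cfsg.Agent.Lib.GW.ThreeCoprime

/-!
Degree nine: the normal subgroup of order 243 in the centraliser of a three-cycle.
-/

set_option autoImplicit false
set_option linter.unusedSectionVars false
set_option linter.style.haveILetI false
set_option linter.unusedVariables false

namespace CfsgLib.AltDoubleCent

open Equiv CfsgLib.Classes.AltCoverComm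

universe u

variable {G : Type u} [Group G] [Finite G] {z : G} {S : Setting G 9 z} {h9 : 9 ≤ 9}

/-- A lift maps a lift of odd order to the lift of odd order of the conjugate image. -/
theorem Setting.conj_eq_of_img (S : Setting G 9 z) {g x x' : G} {σ : Perm (Fin 9)}
    (hg : Commute g z) (hgi : S.img g = σ) (hx : Commute x z) (hx' : Commute x' z)
    (hox : Odd (orderOf x)) (hox' : Odd (orderOf x'))
    (h : σ * S.img x * σ⁻¹ = S.img x') : g * x * g⁻¹ = x' :=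
  (S.eq_of_odd ((hg.mul_left hx).mul_left hg.inv_left) hx'
    (by rwa [show g * x * g⁻¹ = MulAut.conj g x from rfl, MulEquiv.orderOf_eq]) hox'
    (by rw [S.img_conj hg hx, hgi, h])).symm

namespace Frame

variable (F : Frame S h9)

/-- The hypotheses on the subgroup of order 243 of the centraliser of `c`. -/
structure BigQ (Q : Subgroup G) : Prop where
  isp : IsPGroup 3 Q
  card : Nat.card Q = 243
  c_mem : F.c ∈ Q
  comm : ∀ x ∈ Q, Commute x F.c
  norm : ∀ g x, Commute g F.c → x ∈ Q → g * x * g⁻¹ ∈ Q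
  cent_z : ∀ x ∈ Q, Commute x z → x ∈ Subgroup.zpowers F.c
  card_t : Nat.card ↥(Q ⊓ Subgroup.centralizer {F.t}) = 9
  card_tz : Nat.card ↥(Q ⊓ Subgroup.centralizer {F.t * z}) = 9
  max : ∀ r, Commute r F.c → z * r * z⁻¹ = r⁻¹ → r ^ 3 = 1 → r ∈ Q

theorem c_tc : F.t * F.c * F.t⁻¹ = F.c⁻¹ := F.t_conj_c (by norm_num)

/-- The four-group formula for a subgroup normalised by `z` and `t`. -/
theorem bw {R : Subgroup G} (hodd : Odd (Nat.card R)) (hnz : ∀ g ∈ R, z * g * z⁻¹ ∈ R)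
    (hnt : ∀ g ∈ R, F.t * g * F.t⁻¹ ∈ R) :
    Nat.card R * Nat.card ↥(R ⊓ Subgroup.centralizer {z} ⊓ Subgroup.centralizer {F.t}) ^ 2 =
      Nat.card ↥(R ⊓ Subgroup.centralizer {z}) * Nat.card ↥(R ⊓ Subgroup.centralizer {F.t}) *
        Nat.card ↥(R ⊓ Subgroup.centralizer {F.t * z}) := by
  rw [F.t_comm.eq]
  exact CfsgLib.FourTransitive.card_mul_sq_eq hodd S.z_sq F.t_sq F.t_comm.symm.eq hnz hnt

/-- A subgroup normalised by `z` and `t` is generated by the three fixed subgroups. -/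
theorem le_of_parts {R K : Subgroup G} (hodd : Odd (Nat.card R)) (hnz : ∀ g ∈ R, z * g * z⁻¹ ∈ R)
    (hnt : ∀ g ∈ R, F.t * g * F.t⁻¹ ∈ R)
    (h : ∀ v, F.Inv v → ∀ g ∈ R, Commute g v → g ∈ K) : R ≤ K := by
  refine (CfsgLib.InvChar.le_sup_centralizers hodd S.z_sq F.t_sq F.t_comm.symm.eq hnz hnt).trans
    (sup_le (sup_le ?_ ?_) ?_)
  · exact fun g hg => h z (Or.inl rfl) g hg.1 (Subgroup.mem_centralizer_singleton_iff.mp hg.2)
  · exact fun g hg => h F.t (Or.inr (Or.inl rfl)) g hg.1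
      (Subgroup.mem_centralizer_singleton_iff.mp hg.2)
  · intro g hg
    refine h (F.t * z) (Or.inr (Or.inr rfl)) g hg.1 ?_
    rw [F.t_comm.eq]
    exact Subgroup.mem_centralizer_singleton_iff.mp hg.2

variable {F}

theorem c_zpow {f : G} (hf : f ∈ Subgroup.zpowers F.c) : Commute z f := by
  obtain ⟨m, rfl⟩ := Subgroup.mem_zpowers_iff.mp hf
  exact F.c_comm.symm.zpow_right m

namespace BigQ

variable {Q : Subgroup G} (hQ : F.BigQ Q)

include hQ in
theorem odd : Odd (Nat.card Q) := by rw [hQ.card]; decide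

include hQ in
theorem z_norm : ∀ x ∈ Q, z * x * z⁻¹ ∈ Q := fun x hx => hQ.norm z x F.c_comm.symm hx

include hQ in
theorem other : F.other.BigQ Q := by
  refine ⟨hQ.isp, hQ.card, hQ.c_mem, hQ.comm, hQ.norm, hQ.cent_z, hQ.card_tz, ?_, hQ.max⟩
  rw [show F.other.t * z = F.t from F.t_mul_z_z]
  exact hQ.card_t

include hQ in
theorem inverted_of_t {q : G} (hq : q ∈ Q) (hqt : Commute q F.t) : z * q * z⁻¹ = q⁻¹ := by
  have hconj : ∀ {v : G}, Commute v z → Commute v F.t → ∀ x, Commute x F.t →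
      Commute (v * x * v⁻¹) F.t := fun h1 h2 x hx => (h2.mul_left hx).mul_left h2.inv_left
  set H := Q ⊓ Subgroup.centralizer ({F.t} : Set G) with hH
  have hzH : ∀ x ∈ H, z * x * z⁻¹ ∈ H := fun x hx => ⟨hQ.z_norm x hx.1,
    Subgroup.mem_centralizer_singleton_iff.mpr (hconj (Commute.refl z) F.t_comm.symm x
      (Subgroup.mem_centralizer_singleton_iff.mp hx.2)).eq⟩
  have hnor : z ∈ Subgroup.normalizer (H : Set G) :=
    Subgroup.mem_normalizer_iff.mpr fun y => ⟨hzH y, fun h => by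
      have := hzH _ h
      rwa [show z * (z * y * z⁻¹) * z⁻¹ = z * z * y * (z * z)⁻¹ by group, S.z_sq, one_mul, inv_one,
        mul_one] at this⟩
  obtain ⟨f, hf, i, hi, hfz, hiz, rfl⟩ := CfsgLib.GW.exists_fixed_mul_inverted S.z_sq hnor
    (hQ.odd.of_dvd_nat (Subgroup.card_dvd_of_le inf_le_left)) (y := q)
    ⟨hq, Subgroup.mem_centralizer_singleton_iff.mpr hqt.eq⟩
  obtain ⟨m, hm⟩ := Subgroup.mem_zpowers_iff.mp (hQ.cent_z f hf.1 (Eq.symm hfz))
  have hfi : F.t * f * F.t⁻¹ = f⁻¹ := by rw [← hm, ← conj_zpow, F.c_tc, inv_zpow]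
  have hf1 : f = 1 := eq_one_of_fixed_inverted (odd_orderOf_of_mem hQ.odd hf.1)
    (Subgroup.mem_centralizer_singleton_iff.mp hf.2).symm hfi
  rw [hf1, one_mul]
  exact hiz

include hQ in
theorem inverted_of_tz {q : G} (hq : q ∈ Q) (hqt : Commute q (F.t * z)) : z * q * z⁻¹ = q⁻¹ :=
  hQ.other.inverted_of_t hq hqt

include hQ in
theorem exists_parts {x : G} (hx : x ∈ Q) : ∃ p q f : G, p ∈ Q ∧ Commute p F.t ∧ q ∈ Q ∧
    Commute q (F.t * z) ∧ f ∈ Subgroup.zpowers F.c ∧ x = p * q * f := by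
  have hz : Subgroup.zpowers F.c ≤ Q := Subgroup.zpowers_le.mpr hQ.c_mem
  let φ : ↥(Q ⊓ Subgroup.centralizer ({F.t} : Set G)) ×
      ↥(Q ⊓ Subgroup.centralizer ({F.t * z} : Set G)) × ↥(Subgroup.zpowers F.c) → Q :=
    fun w => ⟨w.1 * w.2.1 * w.2.2, Q.mul_mem (Q.mul_mem w.1.2.1 w.2.1.2.1) (hz w.2.2.2)⟩
  have hinj : Function.Injective φ := by
    rintro ⟨p, q, f⟩ ⟨p', q', f'⟩ h
    have h0 : (p : G) * q * f = p' * q' * f' := congrArg Subtype.val h
    have hp := (p'⁻¹ * p).2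
    have hq := (q' * q⁻¹).2
    set e₁ : G := (p' : G)⁻¹ * p with he₁
    set e₂ : G := (q' : G) * (q : G)⁻¹ with he₂
    set m : G := (f' : G) * (f : G)⁻¹ with hm
    have hmc : m ∈ Subgroup.zpowers F.c :=
      mul_mem f'.2 (inv_mem f.2)
    have hcent : ∀ w ∈ Q, Commute m w := fun w hw => by
      obtain ⟨k, hk⟩ := Subgroup.mem_zpowers_iff.mp hmc
      rw [← hk]; exact (hQ.comm w hw).symm.zpow_left k
    have he : e₁ = e₂ * m := by
      have h1 : (p' : G)⁻¹ * p = q' * m * (q : G)⁻¹ := by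
        calc (p' : G)⁻¹ * p = (p' : G)⁻¹ * (p * q * f) * (f : G)⁻¹ * (q : G)⁻¹ := by group
          _ = q' * (f' * (f : G)⁻¹) * (q : G)⁻¹ := by rw [h0]; group
      rw [he₁, h1, mul_assoc, (hcent _ (Q.inv_mem q.2.1)).eq, ← mul_assoc]
    have h1t : Commute F.t e₁ := (Subgroup.mem_centralizer_singleton_iff.mp hp.2).symm
    have h2tz : Commute (F.t * z) e₂ := (Subgroup.mem_centralizer_singleton_iff.mp hq.2).symm
    have h1z : z * e₁ * z⁻¹ = e₁⁻¹ := hQ.inverted_of_t hp.1 h1t.symm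
    have h2z : z * e₂ * z⁻¹ = e₂⁻¹ := hQ.inverted_of_tz hq.1 h2tz.symm
    have hmz : z * m * z⁻¹ = m := by rw [(c_zpow hmc).eq, mul_inv_cancel_right]
    have h2 : e₂ = 1 := by
      have hz1 : z * e₁ * z⁻¹ = e₂⁻¹ * m := by rw [he, ← conj_mul, h2z, hmz]
      have h3 : e₂⁻¹ * m = (e₂ * m)⁻¹ := by rw [← hz1, h1z, he]
      have hme : Commute m e₂⁻¹ := hcent _ (Q.inv_mem hq.1)
      rw [show (e₂ * m)⁻¹ = m⁻¹ * e₂⁻¹ from mul_inv_rev _ _, hme.inv_left.eq] at h3
      have hm1 : m = 1 := eq_one_of_sq (odd_orderOf_of_mem hQ.odd (hz hmc)) (by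
        nth_rewrite 1 [mul_left_cancel h3]
        exact inv_mul_cancel m)
      have h4 : Commute F.t e₂ := by
        have : e₁ = e₂ := by rw [he, hm1, mul_one]
        exact this ▸ h1t
      refine eq_one_of_fixed_inverted (odd_orderOf_of_mem hQ.odd hq.1) ?_ h2z
      have h5 := h4.mul_left h2tz
      rwa [← mul_assoc, F.t_sq, one_mul] at h5
    rw [h2, one_mul] at he
    have hm1 : m = 1 := by
      refine eq_one_of_fixed_inverted (odd_orderOf_of_mem hQ.odd (hz hmc)) (c_zpow hmc) ?_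
      rw [← he]; exact h1z
    refine Prod.ext (Subtype.ext ?_) (Prod.ext (Subtype.ext ?_) (Subtype.ext ?_))
    · rw [hm1] at he; exact (inv_mul_eq_one.mp he).symm
    · exact (mul_inv_eq_one.mp h2).symm
    · exact (mul_inv_eq_one.mp hm1).symm
  have hsur := ((Nat.bijective_iff_injective_and_card φ).mpr ⟨hinj, by
    rw [Nat.card_prod, Nat.card_prod, hQ.card_t, hQ.card_tz, hQ.card, Nat.card_zpowers, F.c_ord]⟩).2
  obtain ⟨⟨p, q, f⟩, h⟩ := hsur ⟨x, hx⟩
  exact ⟨p, q, f, p.2.1, Subgroup.mem_centralizer_singleton_iff.mp p.2.2, q.2.1,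
    Subgroup.mem_centralizer_singleton_iff.mp q.2.2, f.2, (congrArg Subtype.val h).symm⟩

include hQ in
theorem t_norm : ∀ x ∈ Q, F.t * x * F.t⁻¹ ∈ Q := by
  intro x hx
  obtain ⟨p, q, f, hp, hpt, hq, hqt, hf, rfl⟩ := hQ.exists_parts hx
  rw [← conj_mul, ← conj_mul]
  refine Q.mul_mem (Q.mul_mem ?_ ?_) ?_
  · rwa [hpt.symm.eq, mul_inv_cancel_right]
  · have h1 : F.t * q * F.t⁻¹ = q⁻¹ := by
      have h2 : F.t * z * q * (F.t * z)⁻¹ = q := by rw [← hqt.eq, mul_inv_cancel_right]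
      calc F.t * q * F.t⁻¹ = F.t * z * (z⁻¹ * q * z) * (F.t * z)⁻¹ := by group
        _ = F.t * z * (z * q * z⁻¹) * (F.t * z)⁻¹ := by rw [S.z_inv]
        _ = (F.t * z * q * (F.t * z)⁻¹)⁻¹ := by rw [hQ.inverted_of_tz hq hqt, conj_inv]
        _ = q⁻¹ := by rw [h2]
    rw [h1]; exact Q.inv_mem hq
  · obtain ⟨k, hk⟩ := Subgroup.mem_zpowers_iff.mp hf
    rw [← hk, ← conj_zpow, F.c_tc, inv_zpow]
    exact Q.inv_mem (Q.zpow_mem hQ.c_mem k)

/-- The lifts of `(3 4 5)` and `(0 1 2)(3 4 5)` do not centralise `Q`. -/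
theorem not_central {r : G} {σ : Perm (Fin 9)} (hr : Commute r z) (hrc : Commute r F.c)
    (hs : Perm.sign σ = 1) (hσc : σ * c0 h9 * σ⁻¹ = c0 h9) {p q r' t : Fin 9} (h4 : Four p q r' t)
    (himg : S.img r * (σ * S.img r * σ⁻¹) = swap p q * swap r' t) (hQ : F.BigQ Q)
    (hall : ∀ x ∈ Q, Commute x r) : False := by
  obtain ⟨h, hh, hhi⟩ := S.exists_img hs
  have hhc : Commute h F.c := mul_inv_eq_iff_eq_mul.mp
    (S.conj_eq_of_img hh hhi F.c_comm F.c_comm F.c_odd F.c_odd (by rw [F.img_c]; exact hσc))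
  have hr'z : Commute (h * r * h⁻¹) z := (hh.mul_left hr).mul_left hh.inv_left
  have hr'Q : ∀ x ∈ Q, Commute x (h * r * h⁻¹) := fun x hx => by
    have h1 := (hall _ (hQ.norm h⁻¹ x hhc.inv_left hx)).map (MulAut.conj h)
    simp only [MulAut.conj_apply] at h1
    rwa [show h * (h⁻¹ * x * h⁻¹⁻¹) * h⁻¹ = x by group] at h1
  have hz : z = r * (h * r * h⁻¹) * (r * (h * r * h⁻¹)) :=
    (S.sq_eq_z (hr.mul_left hr'z) h4 (by rw [S.img_mul hr hr'z, S.img_conj hh hr, hhi, himg])).symm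
  have hle : Q ≤ Subgroup.zpowers F.c := fun x hx => hQ.cent_z x hx (by
    rw [hz]
    exact (((hall x hx).mul_right (hr'Q x hx)).mul_right ((hall x hx).mul_right (hr'Q x hx))))
  have := Subgroup.card_le_of_le hle
  rw [hQ.card, Nat.card_zpowers, F.c_ord] at this
  omega

include hQ in
theorem not_central_b (hall : ∀ x ∈ Q, Commute x F.b) : False := by
  obtain ⟨hs, hc, hm⟩ := nineHB_facts h9
  exact not_central F.b_comm F.bc hs hc four_hb (by rw [F.img_b]; exact hm) hQ hall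

include hQ in
theorem not_central_y (hall : ∀ x ∈ Q, Commute x F.y) : False := by
  obtain ⟨hs, hc, hm⟩ := nineHY_facts h9
  exact not_central F.comm_y_z F.c_y.symm hs hc four_hy
    (by rw [show S.img F.y = a0 h9 * b0 h9 from F.img_y]; exact hm) hQ hall

include hQ in
/-- If `y` commutes with the fixed points of `t` and of `t * z` it centralises `Q`. -/
theorem false_of_y (h1 : ∀ x ∈ Q, Commute x F.t → Commute x F.y)
    (h2 : ∀ x ∈ Q, Commute x (F.t * z) → Commute x F.y) : False := by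
  refine hQ.not_central_y fun x hx => ?_
  obtain ⟨p, q, f, hp, hpt, hq, hqt, hf, rfl⟩ := hQ.exists_parts hx
  obtain ⟨k, hk⟩ := Subgroup.mem_zpowers_iff.mp hf
  exact ((h1 p hp hpt).mul_left (h2 q hq hqt)).mul_left (hk ▸ F.c_y.zpow_left k)

include hQ in
/-- The subgroup `P t` does not centralise `c`. -/
theorem not_At_le_c (hall : ∀ g, F.P F.t g → Commute g F.c) : False := by
  have ht : F.Inv F.t := Or.inr (Or.inl rfl)
  have hsub : CfsgLib.GW.invertedIn (F.A ht) z ⊆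
      ((Q ⊓ Subgroup.centralizer ({F.t} : Set G) : Subgroup G) : Set G) := fun i hi =>
    ⟨hQ.max i (hall i hi.1) hi.2 hi.1.2.2, Subgroup.mem_centralizer_singleton_iff.mpr hi.1.2.1.eq⟩
  have heq := Set.eq_of_subset_of_ncard_le hsub (le_of_eq (by
    rw [← Nat.card_coe_set_eq, ← Nat.card_coe_set_eq]
    exact hQ.card_t.trans (F.card_inverted ht (Or.inl rfl) (F.t_ne_z (by norm_num))).symm))
  have key : ∀ x ∈ Q, Commute x F.t → Commute x F.y := fun x hx hxt => by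
    have hmem : x ∈ ((Q ⊓ Subgroup.centralizer ({F.t} : Set G) : Subgroup G) : Set G) :=
      ⟨hx, Subgroup.mem_centralizer_singleton_iff.mpr hxt.eq⟩
    rw [← heq] at hmem
    exact hmem.1.1
  obtain ⟨d, hdz, hdc, hda, hdb, hdt, hdd⟩ := F.exists_d
  refine hQ.false_of_y key fun x hx hxt => ?_
  have hdy : d * F.y * d⁻¹ = F.y⁻¹ := by
    show d * (F.a * F.b) * d⁻¹ = (F.a * F.b)⁻¹
    rw [← conj_mul, hda, hdb, F.ab.eq, mul_inv_rev]
  have hdtz : d * (F.t * z) * d⁻¹ = F.t := by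
    rw [← conj_mul, hdt, hdz.eq, mul_inv_cancel_right, F.t_mul_z_z]
  have h1 : Commute (d * x * d⁻¹) F.t := by
    have := hxt.map (MulAut.conj d)
    simpa [MulAut.conj_apply, hdtz] using this
  have h2 := (key _ (hQ.norm d x hdc hx) h1).map (MulAut.conj d⁻¹)
  have h3 : d⁻¹ * F.y * d = F.y⁻¹ := by
    have h4 : d⁻¹ * (d * F.y * d⁻¹) * d = F.y := by group
    rw [hdy] at h4
    have := congrArg (·⁻¹) h4
    simpa [mul_assoc] using this
  simp only [MulAut.conj_apply, inv_inv, h3] at h2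
  rw [show d⁻¹ * (d * x * d⁻¹) * d = x by group] at h2
  simpa using h2.inv_right

end BigQ

end Frame

end CfsgLib.AltDoubleCent
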