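import Mathlib

/-!
General lemmas for degree nine: odd complements, elements central modulo a central subgroup, and
commutators of elements inverted by an involution.
-/

set_option autoImplicit false
set_option linter.unusedSectionVars false
set_option linter.style.haveILetI false

namespace CfsgLib.AltDoubleCent

open Subgroup

variable {G : Type*} [Group G] [Finite G]

theorem odd_orderOf_of_mem {R : Subgroup G} (hR : Odd (Nat.card R)) {x : G} (hx : x ∈ R) :
    Odd (orderOf x) :=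
  hR.of_dvd_nat (by rw [← Subgroup.orderOf_mk x hx]; exact orderOf_dvd_natCard _)

theorem eq_one_of_sq {x : G} (ho : Odd (orderOf x)) (h : x * x = 1) : x = 1 := by
  rw [← pow_two] at h
  have h2 := (Nat.dvd_prime Nat.prime_two).mp (orderOf_dvd_of_pow_eq_one h)
  rcases h2 with e | e
  · exact orderOf_eq_one_iff.mp e
  · rw [e] at ho; exact absurd ho (by decide)

theorem eq_one_of_fixed_inverted {x u : G} (ho : Odd (orderOf x)) (hf : Commute u x)
    (hi : u * x * u⁻¹ = x⁻¹) : x = 1 := by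
  apply eq_one_of_sq ho
  have : x = x⁻¹ := by rw [← hi, hf.eq, mul_inv_cancel_right]
  nth_rewrite 2 [this]
  exact mul_inv_cancel x

/-- A 2-subgroup centralised by its normaliser, and self-centralising among the 2-elements, has an
odd normal complement, made of all elements of odd order. -/
theorem exists_odd_complement {M V : Subgroup G} (hVM : V ≤ M) (hV : IsPGroup 2 V)
    (hfix : ∀ g ∈ M, (∀ v ∈ V, g * v * g⁻¹ ∈ V) → ∀ v ∈ V, Commute g v)
    (hcent : ∀ g ∈ M, (∀ v ∈ V, Commute g v) → (∃ k : ℕ, g ^ 2 ^ k = 1) → g ∈ V) :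
    ∃ L : Subgroup G, L ≤ M ∧ Odd (Nat.card L) ∧ Nat.card L * Nat.card V = Nat.card M ∧
      ∀ g : G, g ∈ L ↔ g ∈ M ∧ Odd (orderOf g) := by
  haveI : Fact (Nat.Prime 2) := ⟨Nat.prime_two⟩
  set V' : Subgroup M := V.subgroupOf M with hV'
  have hV'p : IsPGroup 2 V' := hV.of_equiv (subgroupOfEquivOfLe hVM).symm
  obtain ⟨P, hP⟩ := hV'p.exists_le_sylow
  have hPV : (P : Subgroup M) = V' := by
    by_contra hne
    haveI : Group.IsNilpotent (P : Subgroup M) := P.isPGroup'.isNilpotent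
    have htop : V'.subgroupOf (P : Subgroup M) < ⊤ :=
      lt_top_iff_ne_top.2 fun h => hne (le_antisymm (subgroupOf_eq_top.mp h) hP)
    obtain ⟨g, hgN, hgV⟩ := SetLike.exists_of_lt
      (Group.normalizerCondition_of_isNilpotent _ htop)
    have hnorm : ∀ v ∈ V, ((g : M) : G) * v * ((g : M) : G)⁻¹ ∈ V := fun v hv => by
      have h := (mem_normalizer_iff.1 hgN ⟨⟨v, hVM hv⟩, hP hv⟩).1 hv
      exact h
    obtain ⟨k, hk⟩ := P.isPGroup' g
    refine hgV (hcent _ (g : M).2 (hfix _ (g : M).2 hnorm) ⟨k, ?_⟩)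
    exact congrArg (fun x : (P : Subgroup M) => ((x : M) : G)) hk
  have hle : normalizer ((P : Subgroup M) : Set M) ≤ centralizer ((P : Subgroup M) : Set M) := by
    intro g hg
    refine mem_centralizer_iff.2 fun v hv => Subtype.ext ?_
    rw [hPV] at hg hv
    have hnorm : ∀ w ∈ V, (g : G) * w * (g : G)⁻¹ ∈ V := fun w hw =>
      (mem_normalizer_iff.1 hg ⟨w, hVM hw⟩).1 hw
    exact (hfix _ g.2 hnorm v hv).eq.symm
  set K := (MonoidHom.transferSylow P hle).ker with hK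
  have hc : IsComplement' K (P : Subgroup M) := MonoidHom.ker_transferSylow_isComplement' P hle
  have hindex : (P : Subgroup M).index = Nat.card K := hc.index_eq_card
  have hKodd : Odd (Nat.card K) := by
    rw [← hindex, Nat.odd_iff, ← Nat.two_dvd_ne_zero]
    exact P.not_dvd_index
  have hcard : Nat.card K * Nat.card V = Nat.card M := by
    rw [← hc.card_mul_card, hPV, hV', Nat.card_congr (subgroupOfEquivOfLe hVM).toEquiv]
  refine ⟨K.map M.subtype, map_subtype_le K, by rwa [card_subtype], by rwa [card_subtype], fun g => ?_⟩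
  constructor
  · rintro ⟨k, hk, rfl⟩
    refine ⟨k.2, ?_⟩
    show Odd (orderOf ((k : M) : G))
    rw [Subgroup.orderOf_coe]
    exact odd_orderOf_of_mem hKodd hk
  · rintro ⟨hgM, hgo⟩
    refine ⟨⟨g, hgM⟩, ?_, rfl⟩
    have hVc : ∀ x : (P : Subgroup M), ∃ k : ℕ, x ^ 2 ^ k = 1 := P.isPGroup'
    obtain ⟨k, hk⟩ := hVc (MonoidHom.transferSylow P hle ⟨g, hgM⟩)
    rw [SetLike.mem_coe, hK, MonoidHom.mem_ker, ← orderOf_eq_one_iff]
    have h1 : orderOf (MonoidHom.transferSylow P hle ⟨g, hgM⟩) ∣ orderOf g := by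
      rw [← Subgroup.orderOf_mk g hgM]
      exact orderOf_map_dvd _ _
    have h2 : orderOf (MonoidHom.transferSylow P hle ⟨g, hgM⟩) ∣ 2 ^ k :=
      orderOf_dvd_of_pow_eq_one hk
    exact Nat.eq_one_of_dvd_coprimes
      ((Nat.coprime_two_left.mpr hgo).pow_left k).symm h1 h2

/-- In a `p`-group `P`, a normal subgroup `Q` properly containing a normal subgroup `C` has an
element outside `C` which is central modulo `C`. -/
theorem exists_central_mod {p : ℕ} [Fact p.Prime] {P Q C : Subgroup G} (hP : IsPGroup p P)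
    (hQP : Q ≤ P) (hQn : ∀ g ∈ P, ∀ x ∈ Q, g * x * g⁻¹ ∈ Q)
    (hCn : ∀ g ∈ P, ∀ x ∈ C, g * x * g⁻¹ ∈ C) {q : G} (hq : q ∈ Q) (hqC : q ∉ C) :
    ∃ x ∈ Q, x ∉ C ∧ ∀ g ∈ P, g * x * g⁻¹ * x⁻¹ ∈ C := by
  haveI hCnor : (C.subgroupOf P).Normal := ⟨fun x hx g => hCn g g.2 x hx⟩
  haveI hQnor : (Q.subgroupOf P).Normal := ⟨fun x hx g => hQn g g.2 x hx⟩
  set π := QuotientGroup.mk' (C.subgroupOf P) with hπ
  set N := (Q.subgroupOf P).map π with hN
  haveI : N.Normal := hQnor.map π (QuotientGroup.mk'_surjective _)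
  have hπq : π ⟨q, hQP hq⟩ ≠ 1 := fun h => hqC ((QuotientGroup.eq_one_iff (N := C.subgroupOf P) ⟨q, hQP hq⟩).mp h)
  have hNne : N ≠ ⊥ := fun h => hπq (Subgroup.mem_bot.mp (h ▸ ⟨_, hq, rfl⟩))
  have hbar : IsPGroup p (P ⧸ C.subgroupOf P) := hP.to_quotient _
  have hdvd : p ∣ Nat.card N := by
    obtain ⟨m, hm⟩ := (hbar.to_subgroup N).exists_card_eq
    rcases Nat.eq_zero_or_pos m with rfl | hm0
    · exact absurd (card_eq_one.mp (by rw [hm, pow_zero])) hNne
    · exact hm ▸ dvd_pow_self p (by omega)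
  obtain ⟨⟨w, hwN⟩, hwfix, hwne⟩ :=
    (hbar.of_equiv ConjAct.toConjAct).exists_fixed_point_of_prime_dvd_card_of_fixed_point
      N hdvd (a := 1) (fun g => smul_one g)
  obtain ⟨x, hxQ, hxw⟩ := hwN
  refine ⟨x, hxQ, fun hxC => hwne ?_, fun g hg => ?_⟩
  · apply Subtype.ext
    show (1 : P ⧸ C.subgroupOf P) = w
    rw [← hxw]
    exact ((QuotientGroup.eq_one_iff x).mpr hxC).symm
  · have h := congrArg Subtype.val (hwfix (ConjAct.toConjAct (π ⟨g, hg⟩)))
    rw [ConjAct.Subgroup.val_conj_smul, ConjAct.smul_def, ConjAct.ofConjAct_toConjAct] at h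
    have h' : π (⟨g, hg⟩ * x * ⟨g, hg⟩⁻¹ * x⁻¹) = 1 := by
      rw [map_mul, map_mul, map_mul, map_inv, map_inv, hxw]
      simp only at h
      rw [h, mul_inv_cancel]
    rw [hπ, QuotientGroup.mk'_apply, QuotientGroup.eq_one_iff] at h'
    exact h'

/-- Two elements inverted by an involution commute up to a fixed element, if the fixed elements
are central. -/
theorem exists_comm_fixed {R : Subgroup G} (hR : Odd (Nat.card R)) {u : G} (hu : u * u = 1)
    (hn : ∀ x ∈ R, u * x * u⁻¹ ∈ R) (hcen : ∀ f ∈ R, Commute u f → ∀ x ∈ R, Commute f x)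
    {i j : G} (hi : i ∈ R) (hj : j ∈ R) (hui : u * i * u⁻¹ = i⁻¹) (huj : u * j * u⁻¹ = j⁻¹) :
    ∃ f ∈ R, Commute u f ∧ i * j = f * (j * i) := by
  set k := (u * (i * j) * u⁻¹)⁻¹ * (i * j) with hk
  obtain ⟨m, hm⟩ := hR
  have hkR : k ∈ R := R.mul_mem (R.inv_mem (hn _ (R.mul_mem hi hj))) (R.mul_mem hi hj)
  have hui' : u⁻¹ = u := inv_eq_of_mul_eq_one_right hu
  have hk' : k = j * i * (i * j) := by
    rw [hk, ← conj_mul, hui, huj]; group
  have huk : u * k * u⁻¹ = k⁻¹ := by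
    rw [hk', ← conj_mul, ← conj_mul, ← conj_mul, hui, huj]; group
  have hpow : k ^ (2 * m + 1) = 1 := by
    rw [← hm]
    have h := pow_card_eq_one' (x := (⟨k, hkR⟩ : R))
    exact congrArg Subtype.val h
  set r := k ^ (m + 1) with hr
  have hrr : r * r = k := by
    rw [hr, ← pow_add, show m + 1 + (m + 1) = 2 * m + 1 + 1 by omega, pow_succ, hpow, one_mul]
  have hrR : r ∈ R := R.pow_mem hkR _
  have hur : u * r * u⁻¹ = r⁻¹ := by rw [hr, ← conj_pow, huk, inv_pow]
  set f := i * j * r⁻¹ with hf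
  have hfR : f ∈ R := R.mul_mem (R.mul_mem hi hj) (R.inv_mem hrR)
  have hr' : r = f⁻¹ * (i * j) := by rw [hf]; group
  have huf : Commute u f := by
    have h1 : u * f * u⁻¹ = f := by
      rw [hf, ← conj_mul, ← conj_mul, ← conj_inv, hui, huj, hur, inv_inv]
      calc i⁻¹ * j⁻¹ * r = i⁻¹ * j⁻¹ * (r * r) * r⁻¹ := by group
        _ = i * j * r⁻¹ := by rw [hrr, hk']; group
    exact mul_inv_eq_iff_eq_mul.mp h1
  have hfc := hcen f hfR huf
  refine ⟨f * f, R.mul_mem hfR hfR, huf.mul_right huf, ?_⟩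
  have h1 : r * r = j * i * (i * j) := hrr.trans hk'
  rw [hr'] at h1
  have h2 : Commute f⁻¹ (i * j) := (hfc _ (R.mul_mem hi hj)).inv_left
  have h3 : f⁻¹ * f⁻¹ * ((i * j) * (i * j)) = j * i * (i * j) := by
    rw [← h1]
    calc f⁻¹ * f⁻¹ * (i * j * (i * j)) = f⁻¹ * (f⁻¹ * (i * j)) * (i * j) := by group
      _ = f⁻¹ * (i * j * f⁻¹) * (i * j) := by rw [h2.eq]
      _ = _ := by group
  have h4 : f⁻¹ * f⁻¹ * (i * j) = j * i :=
    mul_right_cancel (b := i * j) (by rw [← h3]; group)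
  rw [← h4]; group

/-- If `i` is fixed and `j` inverted by an involution, and their commutator is fixed and central,
then they commute. -/
theorem commute_of_comm_fixed {u i j f : G} (hof : Odd (orderOf f)) (huf : Commute u f)
    (hfj : Commute f j) (hi : Commute u i) (hj : u * j * u⁻¹ = j⁻¹) (h : i * j = f * (j * i)) :
    Commute i j := by
  have h1 : i * j * i⁻¹ = f * j := by rw [h]; group
  have h2 : i * j⁻¹ * i⁻¹ = f * j⁻¹ := by
    have hi' : u * i * u⁻¹ = i := by rw [hi.eq, mul_inv_cancel_right]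
    have hf' : u * f * u⁻¹ = f := by rw [huf.eq, mul_inv_cancel_right]
    calc i * j⁻¹ * i⁻¹ = (u * i * u⁻¹) * (u * j * u⁻¹) * (u * i * u⁻¹)⁻¹ := by rw [hi', hj]
      _ = u * (i * j * i⁻¹) * u⁻¹ := by group
      _ = (u * f * u⁻¹) * (u * j * u⁻¹) := by rw [h1]; group
      _ = f * j⁻¹ := by rw [hf', hj]
  have h3 : i * j⁻¹ * i⁻¹ = f⁻¹ * j⁻¹ := by
    rw [show i * j⁻¹ * i⁻¹ = (i * j * i⁻¹)⁻¹ by group, h1, mul_inv_rev, hfj.inv_inv.eq]
  have hf1 : f = 1 := eq_one_of_sq hof (by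
    nth_rewrite 2 [mul_right_cancel (h2.symm.trans h3)]
    exact mul_inv_cancel f)
  rw [hf1, one_mul] at h
  exact h

/-- In an abelian situation, an element fixed by one involution and inverted by another. -/
theorem inverted_mul {u p q : G} (hpq : Commute p q) (hp : u * p * u⁻¹ = p⁻¹)
    (hq : u * q * u⁻¹ = q⁻¹) : u * (p * q) * u⁻¹ = (p * q)⁻¹ := by
  rw [← conj_mul, hp, hq, ← mul_inv_rev, hpq.eq]

theorem inverted_inv {u p : G} (hp : u * p * u⁻¹ = p⁻¹) : u * p⁻¹ * u⁻¹ = p⁻¹⁻¹ := by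
  rw [← conj_inv, hp]

end CfsgLib.AltDoubleCent
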