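import Cfsg.Agent.Lib.AltDoubleCent.Frame

/-!
The big case in degree nine: neither `a` nor `a * b` centralises the three-group `Q`.
-/

set_option autoImplicit false
set_option linter.unusedSectionVars false
set_option maxRecDepth 20000

namespace CfsgLib.AltDoubleCent

open Equiv CfsgLib.RealChar.AltCover CfsgLib.Classes.AltCoverComm

universe u

variable {G : Type u} [Group G] {n : ℕ} {z : G}

/-- The permutations used to move `a` and `a * b`. -/
theorem kernel_facts (h9 : 9 ≤ 9) :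
    (Perm.sign (cyc (2 : Fin 9) 3 4) = 1 ∧
      cyc (2 : Fin 9) 3 4 * c0 h9 = c0 h9 * cyc (2 : Fin 9) 3 4 ∧
      a0 h9 * (cyc (2 : Fin 9) 3 4 * a0 h9 * (cyc (2 : Fin 9) 3 4)⁻¹) = swap 0 2 * swap 1 3) ∧
    (Perm.sign (swap (1 : Fin 9) 2 * swap 0 3 * swap 1 4 * swap 2 5) = 1 ∧
      swap (1 : Fin 9) 2 * swap 0 3 * swap 1 4 * swap 2 5 * c0 h9 =
        c0 h9 * (swap (1 : Fin 9) 2 * swap 0 3 * swap 1 4 * swap 2 5) ∧
      swap (1 : Fin 9) 2 * swap 0 3 * swap 1 4 * swap 2 5 * a0 h9 *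
        (swap (1 : Fin 9) 2 * swap 0 3 * swap 1 4 * swap 2 5)⁻¹ = b0 h9 ∧
      swap (1 : Fin 9) 2 * swap 0 3 * swap 1 4 * swap 2 5 * b0 h9 *
        (swap (1 : Fin 9) 2 * swap 0 3 * swap 1 4 * swap 2 5)⁻¹ = (a0 h9)⁻¹) := by
  revert h9; decide +kernel

namespace Frame

variable {S : Setting G n z} {h9 : 9 ≤ n} (F : Frame S h9)

/-- What centralises `Q` is closed under conjugation by the centraliser of `c`. -/
theorem cent_conj {Q : Subgroup G} (hnorm : ∀ g x, Commute g F.c → x ∈ Q → g * x * g⁻¹ ∈ Q)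
    {g d : G} (hg : Commute g F.c) (hd : ∀ x ∈ Q, Commute x d) :
    ∀ x ∈ Q, Commute x (g * d * g⁻¹) := by
  intro x hx
  have h := (hd _ (hnorm g⁻¹ x hg.inv_left hx)).map (MulAut.conj g)
  simpa [MulAut.conj_apply, mul_assoc] using h

/-- `a` does not centralise `Q`. -/
theorem big_a_not_cent [Finite G] (F : Frame S h9) (hn : n = 9) {Q : Subgroup G}
    (hcard : Nat.card Q = 243) (hz : ∀ x ∈ Q, Commute x z → x ∈ Subgroup.zpowers F.c)
    (hnorm : ∀ g x, Commute g F.c → x ∈ Q → g * x * g⁻¹ ∈ Q) :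
    ¬ (∀ x ∈ Q, Commute x F.a) := by
  subst hn
  intro ha
  obtain ⟨⟨hs, hc, he⟩, -⟩ := kernel_facts h9
  obtain ⟨g, hgz, hgi⟩ := S.exists_img hs
  have hgc : Commute g F.c := (S.commute_of_img F.c_comm hgz (by rw [F.c_ord]; decide)
    (by rw [F.img_c, hgi]; exact hc.symm)).symm
  have hxz : Commute (F.a * (g * F.a * g⁻¹)) z :=
    F.a_comm.mul_left ((hgz.mul_left F.a_comm).mul_left hgz.inv_left)
  have hsq : F.a * (g * F.a * g⁻¹) * (F.a * (g * F.a * g⁻¹)) = z := by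
    refine S.sq_eq_z hxz (p := 0) (q := 2) (r := 1) (t := 3) (by constructor <;> decide) ?_
    rw [S.img_mul F.a_comm ((hgz.mul_left F.a_comm).mul_left hgz.inv_left),
      S.img_conj hgz F.a_comm, F.img_a, hgi, he]
  have hle : Q ≤ Subgroup.zpowers F.c := fun x hx => hz x hx (by
    have h1 := (ha x hx).mul_right (F.cent_conj hnorm hgc ha x hx)
    rw [← hsq]
    exact h1.mul_right h1)
  have := Subgroup.card_le_of_le hle
  rw [hcard, Nat.card_zpowers, F.c_ord] at this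
  omega

/-- `a * b` does not centralise `Q`. -/
theorem big_y_not_cent [Finite G] (F : Frame S h9) (hn : n = 9) {Q : Subgroup G}
    (hcard : Nat.card Q = 243) (hz : ∀ x ∈ Q, Commute x z → x ∈ Subgroup.zpowers F.c)
    (hnorm : ∀ g x, Commute g F.c → x ∈ Q → g * x * g⁻¹ ∈ Q) :
    ¬ (∀ x ∈ Q, Commute x (F.a * F.b)) := by
  intro hy
  refine F.big_a_not_cent hn hcard hz hnorm fun x hx => ?_
  subst hn
  obtain ⟨-, hs, hc, ha, hb⟩ := kernel_facts h9
  obtain ⟨g, hgz, hgi⟩ := S.exists_img hs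
  have hgc : Commute g F.c := (S.commute_of_img F.c_comm hgz (by rw [F.c_ord]; decide)
    (by rw [F.img_c, hgi]; exact hc.symm)).symm
  have hoc : ∀ d : G, Odd (orderOf d) → Odd (orderOf (g * d * g⁻¹)) := fun d hd => by
    rwa [show g * d * g⁻¹ = MulAut.conj g d from rfl, MulEquiv.orderOf_eq]
  have hga : g * F.a * g⁻¹ = F.b := S.eq_of_odd F.b_comm
    ((hgz.mul_left F.a_comm).mul_left hgz.inv_left) F.b_odd (hoc _ F.a_odd)
    (by rw [S.img_conj hgz F.a_comm, F.img_a, F.img_b, hgi, ha])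
  have hgb : g * F.b * g⁻¹ = F.a⁻¹ := S.eq_of_odd F.a_comm.inv_left
    ((hgz.mul_left F.b_comm).mul_left hgz.inv_left) (by rw [orderOf_inv]; exact F.a_odd)
    (hoc _ F.b_odd) (by rw [S.img_conj hgz F.b_comm, S.img_inv F.a_comm, F.img_a, F.img_b, hgi, hb])
  have h1 := hy x hx
  have h2 : Commute x (F.b * F.a⁻¹) := by
    have h := F.cent_conj hnorm hgc hy x hx
    rwa [show g * (F.a * F.b) * g⁻¹ = g * F.a * g⁻¹ * (g * F.b * g⁻¹) by group, hga, hgb] at h
  have h3 : Commute x (F.b * F.b) := by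
    have h := h1.mul_right h2
    rwa [(F.commute_ab (by norm_num)).eq,
      show F.b * F.a * (F.b * F.a⁻¹) = F.b * (F.a * F.b) * F.a⁻¹ by group,
      (F.commute_ab (by norm_num)).eq,
      show F.b * (F.b * F.a) * F.a⁻¹ = F.b * F.b by group] at h
  have h4 : F.b * F.b * (F.b * F.b) = F.b := by
    have h := pow_orderOf_eq_one F.b
    rw [F.b_ord] at h
    calc F.b * F.b * (F.b * F.b) = F.b ^ 3 * F.b := by simp only [pow_succ, pow_zero, one_mul, mul_assoc]
      _ = F.b := by rw [h, one_mul]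
  have hxb : Commute x F.b := h4 ▸ h3.mul_right h3
  have h := h1.mul_right hxb.inv_right
  rwa [mul_inv_cancel_right] at h

end Frame

end CfsgLib.AltDoubleCent
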