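import Cfsg.Agent.Lib.AltDoubleCent.BigPerm
import Cfsg.Agent.Lib.AltDoubleCent.BigGroup
import Cfsg.Agent.Lib.GW.FourFormula

/-!
Degree nine: the centralisers of `a * b` and one of the involutions `z`, `t`, `t * z`.
-/

set_option autoImplicit false
set_option linter.unusedSectionVars false
set_option linter.style.haveILetI false
set_option linter.unusedVariables false

namespace CfsgLib.AltDoubleCent

open Equiv

universe u

variable {G : Type u} [Group G] {z : G} {S : Setting G 9 z} {h9 : 9 ≤ 9}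

namespace Frame

variable (F : Frame S h9)

/-- `a * b`. -/
def y : G := F.a * F.b

/-- The three involutions of the four-group `{1, z, t, t * z}`. -/
def Inv (v : G) : Prop := v = z ∨ v = F.t ∨ v = F.t * z

/-- The elements of order dividing three of the centraliser of `y` and `v`. -/
def P (v g : G) : Prop := Commute g F.y ∧ Commute g v ∧ g ^ 3 = 1

/-- The products of powers of `a`, `b`, `c`. -/
def Form (g : G) : Prop := ∃ i j k : ℕ, g = F.a ^ i * F.b ^ j * F.c ^ k

theorem comm_y_z : Commute F.y z := F.y_comm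

theorem t_y : Commute F.t F.y := F.t_comm_y (by norm_num)

theorem ab : Commute F.a F.b := F.commute_ab (by norm_num)

theorem ac : Commute F.a F.c := F.commute_ac (by norm_num)

theorem bc : Commute F.b F.c := F.commute_bc (by norm_num)

theorem a_pow : F.a ^ 3 = 1 := by rw [← F.a_ord]; exact pow_orderOf_eq_one _

theorem b_pow : F.b ^ 3 = 1 := by rw [← F.b_ord]; exact pow_orderOf_eq_one _

theorem c_pow : F.c ^ 3 = 1 := by rw [← F.c_ord]; exact pow_orderOf_eq_one _

theorem a_y : Commute F.a F.y := (Commute.refl F.a).mul_right F.ab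

theorem b_y : Commute F.b F.y := F.ab.symm.mul_right (Commute.refl F.b)

theorem c_y : Commute F.c F.y := F.ac.symm.mul_right F.bc.symm

theorem y_pow : F.y ^ 3 = 1 := by
  have h := pow_orderOf_eq_one (F.a * F.b)
  rwa [F.y_ord (by norm_num)] at h

theorem z_sq (F : Frame S h9) : z * z = 1 := S.z_sq

theorem z_inv (F : Frame S h9) : z⁻¹ = z := S.z_inv

theorem tz_sq : F.t * z * (F.t * z) = 1 := by
  rw [show F.t * z * (F.t * z) = F.t * (z * F.t) * z by group, ← F.t_comm.eq,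
    show F.t * (F.t * z) * z = F.t * F.t * (z * z) by group, F.t_sq, S.z_sq, one_mul]

theorem inv_sq {v : G} (hv : F.Inv v) : v * v = 1 := by
  rcases hv with rfl | rfl | rfl
  exacts [S.z_sq, F.t_sq, F.tz_sq]

theorem inv_inv' {v : G} (hv : F.Inv v) : v⁻¹ = v := inv_eq_of_mul_eq_one_right (F.inv_sq hv)

theorem inv_y {v : G} (hv : F.Inv v) : Commute v F.y := by
  rcases hv with rfl | rfl | rfl
  exacts [F.comm_y_z.symm, F.t_y, F.t_y.mul_left F.comm_y_z.symm]

theorem inv_z {v : G} (hv : F.Inv v) : Commute v z := by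
  rcases hv with rfl | rfl | rfl
  exacts [Commute.refl _, F.t_comm, F.t_comm.mul_left (Commute.refl z)]

theorem inv_comm {v w : G} (hv : F.Inv v) (hw : F.Inv w) : Commute v w := by
  have ht := F.t_comm
  rcases hv with rfl | rfl | rfl <;> rcases hw with rfl | rfl | rfl
  exacts [Commute.refl _, ht.symm, ht.symm.mul_right (Commute.refl _), ht, Commute.refl _,
    (Commute.refl _).mul_right ht, ht.mul_left (Commute.refl _),
    (Commute.refl _).mul_left ht.symm, Commute.refl _]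

theorem inv_ne_one {v : G} (hv : F.Inv v) : v ≠ 1 := by
  rcases hv with rfl | rfl | rfl
  · exact S.z_ne_one
  · exact F.t_ne_one (by norm_num)
  · intro h
    exact F.t_ne_z (by norm_num) ((mul_eq_one_iff_eq_inv.mp h).trans S.z_inv)

theorem conj_form {g : G} (hg : F.Form g) :
    F.Form (F.t * g * F.t⁻¹) := by
  obtain ⟨i, j, k, rfl⟩ := hg
  refine ⟨j, i, 2 * k, ?_⟩
  have hc : F.c⁻¹ = F.c ^ 2 := inv_eq_of_mul_eq_one_right (by rw [← pow_succ']; exact F.c_pow)
  rw [← conj_mul, ← conj_mul, ← conj_pow, ← conj_pow, ← conj_pow, F.t_conj_a (by norm_num),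
    F.t_conj_b (by norm_num), F.t_conj_c (by norm_num), hc, ← pow_mul, (F.ab.pow_pow j i).eq]

theorem form_mul {g g' : G} (hg : F.Form g) (hg' : F.Form g') : F.Form (g * g') := by
  obtain ⟨i, j, k, rfl⟩ := hg
  obtain ⟨i', j', k', rfl⟩ := hg'
  refine ⟨i + i', j + j', k + k', ?_⟩
  calc F.a ^ i * F.b ^ j * F.c ^ k * (F.a ^ i' * F.b ^ j' * F.c ^ k')
      = F.a ^ i * F.b ^ j * (F.c ^ k * F.a ^ i') * F.b ^ j' * F.c ^ k' := by group
    _ = F.a ^ i * (F.b ^ j * F.a ^ i') * (F.c ^ k * F.b ^ j') * F.c ^ k' := by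
        rw [(F.ac.symm.pow_pow k i').eq]; group
    _ = F.a ^ i * F.a ^ i' * (F.b ^ j * F.b ^ j') * (F.c ^ k * F.c ^ k') := by
        rw [(F.ab.symm.pow_pow j i').eq, (F.bc.symm.pow_pow k j').eq]; group
    _ = _ := by rw [← pow_add, ← pow_add, ← pow_add]

theorem form_pow {g : G} (hg : F.Form g) (m : ℕ) : F.Form (g ^ m) := by
  induction m with
  | zero => exact ⟨0, 0, 0, by simp⟩
  | succ m ih => rw [pow_succ]; exact F.form_mul ih hg

theorem form_P {g : G} (hg : F.Form g) : F.P z g := by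
  obtain ⟨i, j, k, rfl⟩ := hg
  refine ⟨((F.a_y.pow_left i).mul_left (F.b_y.pow_left j)).mul_left (F.c_y.pow_left k),
    ((F.a_comm.pow_left i).mul_left (F.b_comm.pow_left j)).mul_left (F.c_comm.pow_left k), ?_⟩
  rw [((F.ac.pow_pow i k).mul_left (F.bc.pow_pow j k)).mul_pow, (F.ab.pow_pow i j).mul_pow,
    ← pow_mul, ← pow_mul, ← pow_mul, mul_comm i, mul_comm j, mul_comm k, pow_mul, pow_mul, pow_mul,
    F.a_pow, F.b_pow, F.c_pow, one_pow, one_pow, one_pow, one_mul, one_mul]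

theorem img_form (i j k : ℕ) :
    S.img (F.a ^ i * F.b ^ j * F.c ^ k) = a0 h9 ^ i * b0 h9 ^ j * c0 h9 ^ k := by
  rw [S.img_mul ((F.a_comm.pow_left i).mul_left (F.b_comm.pow_left j)) (F.c_comm.pow_left k),
    S.img_mul (F.a_comm.pow_left i) (F.b_comm.pow_left j), S.img_pow F.a_comm, S.img_pow F.b_comm,
    S.img_pow F.c_comm, F.img_a, F.img_b, F.img_c]

theorem exists_form_mul {g : G} (hy : Commute g F.y) (hz : Commute g z) :
    ∃ α v, F.Form α ∧ (v = 1 ∨ F.Inv v) ∧ g = α * v := by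
  have hc : Commute (S.img g) (a0 h9 * b0 h9) := by
    rw [← F.img_y]
    exact S.commute_img hz F.y_comm hy
  obtain ⟨i, j, k, e, he⟩ := cent_y0 h9 (S.sign_img g) hc
  have hα : F.Form (F.a ^ i * F.b ^ j * F.c ^ k) := ⟨i, j, k, rfl⟩
  have hαz := (F.form_P hα).2.1
  have hi : S.img (F.a ^ i * F.b ^ j * F.c ^ k * F.t ^ e) = S.img g := by
    rw [S.img_mul hαz (F.t_comm.pow_left e), F.img_form, S.img_pow F.t_comm, F.img_t, he]
  have ht : F.t ^ e = 1 ∨ F.t ^ e = F.t := by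
    rcases Nat.even_or_odd' e with ⟨m, rfl | rfl⟩
    · left; rw [pow_mul, pow_two, F.t_sq, one_pow]
    · right; rw [pow_succ, pow_mul, pow_two, F.t_sq, one_pow, one_mul]
  rcases S.eq_or_eq_mul_z (hαz.mul_left (F.t_comm.pow_left e)) hz hi with h | h
  · refine ⟨_, F.t ^ e, hα, ?_, h⟩
    rcases ht with h' | h'
    · exact Or.inl h'
    · exact Or.inr (Or.inr (Or.inl h'))
  · refine ⟨_, F.t ^ e * z, hα, Or.inr ?_, h.trans (mul_assoc _ _ _)⟩
    rcases ht with h' | h' <;> rw [h']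
    · exact Or.inl (one_mul z)
    · exact Or.inr (Or.inr rfl)

theorem conj_form' {g v : G} (hg : F.Form g) (hv : v = 1 ∨ F.Inv v) :
    F.Form (v * g * v⁻¹) := by
  have hz : ∀ g, F.Form g → z * g * z⁻¹ = g := fun g h => by
    rw [← (F.form_P h).2.1.eq, mul_inv_cancel_right]
  rcases hv with rfl | rfl | rfl | rfl
  · simpa using hg
  · rwa [hz g hg]
  · exact F.conj_form hg
  · rw [show F.t * z * g * (F.t * z)⁻¹ = F.t * (z * g * z⁻¹) * F.t⁻¹ by group, hz g hg]
    exact F.conj_form hg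

theorem form_of_odd {g : G} (hy : Commute g F.y) (hz : Commute g z) (ho : Odd (orderOf g)) :
    F.Form g := by
  obtain ⟨α, v, hα, hv, rfl⟩ := F.exists_form_mul hy hz
  have hv2 : v * v = 1 := by
    rcases hv with rfl | hv
    · rw [one_mul]
    · exact F.inv_sq hv
  obtain ⟨m, hm⟩ := ho
  have hsq : F.Form ((α * v) ^ 2) := by
    rw [pow_two, show α * v * (α * v) = α * (v * α * v) by group]
    nth_rewrite 2 [← inv_eq_of_mul_eq_one_right hv2]
    exact F.form_mul hα (F.conj_form' hα hv)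
  have := F.form_pow hsq (m + 1)
  rwa [← pow_mul, show 2 * (m + 1) = orderOf (α * v) + 1 by omega, pow_succ, pow_orderOf_eq_one,
    one_mul] at this

theorem P_odd {v g : G} (h : F.P v g) : Odd (orderOf g) := by
  have := orderOf_dvd_of_pow_eq_one h.2.2
  exact Odd.of_dvd_nat (by decide : Odd 3) this

theorem P_z_iff {g : G} : F.P z g ↔ F.Form g :=
  ⟨fun h => F.form_of_odd h.1 h.2.1 (F.P_odd h), F.form_P⟩

theorem form_comm {g g' : G} (hg : F.Form g) (hg' : F.Form g') : Commute g g' := by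
  obtain ⟨i, j, k, rfl⟩ := hg
  obtain ⟨i', j', k', rfl⟩ := hg'
  have ha : ∀ x, Commute F.a x → Commute F.b x → Commute F.c x →
      Commute (F.a ^ i * F.b ^ j * F.c ^ k) x := fun x h1 h2 h3 =>
    ((h1.pow_left i).mul_left (h2.pow_left j)).mul_left (h3.pow_left k)
  exact ((ha _ (Commute.refl _) F.ab.symm F.ac.symm).pow_right i' |>.mul_right
    ((ha _ F.ab (Commute.refl _) F.bc.symm).pow_right j')).mul_right
      ((ha _ F.ac F.bc (Commute.refl _)).pow_right k')

/-- Elements of odd order centralising `y` and the four-group lie in `⟨y⟩`. -/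
theorem mem_zpowers_y {g : G} (hy : Commute g F.y) (hz : Commute g z) (ht : Commute g F.t)
    (ho : Odd (orderOf g)) : g ∈ Subgroup.zpowers F.y := by
  obtain ⟨i, j, k, rfl⟩ := F.form_of_odd hy hz ho
  have hi : Commute (S.img (F.a ^ i * F.b ^ j * F.c ^ k)) (S.img F.t) := S.commute_img hz F.t_comm ht
  rw [F.img_form, F.img_t] at hi
  have hmod : ∀ (x : Perm (Fin 9)) (m : ℕ), x ^ 3 = 1 → x ^ m = x ^ (m % 3) := fun x m h =>
    pow_eq_pow_mod m h
  obtain ⟨-, -, -, pa, pb, pc, -⟩ := cyc0_facts h9 (by norm_num)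
  rw [hmod _ i pa, hmod _ j pb, hmod _ k pc] at hi
  obtain ⟨hij, hk⟩ := cent_t0 h9 ⟨i % 3, by omega⟩ ⟨j % 3, by omega⟩ ⟨k % 3, by omega⟩ hi
  have hij' : i % 3 = j % 3 := congrArg Fin.val hij
  have hk' : k % 3 = 0 := congrArg Fin.val hk
  rw [pow_eq_pow_mod i F.a_pow, pow_eq_pow_mod j F.b_pow, pow_eq_pow_mod k F.c_pow, hij', hk',
    pow_zero, mul_one, ← F.ab.mul_pow]
  exact Subgroup.pow_mem _ (Subgroup.mem_zpowers _) _

variable [Finite G]

/-- For each of the three involutions `v` an element of the centraliser of `y` maps `v` to `z`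
and permutes the three involutions. -/
theorem exists_to_z_t : ∃ h : G, Commute h F.y ∧ h * F.t * h⁻¹ = z ∧
    (h * z * h⁻¹ = F.t ∨ h * z * h⁻¹ = F.t * z) := by
  obtain ⟨h, hhy, hht⟩ := F.exists_conj_z (by norm_num) (Or.inl rfl : F.t = F.t ∨ _)
  have hhy : Commute h F.y := hhy
  set w := h * z * h⁻¹ with hw
  have hwy : Commute w F.y := (hhy.mul_left F.comm_y_z.symm).mul_left hhy.inv_left
  have hwz : Commute w z := by
    have := F.t_comm.symm.map (MulAut.conj h)
    simpa [MulAut.conj_apply, hht] using this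
  have hw2 : w * w = 1 := by
    rw [hw, show h * z * h⁻¹ * (h * z * h⁻¹) = h * (z * z) * h⁻¹ by group, S.z_sq]; group
  obtain ⟨α, v, hα, hv, hαv⟩ := F.exists_form_mul hwy hwz
  have hv' : v * v = 1 := by
    rcases hv with rfl | hv
    · rw [one_mul]
    · exact F.inv_sq hv
  have hvi : v⁻¹ = v := inv_eq_of_mul_eq_one_right hv'
  have hva : v * α * v⁻¹ = α⁻¹ := by
    rw [hαv] at hw2
    rw [hvi]
    refine eq_inv_of_mul_eq_one_right ?_
    rw [← hw2]; group
  have hαo := F.P_odd (F.form_P hα)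
  have hv'' : v = F.t ∨ v = F.t * z := by
    rcases hv with h' | h' | h' | h'
    · exfalso
      have := eq_one_of_fixed_inverted hαo (h' ▸ Commute.one_left α) hva
      rw [hαv, this, one_mul, h'] at hw
      exact S.z_ne_one (by
        calc z = h⁻¹ * (h * z * h⁻¹) * h := by group
          _ = 1 := by rw [← hw]; group)
    · exfalso
      have := eq_one_of_fixed_inverted hαo (h' ▸ (F.form_P hα).2.1.symm) hva
      rw [hαv, this, one_mul, h'] at hw
      refine F.t_ne_z (by norm_num) ?_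
      calc F.t = h⁻¹ * (h * F.t * h⁻¹) * h := by group
        _ = h⁻¹ * (h * z * h⁻¹) * h := by rw [hht, ← hw]
        _ = z := by group
    · exact Or.inl h'
    · exact Or.inr h'
  set β := α ^ 2 with hβ
  have hP := F.form_P (F.form_pow hα 2)
  rw [← hβ] at hP
  refine ⟨β⁻¹ * h, hP.1.inv_left.mul_left hhy, ?_, ?_⟩
  · rw [show β⁻¹ * h * F.t * (β⁻¹ * h)⁻¹ = β⁻¹ * (h * F.t * h⁻¹) * β by group, hht,
      mul_assoc, ← hP.2.1.eq, inv_mul_cancel_left]
  · have key : β⁻¹ * h * z * (β⁻¹ * h)⁻¹ = v := by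
      rw [show β⁻¹ * h * z * (β⁻¹ * h)⁻¹ = β⁻¹ * (h * z * h⁻¹) * β by group, ← hw, hαv]
      have hvb : v * β * v⁻¹ = β⁻¹ := by rw [hβ, ← conj_pow, hva, inv_pow]
      have hvb' : v * β = β⁻¹ * v := mul_inv_eq_iff_eq_mul.mp hvb
      have hb4 : β⁻¹ * α * β⁻¹ = 1 := by
        rw [hβ, show (α ^ 2)⁻¹ * α * (α ^ 2)⁻¹ = (α ^ 3)⁻¹ by group, (F.form_P hα).2.2, inv_one]
      calc β⁻¹ * (α * v) * β = β⁻¹ * α * (v * β) := by group
        _ = β⁻¹ * α * β⁻¹ * v := by rw [hvb']; group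
        _ = v := by rw [hb4, one_mul]
    rw [key]
    exact hv''

/-- The frame with `t` replaced by `t * z`. -/
noncomputable def other : Frame S h9 where
  t := F.t * z
  a := F.a
  b := F.b
  c := F.c
  isConj := by
    obtain ⟨g, hg⟩ := F.isConj
    obtain ⟨k, -, hk⟩ := F.exists_conj_tz (by norm_num)
    exact ⟨k * g, by rw [← hk, ← hg]; group⟩
  t_comm := F.t_comm.mul_left (Commute.refl z)
  a_comm := F.a_comm
  b_comm := F.b_comm
  c_comm := F.c_comm
  a_ord := F.a_ord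
  b_ord := F.b_ord
  c_ord := F.c_ord
  img_t := by rw [S.img_mul_z F.t_comm, F.img_t]
  img_a := F.img_a
  img_b := F.img_b
  img_c := F.img_c

theorem t_mul_z_z : F.t * z * z = F.t := by rw [mul_assoc, S.z_sq, mul_one]

theorem exists_to_z {v : G} (hv : F.Inv v) : ∃ h : G, Commute h F.y ∧ h * v * h⁻¹ = z ∧
    ∀ w, F.Inv w → F.Inv (h * w * h⁻¹) ∧ F.Inv (h⁻¹ * w * h) := by
  have key : ∀ h t' t'' : G, (∀ w, F.Inv w ↔ w = z ∨ w = t' ∨ w = t'') → t' * z = t'' →
      h * t' * h⁻¹ = z → (h * z * h⁻¹ = t' ∨ h * z * h⁻¹ = t'') →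
      ∀ w, F.Inv w → F.Inv (h * w * h⁻¹) ∧ F.Inv (h⁻¹ * w * h) := by
    intro h t' t'' hI hmul h1 h2
    have hmul' : t'' * z = t' := by rw [← hmul, mul_assoc, S.z_sq, mul_one]
    have hcz : Commute t' z := F.inv_z ((hI t').mpr (Or.inr (Or.inl rfl)))
    have h3 : h * t'' * h⁻¹ = t' ∨ h * t'' * h⁻¹ = t'' := by
      rw [← hmul, ← conj_mul, h1]
      rcases h2 with e | e
      · right; rw [e, hcz.eq]
      · left; rw [e, ← hmul, hcz.eq, ← mul_assoc, S.z_sq, one_mul]
    have inj : ∀ p q : G, h * p * h⁻¹ = h * q * h⁻¹ → p = q := fun p q e =>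
      (MulAut.conj h).injective e
    intro w hw
    refine ⟨?_, ?_⟩
    · rw [hI]
      rcases (hI w).mp hw with ew | ew | ew <;> rw [ew]
      · exact Or.inr h2
      · exact Or.inl h1
      · exact Or.inr h3
    · rw [hI]
      have hsur : ∃ p, (p = z ∨ p = t' ∨ p = t'') ∧ h * p * h⁻¹ = w := by
        rcases (hI w).mp hw with ew | ew | ew <;> rw [ew]
        · exact ⟨t', Or.inr (Or.inl rfl), h1⟩
        · rcases h2 with e | e
          · exact ⟨z, Or.inl rfl, e⟩
          · rcases h3 with e' | e'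
            · exact ⟨t'', Or.inr (Or.inr rfl), e'⟩
            · refine absurd (inj _ _ (e'.trans e.symm)) ?_
              rw [← hmul, mul_eq_right]
              exact F.inv_ne_one ((hI t').mpr (Or.inr (Or.inl rfl)))
        · rcases h2 with e | e
          · rcases h3 with e' | e'
            · refine absurd (inj _ _ (e'.trans e.symm)) ?_
              rw [← hmul, mul_eq_right]
              exact F.inv_ne_one ((hI t').mpr (Or.inr (Or.inl rfl)))
            · exact ⟨t'', Or.inr (Or.inr rfl), e'⟩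
          · exact ⟨z, Or.inl rfl, e⟩
      obtain ⟨p, hp, rfl⟩ := hsur
      rw [show h⁻¹ * (h * p * h⁻¹) * h = p by group]
      exact hp
  rcases hv with rfl | rfl | rfl
  · refine ⟨1, Commute.one_left _, by group, fun w hw => ?_⟩
    simp only [one_mul, inv_one, mul_one]
    exact ⟨hw, hw⟩
  · obtain ⟨h, hy, h1, h2⟩ := F.exists_to_z_t
    exact ⟨h, hy, h1, key h F.t (F.t * z) (fun w => Iff.rfl) rfl h1 h2⟩
  · obtain ⟨h, hy, h1, h2⟩ := F.other.exists_to_z_t
    have e : F.other.t * z = F.t := F.t_mul_z_z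
    rw [e] at h2
    refine ⟨h, hy, h1, key h (F.t * z) F.t (fun w => ?_) F.t_mul_z_z h1 h2⟩
    unfold Inv
    constructor <;> rintro (h' | h' | h')
    exacts [Or.inl h', Or.inr (Or.inr h'), Or.inr (Or.inl h'), Or.inl h', Or.inr (Or.inr h'),
      Or.inr (Or.inl h')]

theorem P_conj {h v g : G} (hy : Commute h F.y) (hg : F.P v g) :
    F.P (h * v * h⁻¹) (h * g * h⁻¹) :=
  ⟨(hy.mul_left hg.1).mul_left hy.inv_left, hg.2.1.map (MulAut.conj h),
    by rw [conj_pow, hg.2.2]; group⟩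

theorem P_comm {v g g' : G} (hv : F.Inv v) (hg : F.P v g) (hg' : F.P v g') : Commute g g' := by
  obtain ⟨h, hy, hvz, -⟩ := F.exists_to_z hv
  have h1 := F.P_conj hy hg
  have h2 := F.P_conj hy hg'
  rw [hvz] at h1 h2
  have h3 := (F.form_comm (F.P_z_iff.mp h1) (F.P_z_iff.mp h2)).map (MulAut.conj h⁻¹)
  simp only [MulAut.conj_apply, inv_inv] at h3
  rwa [show h⁻¹ * (h * g * h⁻¹) * h = g by group,
    show h⁻¹ * (h * g' * h⁻¹) * h = g' by group] at h3

theorem P_of_odd {v g : G} (hv : F.Inv v) (hy : Commute g F.y) (hgv : Commute g v)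
    (ho : Odd (orderOf g)) : F.P v g := by
  obtain ⟨h, hhy, hvz, -⟩ := F.exists_to_z hv
  have h1 : F.P z (h * g * h⁻¹) := F.form_P (F.form_of_odd ((hhy.mul_left hy).mul_left hhy.inv_left)
    (hvz ▸ hgv.map (MulAut.conj h))
    (by rwa [show h * g * h⁻¹ = MulAut.conj h g from rfl, MulEquiv.orderOf_eq]))
  refine ⟨hy, hgv, ?_⟩
  have := h1.2.2
  rw [conj_pow] at this
  calc g ^ 3 = h⁻¹ * (h * g ^ 3 * h⁻¹) * h := by group
    _ = 1 := by rw [this]; group

/-- `P v` as a subgroup. -/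
def A {v : G} (hv : F.Inv v) : Subgroup G where
  carrier := {g | F.P v g}
  one_mem' := ⟨Commute.one_left _, Commute.one_left _, one_pow _⟩
  mul_mem' := fun {g g'} hg hg' => ⟨hg.1.mul_left hg'.1, hg.2.1.mul_left hg'.2.1, by
    rw [(F.P_comm hv hg hg').mul_pow, hg.2.2, hg'.2.2, one_mul]⟩
  inv_mem' := fun {g} hg => ⟨hg.1.inv_left, hg.2.1.inv_left, by rw [inv_pow, hg.2.2, inv_one]⟩

theorem mem_A {v : G} {hv : F.Inv v} {g : G} : g ∈ F.A hv ↔ F.P v g := Iff.rfl

theorem A_odd {v : G} (hv : F.Inv v) : Odd (Nat.card (F.A hv)) := by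
  haveI : Fact (Nat.Prime 3) := ⟨Nat.prime_three⟩
  have : IsPGroup 3 (F.A hv) := fun g => ⟨1, Subtype.ext (by simpa using g.2.2.2)⟩
  obtain ⟨m, hm⟩ := this.exists_card_eq
  rw [hm]
  exact Odd.pow (by decide)

theorem card_Az : Nat.card (F.A (Or.inl rfl : F.Inv z)) = 27 := by
  let f : Fin 3 × Fin 3 × Fin 3 → F.A (Or.inl rfl : F.Inv z) := fun p =>
    ⟨F.a ^ (p.1 : ℕ) * F.b ^ (p.2.1 : ℕ) * F.c ^ (p.2.2 : ℕ), F.form_P ⟨_, _, _, rfl⟩⟩
  have hf : Function.Bijective f := by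
    refine ⟨fun p q h => ?_, fun g => ?_⟩
    · obtain ⟨i, j, k⟩ := p
      obtain ⟨i', j', k'⟩ := q
      have h' := congrArg S.img (congrArg Subtype.val h)
      simp only [f, F.img_form] at h'
      obtain ⟨rfl, rfl, rfl⟩ := abc_inj h9 i j k i' j' k' h'
      rfl
    · obtain ⟨i, j, k, e⟩ := F.P_z_iff.mp g.2
      refine ⟨(⟨i % 3, by omega⟩, ⟨j % 3, by omega⟩, ⟨k % 3, by omega⟩), Subtype.ext ?_⟩
      simp only [f]
      rw [← pow_eq_pow_mod i F.a_pow, ← pow_eq_pow_mod j F.b_pow, ← pow_eq_pow_mod k F.c_pow, e]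
  rw [← Nat.card_eq_of_bijective f hf]
  simp

theorem card_A {v : G} (hv : F.Inv v) : Nat.card (F.A hv) = 27 := by
  obtain ⟨h, hy, hvz, -⟩ := F.exists_to_z hv
  rw [← F.card_Az]
  refine Nat.card_congr ⟨fun g => ⟨h * g * h⁻¹, (by have h1 := F.P_conj hy g.2; rwa [hvz] at h1 : F.P z _)⟩,
    fun g => ⟨h⁻¹ * g * h, ?_⟩, fun g => Subtype.ext (by dsimp; group),
    fun g => Subtype.ext (by dsimp; group)⟩
  have h1 := F.P_conj hy.inv_left g.2
  rw [inv_inv, show h⁻¹ * z * h = v by rw [← hvz]; group] at h1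
  exact h1

/-- Elements of the centraliser of `y` and one of the involutions. -/
theorem exists_P_mul {v g : G} (hv : F.Inv v) (hy : Commute g F.y) (hgv : Commute g v) :
    ∃ α w, F.P v α ∧ (w = 1 ∨ F.Inv w) ∧ g = α * w := by
  obtain ⟨h, hhy, hvz, hperm⟩ := F.exists_to_z hv
  obtain ⟨α, w, hα, hw, he⟩ := F.exists_form_mul (g := h * g * h⁻¹)
    ((hhy.mul_left hy).mul_left hhy.inv_left) (hvz ▸ hgv.map (MulAut.conj h))
  refine ⟨h⁻¹ * α * h, h⁻¹ * w * h, ?_, ?_, ?_⟩
  · have h1 := F.P_conj hhy.inv_left (F.form_P hα)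
    rw [inv_inv, show h⁻¹ * z * h = v by rw [← hvz]; group] at h1
    exact h1
  · rcases hw with rfl | hw
    · left; group
    · exact Or.inr (hperm w hw).2
  · calc g = h⁻¹ * (h * g * h⁻¹) * h := by group
      _ = _ := by rw [he]; group

/-- The four-group fixes each `P v`. -/
theorem P_conj_inv {v w g : G} (hv : F.Inv v) (hw : F.Inv w) (hg : F.P v g) :
    F.P v (w * g * w⁻¹) := by
  have h1 := F.P_conj (F.inv_y hw) hg
  rwa [(F.inv_comm hw hv).eq, mul_inv_cancel_right] at h1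

/-- Two distinct involutions fix only `⟨y⟩` among the odd elements centralising `y`. -/
theorem mem_zpowers_of_two {v w g : G} (hv : F.Inv v) (hw : F.Inv w) (hne : v ≠ w)
    (hg : F.P v g) (hgw : Commute g w) : g ∈ Subgroup.zpowers F.y := by
  have hgv := hg.2.1
  have hboth : Commute g z ∧ Commute g F.t := by
    rcases hv with rfl | rfl | rfl <;> rcases hw with rfl | rfl | rfl
    all_goals first
      | exact absurd rfl hne
      | exact ⟨hgv, hgw⟩
      | exact ⟨hgw, hgv⟩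
      | exact ⟨hgv, by simpa [F.t_mul_z_z] using hgw.mul_right hgv⟩
      | exact ⟨hgw, by simpa [F.t_mul_z_z] using hgv.mul_right hgw⟩
      | exact ⟨by simpa [← mul_assoc, F.t_sq] using hgv.mul_right hgw, hgv⟩
      | exact ⟨by simpa [← mul_assoc, F.t_sq] using hgw.mul_right hgv, hgw⟩
  exact F.mem_zpowers_y hg.1 hboth.1 hboth.2 (F.P_odd hg)

theorem y_ne_one : F.y ≠ 1 := by
  intro h
  have := F.y_ord (by norm_num)
  rw [show F.a * F.b = F.y from rfl, h, orderOf_one] at this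
  omega

theorem card_zpowers_y : Nat.card (Subgroup.zpowers F.y) = 3 := by
  rw [Nat.card_zpowers]
  exact F.y_ord (by norm_num)

theorem P_y {v : G} (hv : F.Inv v) : F.P v F.y :=
  ⟨Commute.refl _, (F.inv_y hv).symm, F.y_pow⟩

/-- For `w ≠ v` there are nine elements of `P v` inverted by `w`. -/
theorem card_inverted {v w : G} (hv : F.Inv v) (hw : F.Inv w) (hne : v ≠ w) :
    Nat.card ↥(CfsgLib.GW.invertedIn (F.A hv) w) = 9 := by
  have h := CfsgLib.GW.card_eq_card_centralizer_mul (F.A_odd hv) (F.inv_sq hw) le_rfl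
    (fun g hg => F.P_conj_inv hv hw hg)
  have hC : F.A hv ⊓ Subgroup.centralizer ({w} : Set G) = Subgroup.zpowers F.y := by
    refine le_antisymm (fun g hg => F.mem_zpowers_of_two hv hw hne hg.1
      (Subgroup.mem_centralizer_singleton_iff.mp hg.2)) (Subgroup.zpowers_le.mpr ⟨F.P_y hv, ?_⟩)
    exact Subgroup.mem_centralizer_singleton_iff.mpr (F.inv_y hw).symm.eq
  rw [F.card_A hv, hC, F.card_zpowers_y] at h
  omega

/-- Split an element of `P v` into a power of `y` and an element inverted by another involution. -/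
theorem exists_split {v w g : G} (hv : F.Inv v) (hw : F.Inv w) (hne : v ≠ w) (hg : F.P v g) :
    ∃ f i : G, f ∈ Subgroup.zpowers F.y ∧ F.P v i ∧ w * i * w⁻¹ = i⁻¹ ∧ g = f * i := by
  have hc : F.P v (w * g * w⁻¹) := F.P_conj_inv hv hw hg
  have hcomm : Commute g (w * g * w⁻¹) := F.P_comm hv hg hc
  have hw2 : w * w = 1 := F.inv_sq hw
  have hwi : w⁻¹ = w := inv_eq_of_mul_eq_one_right hw2
  have hcc : w * (w * g * w⁻¹) * w⁻¹ = g := by
    rw [hwi, show w * (w * g * w) * w = (w * w) * g * (w * w) by group, hw2, one_mul, mul_one]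
  refine ⟨(g * (w * g * w⁻¹)) ^ 2, (g * (w * g * w⁻¹)⁻¹) ^ 2, ?_, ?_, ?_, ?_⟩
  · refine Subgroup.pow_mem _ (F.mem_zpowers_of_two hv hw hne ((F.A hv).mul_mem hg hc) ?_) _
    have h1 : w * (g * (w * g * w⁻¹)) * w⁻¹ = g * (w * g * w⁻¹) := by
      rw [← conj_mul, hcc]; exact hcomm.symm.eq
    exact (mul_inv_eq_iff_eq_mul.mp h1).symm
  · exact (F.A hv).pow_mem ((F.A hv).mul_mem hg ((F.A hv).inv_mem hc)) 2
  · rw [← conj_pow, ← conj_mul, ← conj_inv, hcc, ← inv_pow, mul_inv_rev, inv_inv]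
  · generalize w * g * w⁻¹ = q at hcomm
    have h1 : Commute (g * q) (g * q⁻¹) :=
      ((Commute.refl g).mul_right hcomm.inv_right).mul_left
        (hcomm.symm.mul_right (Commute.refl q).inv_right)
    rw [← h1.mul_pow, show g * q * (g * q⁻¹) = g * (q * g) * q⁻¹ by group, ← hcomm.eq,
      show g * (g * q) * q⁻¹ = g ^ 2 by rw [pow_two]; group, ← pow_mul,
      show 2 * 2 = 3 + 1 by norm_num, pow_succ, hg.2.2, one_mul]

/-- A lift of `(1 2)(4 5)`. -/
theorem exists_d : ∃ d : G, Commute d z ∧ Commute d F.c ∧ d * F.a * d⁻¹ = F.a⁻¹ ∧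
    d * F.b * d⁻¹ = F.b⁻¹ ∧ d * F.t * d⁻¹ = F.t * z ∧ d * d = z := by
  obtain ⟨hs, ha, hb, hc, ht⟩ := nineD_facts h9
  obtain ⟨d, hd, hdi⟩ := S.exists_img hs
  have conj_eq : ∀ x y : G, Commute x z → Commute y z → Odd (orderOf x) → Odd (orderOf y) →
      nineD * S.img x * nineD⁻¹ = S.img y → d * x * d⁻¹ = y := fun x y hx hy hox hoy h =>
    (S.eq_of_odd ((hd.mul_left hx).mul_left hd.inv_left) hy
      (by rwa [show d * x * d⁻¹ = MulAut.conj d x from rfl, MulEquiv.orderOf_eq]) hoy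
      (by rw [S.img_conj hd hx, hdi, h])).symm
  have h4 : CfsgLib.Classes.AltCoverComm.Four (1 : Fin 9) 2 4 5 := by constructor <;> decide
  have hdd : d * d = z := S.sq_eq_z hd h4 hdi
  refine ⟨d, hd, ?_, conj_eq _ _ F.a_comm F.a_comm.inv_left F.a_odd
    (by rw [orderOf_inv]; exact F.a_odd) (by rw [F.img_a, S.img_inv F.a_comm, F.img_a, ha]),
    conj_eq _ _ F.b_comm F.b_comm.inv_left F.b_odd
    (by rw [orderOf_inv]; exact F.b_odd) (by rw [F.img_b, S.img_inv F.b_comm, F.img_b, hb]), ?_, hdd⟩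
  · exact mul_inv_eq_iff_eq_mul.mp
      (conj_eq _ _ F.c_comm F.c_comm F.c_odd F.c_odd (by rw [F.img_c, hc]))
  · have himg : S.img (d * F.t * d⁻¹) = S.img F.t := by rw [S.img_conj hd F.t_comm, hdi, F.img_t, ht]
    rcases S.eq_or_eq_mul_z F.t_comm ((hd.mul_left F.t_comm).mul_left hd.inv_left) himg.symm with e | e
    · exfalso
      have hdt : Commute d F.t := mul_inv_eq_iff_eq_mul.mp e
      obtain ⟨hks, hkt⟩ := nineK_facts h9
      obtain ⟨k, hk, hki⟩ := S.exists_img hks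
      have hkc : Commute (k * F.t * k⁻¹) z := (hk.mul_left F.t_comm).mul_left hk.inv_left
      have h2 : k * F.t * k⁻¹ * (k * F.t * k⁻¹) = 1 := by
        rw [show k * F.t * k⁻¹ * (k * F.t * k⁻¹) = k * (F.t * F.t) * k⁻¹ by group, F.t_sq]; group
      have h3 : d * F.t * (d * F.t) = z := by
        rw [show d * F.t * (d * F.t) = d * (F.t * d) * F.t by group, ← hdt.eq,
          show d * (d * F.t) * F.t = d * d * (F.t * F.t) by group, hdd, F.t_sq, mul_one]
      have him2 : S.img (k * F.t * k⁻¹) = S.img (d * F.t) := by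
        rw [S.img_conj hk F.t_comm, hki, F.img_t, hkt, S.img_mul hd F.t_comm, hdi, F.img_t]
      rcases S.eq_or_eq_mul_z hkc (hd.mul_left F.t_comm) him2 with e' | e'
      · exact S.z_ne_one (by rw [← h3, e', h2])
      · apply S.z_ne_one
        rw [← h3, e', show k * F.t * k⁻¹ * z * (k * F.t * k⁻¹ * z) =
          k * F.t * k⁻¹ * (z * (k * F.t * k⁻¹)) * z by group, ← hkc.eq,
          show k * F.t * k⁻¹ * (k * F.t * k⁻¹ * z) * z =
            k * F.t * k⁻¹ * (k * F.t * k⁻¹) * (z * z) by group, h2, S.z_sq, one_mul]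
    · exact e

end Frame

end CfsgLib.AltDoubleCent
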