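import Cfsg.Agent.Lib.AltDoubleCent.Frame

/-!
Permutations of nine points used in degree nine.
-/

set_option autoImplicit false
set_option maxRecDepth 8000

namespace CfsgLib.AltDoubleCent

open Equiv CfsgLib.RealChar.AltCover CfsgLib.Classes.AltCoverComm

/-- `(1 2)(4 5)`: inverts `a` and `b`. -/
def nineD : Perm (Fin 9) := swap 1 2 * swap 4 5

/-- `(4 5)(6 7)`. -/
def nineK : Perm (Fin 9) := swap 4 5 * swap 6 7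

/-- Exchanges the first and the last block, inverting the middle one. -/
def nineW : Perm (Fin 9) := swap 0 6 * swap 1 7 * (swap 2 8 * swap 3 4)

/-- Cycles the blocks. -/
def ninePP : Perm (Fin 9) := cyc 0 6 3 * cyc 1 7 4 * cyc 2 8 5

/-- Cycles the blocks up to inversion. -/
def ninePM : Perm (Fin 9) := swap 4 5 * swap 7 8 * ninePP

/-- `(0 5)(1 2)`. -/
def nineHB : Perm (Fin 9) := swap 0 5 * swap 1 2

/-- `(0 3)(1 5)`. -/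
def nineHY : Perm (Fin 9) := swap 0 3 * swap 1 5

theorem nineD_facts (h9 : 9 ≤ 9) : Perm.sign nineD = 1 ∧
    nineD * a0 h9 * nineD⁻¹ = (a0 h9)⁻¹ ∧ nineD * b0 h9 * nineD⁻¹ = (b0 h9)⁻¹ ∧
    nineD * c0 h9 * nineD⁻¹ = c0 h9 ∧ nineD * t0 h9 * nineD⁻¹ = t0 h9 := by
  revert h9; decide +kernel

theorem nineK_facts (h9 : 9 ≤ 9) : Perm.sign nineK = 1 ∧
    nineK * t0 h9 * nineK⁻¹ = nineD * t0 h9 := by
  revert h9; decide +kernel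

theorem nineW_facts (h9 : 9 ≤ 9) : Perm.sign nineW = 1 ∧
    nineW * a0 h9 * nineW⁻¹ = c0 h9 ∧ nineW * b0 h9 * nineW⁻¹ = (b0 h9)⁻¹ := by
  revert h9; decide +kernel

theorem ninePP_facts (h9 : 9 ≤ 9) : Perm.sign ninePP = 1 ∧
    ninePP * a0 h9 * ninePP⁻¹ = c0 h9 ∧ ninePP * b0 h9 * ninePP⁻¹ = a0 h9 ∧
    ninePP * c0 h9 * ninePP⁻¹ = b0 h9 := by
  revert h9; decide +kernel

theorem ninePM_facts (h9 : 9 ≤ 9) : Perm.sign ninePM = 1 ∧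
    ninePM * a0 h9 * ninePM⁻¹ = (c0 h9)⁻¹ ∧ ninePM * b0 h9 * ninePM⁻¹ = a0 h9 ∧
    ninePM * c0 h9 * ninePM⁻¹ = (b0 h9)⁻¹ := by
  revert h9; decide +kernel

theorem nineHB_facts (h9 : 9 ≤ 9) : Perm.sign nineHB = 1 ∧
    nineHB * c0 h9 * nineHB⁻¹ = c0 h9 ∧
    b0 h9 * (nineHB * b0 h9 * nineHB⁻¹) = swap 3 5 * swap 0 4 := by
  revert h9; decide +kernel

theorem nineHY_facts (h9 : 9 ≤ 9) : Perm.sign nineHY = 1 ∧
    nineHY * c0 h9 * nineHY⁻¹ = c0 h9 ∧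
    a0 h9 * b0 h9 * (nineHY * (a0 h9 * b0 h9) * nineHY⁻¹) = swap 0 5 * swap 2 4 := by
  revert h9; decide +kernel

theorem four_hb : Four (3 : Fin 9) 5 0 4 := by constructor <;> decide

theorem four_hy : Four (0 : Fin 9) 5 2 4 := by constructor <;> decide

theorem y0_orbits (h9 : 9 ≤ 9) :
    (∀ p : Fin 9, (a0 h9 * b0 h9) p ≠ p ↔ p.val < 6) ∧
    (a0 h9 * b0 h9) 0 = 1 ∧ (a0 h9 * b0 h9) 1 = 2 ∧
    (a0 h9 * b0 h9) 3 = 4 ∧ (a0 h9 * b0 h9) 4 = 5 := by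
  revert h9; decide +kernel

theorem y0_move (h9 : 9 ≤ 9) :
    (∀ p : Fin 9, p.val < 6 → ∃ i : Fin 3, ∃ e : Fin 2,
      (a0 h9 ^ (i : ℕ) * t0 h9 ^ (e : ℕ)) p = 0) ∧
    (∀ p : Fin 9, p.val < 6 → 3 ≤ p.val → ∃ j : Fin 3, (b0 h9 ^ (j : ℕ)) p = 3) ∧
    (∀ p : Fin 9, 6 ≤ p.val → ∃ k : Fin 3, (c0 h9 ^ (k : ℕ)) p = 6) ∧
    (∀ j : Fin 3, (b0 h9 ^ (j : ℕ)) 0 = 0) ∧
    (∀ k : Fin 3, (c0 h9 ^ (k : ℕ)) 0 = 0 ∧ (c0 h9 ^ (k : ℕ)) 3 = 3) ∧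
    Commute (t0 h9) (a0 h9 * b0 h9) ∧ Commute (a0 h9) (a0 h9 * b0 h9) ∧
    Commute (b0 h9) (a0 h9 * b0 h9) ∧ Commute (c0 h9) (a0 h9 * b0 h9) ∧
    Perm.sign (swap (7 : Fin 9) 8) = -1 := by
  revert h9; unfold Commute SemiconjBy; decide +kernel

theorem y0_inv (h9 : 9 ≤ 9) : ∀ (i j k : Fin 3) (e : Fin 2),
    (a0 h9 ^ (i : ℕ) * t0 h9 ^ (e : ℕ))⁻¹ * (b0 h9 ^ (j : ℕ))⁻¹ * (c0 h9 ^ (k : ℕ))⁻¹ =
      if e = 0 then a0 h9 ^ (3 - i : ℕ) * b0 h9 ^ (3 - j : ℕ) * c0 h9 ^ (3 - k : ℕ) * t0 h9 ^ 0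
      else a0 h9 ^ (3 - j : ℕ) * b0 h9 ^ (3 - i : ℕ) * c0 h9 ^ (k : ℕ) * t0 h9 ^ 1 := by
  revert h9; decide +kernel

/-- The centraliser of `(0 1 2)(3 4 5)` in `A_9`. -/
theorem cent_y0 (h9 : 9 ≤ 9) {σ : Perm (Fin 9)} (hs : Perm.sign σ = 1)
    (hc : Commute σ (a0 h9 * b0 h9)) : ∃ i j k e : ℕ,
      σ = a0 h9 ^ i * b0 h9 ^ j * c0 h9 ^ k * t0 h9 ^ e := by
  obtain ⟨hlt, h01, h12, h34, h45⟩ := y0_orbits h9
  obtain ⟨hA, hB, hC, hB0, hC0, hty, hay, hby, hcy, hsw⟩ := y0_move h9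
  obtain ⟨-, -, -, -, -, -, -, -, -, hsa, hsb, hsc, -⟩ := cyc0_facts h9 (by norm_num)
  have hst := (t0_facts h9 (by norm_num)).2.2.1
  have hpres : ∀ τ : Perm (Fin 9), Commute τ (a0 h9 * b0 h9) →
      ∀ p : Fin 9, (τ p).val < 6 ↔ p.val < 6 := by
    intro τ hτ p
    rw [← hlt, ← hlt, ← Perm.mul_apply, ← hτ.eq, Perm.mul_apply, τ.injective.ne_iff]
  have hstep : ∀ τ : Perm (Fin 9), Commute τ (a0 h9 * b0 h9) →
      ∀ p : Fin 9, τ ((a0 h9 * b0 h9) p) = (a0 h9 * b0 h9) (τ p) := by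
    intro τ hτ p
    rw [← Perm.mul_apply, hτ.eq, Perm.mul_apply]
  obtain ⟨i, e, hi⟩ := hA (σ 0) ((hpres σ hc 0).mpr (by decide))
  set σ₁ := a0 h9 ^ (i : ℕ) * t0 h9 ^ (e : ℕ) * σ with hσ₁
  have hc₁ : Commute σ₁ (a0 h9 * b0 h9) := ((hay.pow_left _).mul_left (hty.pow_left _)).mul_left hc
  have h₁0 : σ₁ 0 = 0 := hi
  have h₁1 : σ₁ 1 = 1 := by rw [← h01, hstep σ₁ hc₁, h₁0]
  have h₁2 : σ₁ 2 = 2 := by rw [← h12, hstep σ₁ hc₁, h₁1]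
  have h3 : 3 ≤ (σ₁ 3).val := by
    by_contra hh
    have : σ₁ 3 = 0 ∨ σ₁ 3 = 1 ∨ σ₁ 3 = 2 := by
      revert hh; generalize σ₁ 3 = q; revert q; decide
    rcases this with h | h | h
    · exact absurd (σ₁.injective (h.trans h₁0.symm)) (by decide)
    · exact absurd (σ₁.injective (h.trans h₁1.symm)) (by decide)
    · exact absurd (σ₁.injective (h.trans h₁2.symm)) (by decide)
  obtain ⟨j, hj⟩ := hB (σ₁ 3) ((hpres σ₁ hc₁ 3).mpr (by decide)) h3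
  set σ₂ := b0 h9 ^ (j : ℕ) * σ₁ with hσ₂
  have hc₂ : Commute σ₂ (a0 h9 * b0 h9) := (hby.pow_left _).mul_left hc₁
  have h₂0 : σ₂ 0 = 0 := by rw [hσ₂, Perm.mul_apply, h₁0, hB0]
  have h₂3 : σ₂ 3 = 3 := hj
  obtain ⟨k, hk⟩ := hC (σ₂ 6) (by
    have := (hpres σ₂ hc₂ 6).not.mpr (by decide)
    omega)
  set σ₃ := c0 h9 ^ (k : ℕ) * σ₂ with hσ₃
  have hc₃ : Commute σ₃ (a0 h9 * b0 h9) := (hcy.pow_left _).mul_left hc₂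
  have f0 : σ₃ 0 = 0 := by rw [hσ₃, Perm.mul_apply, h₂0, (hC0 k).1]
  have f1 : σ₃ 1 = 1 := by rw [← h01, hstep σ₃ hc₃, f0]
  have f2 : σ₃ 2 = 2 := by rw [← h12, hstep σ₃ hc₃, f1]
  have f3 : σ₃ 3 = 3 := by rw [hσ₃, Perm.mul_apply, h₂3, (hC0 k).2]
  have f4 : σ₃ 4 = 4 := by rw [← h34, hstep σ₃ hc₃, f3]
  have f5 : σ₃ 5 = 5 := by rw [← h45, hstep σ₃ hc₃, f4]
  have f6 : σ₃ 6 = 6 := hk
  have hsσ : Perm.sign σ₃ = 1 := by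
    simp [hσ₃, hσ₂, hσ₁, hsa, hsb, hsc, hst, hs]
  have f7 : σ₃ 7 = 7 ∨ σ₃ 7 = 8 := by
    have h := (hpres σ₃ hc₃ 7).not.mpr (by decide)
    have hne : σ₃ 7 ≠ 6 := fun e' => absurd (σ₃.injective (e'.trans f6.symm)) (by decide)
    revert h hne; generalize σ₃ 7 = q; revert q; decide
  have f8 : σ₃ 7 = 7 → σ₃ 8 = 8 := fun h7 => by
    have h := (hpres σ₃ hc₃ 8).not.mpr (by decide)
    have hne : σ₃ 8 ≠ 6 := fun e' => absurd (σ₃.injective (e'.trans f6.symm)) (by decide)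
    have hne' : σ₃ 8 ≠ 7 := fun e' => absurd (σ₃.injective (e'.trans h7.symm)) (by decide)
    revert h hne hne'; generalize σ₃ 8 = q; revert q; decide
  have h78 : σ₃ 7 = 7 := by
    rcases f7 with h7 | h7
    · exact h7
    · exfalso
      have h8 : σ₃ 8 = 7 := by
        have h := (hpres σ₃ hc₃ 8).not.mpr (by decide)
        have hne : σ₃ 8 ≠ 6 := fun e' => absurd (σ₃.injective (e'.trans f6.symm)) (by decide)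
        have hne' : σ₃ 8 ≠ 8 := fun e' => absurd (σ₃.injective (e'.trans h7.symm)) (by decide)
        revert h hne hne'; generalize σ₃ 8 = q; revert q; decide
      have : σ₃ = swap 7 8 := by
        ext p; fin_cases p <;> simp [swap_apply_def, f0, f1, f2, f3, f4, f5, f6, h7, h8]
      rw [this, hsw] at hsσ
      exact absurd hsσ (by decide)
  have hone : σ₃ = 1 := by
    ext p; fin_cases p <;> simp [f0, f1, f2, f3, f4, f5, f6, h78, f8 h78]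
  obtain ⟨-, -, -, ha3, hb3, hc3, -⟩ := cyc0_facts h9 (by norm_num)
  have ht2 := (t0_facts h9 (by norm_num)).1
  have hinv : σ = (a0 h9 ^ (i : ℕ) * t0 h9 ^ (e : ℕ))⁻¹ * (b0 h9 ^ (j : ℕ))⁻¹ *
      (c0 h9 ^ (k : ℕ))⁻¹ := by
    rw [← mul_one ((a0 h9 ^ (i : ℕ) * t0 h9 ^ (e : ℕ))⁻¹ * (b0 h9 ^ (j : ℕ))⁻¹ *
      (c0 h9 ^ (k : ℕ))⁻¹), ← hone, hσ₃, hσ₂, hσ₁]
    group
  rw [hinv, y0_inv h9 i j k e]
  split_ifs
  exacts [⟨_, _, _, _, rfl⟩, ⟨_, _, _, _, rfl⟩]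

/-- The powers of `a0`, `b0`, `c0` commuting with `t0`. -/
theorem cent_t0 (h9 : 9 ≤ 9) : ∀ i j k : Fin 3,
    Commute (a0 h9 ^ (i : ℕ) * b0 h9 ^ (j : ℕ) * c0 h9 ^ (k : ℕ)) (t0 h9) → i = j ∧ k = 0 := by
  revert h9; unfold Commute SemiconjBy; decide +kernel

theorem abc_inj (h9 : 9 ≤ 9) : ∀ i j k i' j' k' : Fin 3,
    a0 h9 ^ (i : ℕ) * b0 h9 ^ (j : ℕ) * c0 h9 ^ (k : ℕ) =
      a0 h9 ^ (i' : ℕ) * b0 h9 ^ (j' : ℕ) * c0 h9 ^ (k' : ℕ) → i = i' ∧ j = j' ∧ k = k' := by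
  revert h9; decide +kernel

end CfsgLib.AltDoubleCent
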