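import Cfsg.Agent.Lib.AltDoubleCent.BigX

/-!
Degree nine: a three-group of order `3 ^ 7` in the centraliser of `y` containing the three subgroups
`P z`, `P t`, `P (t * z)`.
-/

set_option autoImplicit false
set_option linter.unusedSectionVars false
set_option linter.style.haveILetI false
set_option linter.unusedVariables false

namespace CfsgLib.AltDoubleCent

open Equiv

universe u

variable {G : Type u} [Group G] [Finite G] {z : G} {S : Setting G 9 z} {h9 : 9 ≤ 9}

namespace Frame

variable (F : Frame S h9)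

/-- A subgroup of order `3 ^ 7` centralising `y`, normalised by the four-group and containing all
three `P v`. -/
structure Good (R : Subgroup G) : Prop where
  card : Nat.card R = 2187
  cent : ∀ g ∈ R, Commute g F.y
  norm : ∀ v, F.Inv v → ∀ g ∈ R, v * g * v⁻¹ ∈ R
  contains : ∀ v, F.Inv v → ∀ g, F.P v g → g ∈ R

theorem inf_cent_le_A {R : Subgroup G} (hodd : Odd (Nat.card R))
    (hy : ∀ g ∈ R, Commute g F.y) {v : G} (hv : F.Inv v) :
    R ⊓ Subgroup.centralizer {v} ≤ F.A hv := fun g hg =>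
  F.P_of_odd hv (hy g hg.1) (Subgroup.mem_centralizer_singleton_iff.mp hg.2)
    (odd_orderOf_of_mem hodd hg.1)

theorem inf_cent_both {R : Subgroup G} (hodd : Odd (Nat.card R))
    (hy : ∀ g ∈ R, Commute g F.y) (hyR : F.y ∈ R) :
    R ⊓ Subgroup.centralizer {z} ⊓ Subgroup.centralizer {F.t} = Subgroup.zpowers F.y := by
  refine le_antisymm (fun g hg => F.mem_zpowers_y (hy g hg.1.1)
    (Subgroup.mem_centralizer_singleton_iff.mp hg.1.2)
    (Subgroup.mem_centralizer_singleton_iff.mp hg.2) (odd_orderOf_of_mem hodd hg.1.1))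
    (Subgroup.zpowers_le.mpr ⟨⟨hyR, ?_⟩, ?_⟩)
  · exact Subgroup.mem_centralizer_singleton_iff.mpr F.comm_y_z.eq
  · exact Subgroup.mem_centralizer_singleton_iff.mpr F.t_y.symm.eq

/-- The four-group formula inside the centraliser of `y`. -/
theorem bw_y {R : Subgroup G} (hodd : Odd (Nat.card R)) (hy : ∀ g ∈ R, Commute g F.y)
    (hyR : F.y ∈ R) (hn : ∀ v, F.Inv v → ∀ g ∈ R, v * g * v⁻¹ ∈ R) :
    Nat.card R * 9 = Nat.card ↥(R ⊓ Subgroup.centralizer {z}) *
      Nat.card ↥(R ⊓ Subgroup.centralizer {F.t}) *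
        Nat.card ↥(R ⊓ Subgroup.centralizer {F.t * z}) := by
  rw [← F.bw hodd (hn z (Or.inl rfl)) (hn F.t (Or.inr (Or.inl rfl))),
    F.inf_cent_both hodd hy hyR, F.card_zpowers_y]
  norm_num

theorem inf_cent_eq_A {R : Subgroup G} (hodd : Odd (Nat.card R))
    (hy : ∀ g ∈ R, Commute g F.y) {v : G} (hv : F.Inv v) (hA : ∀ g, F.P v g → g ∈ R) :
    Nat.card ↥(R ⊓ Subgroup.centralizer {v}) = 27 := by
  rw [← F.card_A hv, le_antisymm (F.inf_cent_le_A hodd hy hv)
    fun g hg => ⟨hA g hg, Subgroup.mem_centralizer_singleton_iff.mpr hg.2.1.eq⟩]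

theorem good_of_odd {R : Subgroup G} (hodd : Odd (Nat.card R)) (hy : ∀ g ∈ R, Commute g F.y)
    (hn : ∀ v, F.Inv v → ∀ g ∈ R, v * g * v⁻¹ ∈ R)
    (hA : ∀ v, F.Inv v → ∀ g, F.P v g → g ∈ R) : F.Good R := by
  refine ⟨?_, hy, hn, hA⟩
  have h := F.bw_y hodd hy (hA z (Or.inl rfl) _ (F.P_y (Or.inl rfl))) hn
  rw [F.inf_cent_eq_A hodd hy (Or.inl rfl) (hA z (Or.inl rfl)),
    F.inf_cent_eq_A hodd hy (Or.inr (Or.inl rfl)) (hA _ (Or.inr (Or.inl rfl))),
    F.inf_cent_eq_A hodd hy (Or.inr (Or.inr rfl)) (hA _ (Or.inr (Or.inr rfl)))] at h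
  omega

variable {F}

theorem conj_back {d g : G} : d⁻¹ * (d * g * d⁻¹) * d = g := by group

theorem exists_good {Q : Subgroup G} {x : G} (hX : F.XData Q x) : ∃ R, F.Good R := by
  classical
  have hQ := hX.big
  have hIz : F.Inv z := Or.inl rfl
  have hIt : F.Inv F.t := Or.inr (Or.inl rfl)
  have hItz : F.Inv (F.t * z) := Or.inr (Or.inr rfl)
  haveI : Fact (Nat.Prime 3) := ⟨Nat.prime_three⟩
  obtain ⟨d, hdz, hdc, hda, hdb, hdt, hdd⟩ := F.exists_d
  have hdy : d * F.y * d⁻¹ = F.y⁻¹ := by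
    show d * (F.a * F.b) * d⁻¹ = (F.a * F.b)⁻¹
    rw [← conj_mul, hda, hdb, F.ab.eq, mul_inv_rev]
  have hdy' : d⁻¹ * F.y * d = F.y⁻¹ := by
    have h4 : d⁻¹ * (d * F.y⁻¹ * d⁻¹) * d = F.y⁻¹ := conj_back
    rwa [← conj_inv, hdy, inv_inv] at h4
  have hdtz : d * (F.t * z) * d⁻¹ = F.t := by
    rw [← conj_mul, hdt, hdz.eq, mul_inv_cancel_right, F.t_mul_z_z]
  have hdz' : d * z * d⁻¹ = z := by rw [hdz.eq, mul_inv_cancel_right]
  -- conjugation by `d` exchanges `P t` and `P (t * z)`
  have hPd : ∀ {v g}, F.P v g → F.P (d * v * d⁻¹) (d * g * d⁻¹) := fun {v g} h => by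
    refine ⟨?_, h.2.1.map (MulAut.conj d), by rw [conj_pow, h.2.2]; group⟩
    have h1 := h.1.inv_right.map (MulAut.conj d)
    simp only [MulAut.conj_apply, ← conj_inv, hdy, inv_inv] at h1
    exact h1
  have hPd' : ∀ {v g}, F.P v g → F.P (d⁻¹ * v * d) (d⁻¹ * g * d) := fun {v g} h => by
    have h1 := h.1.inv_right.map (MulAut.conj d⁻¹)
    have h2 := h.2.1.map (MulAut.conj d⁻¹)
    simp only [MulAut.conj_apply, inv_inv] at h1 h2
    rw [show d⁻¹ * F.y⁻¹ * d = (d⁻¹ * F.y * d)⁻¹ by group, hdy', inv_inv] at h1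
    exact ⟨h1, h2, by
      have h3 := conj_pow (i := 3) (a := d⁻¹) (b := g)
      rw [inv_inv] at h3
      rw [h3, h.2.2, mul_one, inv_mul_cancel]⟩
  set x' := d * x * d⁻¹ with hx'
  have hx'Q : x' ∈ Q := hQ.norm d x hdc hX.mem
  have hx'P : F.P (F.t * z) x' := hdt ▸ hPd hX.hP
  have hx'inv : z * x' * z⁻¹ = x'⁻¹ := hQ.inverted_of_tz hx'Q hx'P.2.1
  have hx'a : Commute x' F.a := by
    have h := hX.comm_a.inv_right.map (MulAut.conj d)
    simpa [MulAut.conj_apply, ← hx', hda, ← conj_inv] using h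
  have hx'b : Commute x' F.b := by
    have h := hX.comm_b.inv_right.map (MulAut.conj d)
    simpa [MulAut.conj_apply, ← hx', hdb, ← conj_inv] using h
  have hdx : d⁻¹ * x * d = x'⁻¹ := by
    have hdi : d⁻¹ = d * z := by
      apply inv_eq_of_mul_eq_one_right
      rw [← mul_assoc, hdd, S.z_sq]
    calc d⁻¹ * x * d = d⁻¹ * x * d⁻¹⁻¹ := by rw [inv_inv]
      _ = d * z * x * (d * z)⁻¹ := by rw [hdi]
      _ = d * (z * x * z⁻¹) * d⁻¹ := by group
      _ = _ := by rw [hX.z_inv, hx', conj_inv]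
  -- (S2) the part of `P t` centralising `c`
  have hS2 : ∀ g, F.P F.t g → Commute g F.c → ∃ i j : ℕ, g = F.y ^ i * x ^ j := by
    set K := F.A hIt ⊓ Subgroup.centralizer ({F.c} : Set G) with hK
    have hle : K ≤ F.A hIt := inf_le_left
    have hlt : Nat.card K ≤ 9 := by
      have hd : Nat.card K ∣ 27 := F.card_A hIt ▸ Subgroup.card_dvd_of_le hle
      have hne : Nat.card K ≠ 27 := fun h => hQ.not_At_le_c fun g hg => by
        have : g ∈ K := by
          rw [Subgroup.eq_of_le_of_card_ge hle (by rw [F.card_A hIt, h])]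
          exact hg
        exact Subgroup.mem_centralizer_singleton_iff.mp this.2
      obtain ⟨k, hk, hk'⟩ := (Nat.dvd_prime_pow Nat.prime_three).mp (show Nat.card K ∣ 3 ^ 3 from hd)
      rw [hk'] at hne ⊢
      interval_cases k <;> omega
    let φ : Fin 3 × Fin 3 → K := fun p => ⟨F.y ^ (p.1 : ℕ) * x ^ (p.2 : ℕ),
      (F.A hIt).mul_mem ((F.A hIt).pow_mem (F.P_y hIt) _) ((F.A hIt).pow_mem hX.hP _),
      Subgroup.mem_centralizer_singleton_iff.mpr
        ((F.c_y.symm.pow_left _).mul_left (hX.comm_c.pow_left _)).eq⟩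
    have hinj : Function.Injective φ := by
      rintro ⟨i, j⟩ ⟨i', j'⟩ h
      have h0 : F.y ^ (i : ℕ) * x ^ (j : ℕ) = F.y ^ (i' : ℕ) * x ^ (j' : ℕ) := congrArg Subtype.val h
      have hj : j = j' := by
        by_contra hne
        apply hX.not_mem_y
        have hxm : x ^ ((j : ℕ) + (3 - (j' : ℕ))) ∈ Subgroup.zpowers F.y := by
          have e : x ^ ((j : ℕ) + (3 - (j' : ℕ))) =
              (F.y ^ (i : ℕ))⁻¹ * F.y ^ (i' : ℕ) := by
            calc x ^ ((j : ℕ) + (3 - (j' : ℕ)))
                = (F.y ^ (i : ℕ))⁻¹ * (F.y ^ (i : ℕ) * x ^ (j : ℕ)) * x ^ (3 - (j' : ℕ)) := by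
                  rw [pow_add]; group
              _ = (F.y ^ (i : ℕ))⁻¹ * F.y ^ (i' : ℕ) * (x ^ (j' : ℕ) * x ^ (3 - (j' : ℕ))) := by
                  rw [h0]; group
              _ = _ := by rw [← pow_add, show (j' : ℕ) + (3 - (j' : ℕ)) = 3 by omega, hX.pow_three,
                  mul_one]
          rw [e]
          exact mul_mem (inv_mem (Subgroup.pow_mem _ (Subgroup.mem_zpowers _) _))
            (Subgroup.pow_mem _ (Subgroup.mem_zpowers _) _)
        have hm : ((j : ℕ) + (3 - (j' : ℕ))) % 3 = 1 ∨ ((j : ℕ) + (3 - (j' : ℕ))) % 3 = 2 := by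
          have := j.isLt; have := j'.isLt
          have : (j : ℕ) ≠ (j' : ℕ) := fun e => hne (Fin.ext e)
          omega
        rw [pow_eq_pow_mod _ hX.pow_three] at hxm
        rcases hm with e | e <;> rw [e] at hxm
        · rwa [pow_one] at hxm
        · have h2 := mul_mem hxm hxm
          rwa [← pow_add, show 2 + 2 = 3 + 1 by norm_num, pow_add, hX.pow_three, one_mul,
            pow_one] at h2
      subst hj
      have hi : S.img (F.y ^ (i : ℕ)) = S.img (F.y ^ (i' : ℕ)) := by rw [mul_right_cancel h0]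
      have hyo : orderOf F.y = 3 := F.y_ord (by norm_num)
      have : (i : ℕ) = i' := pow_injOn_Iio_orderOf (by simp [hyo]) (by simp [hyo]) (mul_right_cancel h0)
      rw [Fin.ext this]
    have hbij : Function.Bijective φ := (Nat.bijective_iff_injective_and_card φ).mpr ⟨hinj, by
      have := Nat.card_le_card_of_injective φ hinj
      simp at this ⊢
      omega⟩
    intro g hg hgc
    obtain ⟨p, hp⟩ := hbij.2 ⟨g, hg, Subgroup.mem_centralizer_singleton_iff.mpr hgc.eq⟩
    exact ⟨p.1, p.2, (congrArg Subtype.val hp).symm⟩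
  -- the odd part of the centraliser of `y` and `x`
  set Mx := Subgroup.centralizer ({F.y, x} : Set G) with hMx
  have memMx : ∀ {g}, g ∈ Mx ↔ Commute g F.y ∧ Commute g x := fun {g} => by
    rw [hMx, Subgroup.mem_centralizer_iff]
    simp only [Set.mem_insert_iff, Set.mem_singleton_iff, forall_eq_or_imp, forall_eq]
    exact ⟨fun h => ⟨h.1.symm, h.2.symm⟩, fun h => ⟨h.1.symm, h.2.symm⟩⟩
  have htMx : F.t ∈ Mx := memMx.mpr ⟨F.t_y, hX.comm_t.symm⟩
  have hxz : ∀ w, (w = z ∨ w = F.t * z) → ¬ Commute w x := by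
    intro w hw h
    have hzx : Commute z x := by
      rcases hw with rfl | rfl
      · exact h
      · have h' := hX.comm_t.symm.mul_left h
        rwa [← mul_assoc, F.t_sq, one_mul] at h'
    exact hX.ne (eq_one_of_fixed_inverted (F.P_odd hX.hP) hzx hX.z_inv)
  have htz2 : ∀ {w}, w ∈ Subgroup.zpowers F.t → w = 1 ∨ w = F.t := fun {w} hw => by
    obtain ⟨m, rfl⟩ := Subgroup.mem_zpowers_iff.mp hw
    rcases Int.even_or_odd' m with ⟨q, rfl | rfl⟩
    · left; rw [zpow_mul, zpow_two, F.t_sq, one_zpow]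
    · right; rw [zpow_add_one, zpow_mul, zpow_two, F.t_sq, one_zpow, one_mul]
  obtain ⟨L, hLM, hLodd, -, hLmem⟩ := exists_odd_complement (M := Mx)
    (V := Subgroup.zpowers F.t) (Subgroup.zpowers_le.mpr htMx)
    (IsPGroup.of_card (n := 1) (by
      rw [Nat.card_zpowers, orderOf_eq_prime (by rw [pow_two, F.t_sq]) (F.t_ne_one (by norm_num))]
      norm_num))
    (fun g _ hn v hv => by
      have ht := hn F.t (Subgroup.mem_zpowers _)
      rcases htz2 ht with e | e
      · exact absurd (conj_eq_one_iff.mp e) (F.t_ne_one (by norm_num))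
      · rcases htz2 hv with rfl | rfl
        · exact Commute.one_right g
        · exact mul_inv_eq_iff_eq_mul.mp e)
    (fun g hg hc ⟨k, hk⟩ => by
      obtain ⟨α, w, hα, hw, rfl⟩ :=
        F.exists_P_mul hIt (memMx.mp hg).1 (hc F.t (Subgroup.mem_zpowers _))
      have hwx : Commute w x := by
        have hαx : Commute α x := F.P_comm hIt hα hX.hP
        have := hαx.inv_left.mul_left (memMx.mp hg).2
        rwa [inv_mul_cancel_left] at this
      have hwt : w = 1 ∨ w = F.t := by
        rcases hw with h | rfl | rfl | rfl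
        · exact Or.inl h
        · exact absurd hwx (hxz _ (Or.inl rfl))
        · exact Or.inr rfl
        · exact absurd hwx (hxz _ (Or.inr rfl))
      have hαw : Commute α w := by
        rcases hwt with rfl | rfl
        · exact Commute.one_right α
        · exact hα.2.1
      have hw2 : w * w = 1 := by rcases hwt with rfl | rfl <;> [rw [one_mul]; exact F.t_sq]
      have hα1 : α = 1 := by
        have h2 : (α * w) ^ 2 ^ (k + 1) = 1 := by rw [pow_succ, pow_mul, hk, one_pow]
        rw [pow_succ', pow_mul, hαw.mul_pow, pow_two w, hw2, mul_one, ← pow_mul] at h2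
        have h3 : orderOf α ∣ 2 ^ (k + 1) :=
          orderOf_dvd_of_pow_eq_one (by rw [pow_succ']; exact h2)
        rw [← orderOf_eq_one_iff]
        exact Nat.eq_one_of_dvd_coprimes
          ((Nat.coprime_two_left.mpr (F.P_odd hα)).pow_left (k + 1)).symm dvd_rfl h3
      rw [hα1, one_mul]
      rcases hwt with rfl | rfl
      · exact one_mem _
      · exact Subgroup.mem_zpowers _)
  have hLy : ∀ g ∈ L, Commute g F.y := fun g hg => (memMx.mp (hLM hg)).1
  have hLmem' : ∀ g, Commute g F.y → Commute g x → Odd (orderOf g) → g ∈ L :=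
    fun g h1 h2 h3 => (hLmem g).mpr ⟨memMx.mpr ⟨h1, h2⟩, h3⟩
  have hAzx : ∀ g, F.P z g → Commute g x := fun g hg => by
    obtain ⟨i, j, k, rfl⟩ := F.P_z_iff.mp hg
    exact ((hX.comm_a.symm.pow_left i).mul_left (hX.comm_b.symm.pow_left j)).mul_left
      (hX.comm_c.symm.pow_left k)
  have hAzL : ∀ g, F.P z g → g ∈ L := fun g hg => hLmem' g hg.1 (hAzx g hg) (F.P_odd hg)
  have hAtL : ∀ g, F.P F.t g → g ∈ L := fun g hg =>
    hLmem' g hg.1 (F.P_comm hIt hg hX.hP) (F.P_odd hg)
  have hLn : ∀ v, F.Inv v → ∀ g ∈ L, v * g * v⁻¹ ∈ L := by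
    intro v hv g hg
    have h := memMx.mp (hLM hg)
    have hxv : v * x * v⁻¹ = x ∨ v * x * v⁻¹ = x⁻¹ := by
      rcases hv with rfl | rfl | rfl
      · exact Or.inr hX.z_inv
      · left; rw [hX.comm_t.symm.eq, mul_inv_cancel_right]
      · right
        rw [show F.t * z * x * (F.t * z)⁻¹ = F.t * (z * x * z⁻¹) * F.t⁻¹ by group, hX.z_inv,
          hX.comm_t.symm.inv_right.eq, mul_inv_cancel_right]
    refine hLmem' _ ((F.inv_y hv).mul_left h.1 |>.mul_left (F.inv_y hv).inv_left) ?_
      (by rw [show v * g * v⁻¹ = MulAut.conj v g from rfl, MulEquiv.orderOf_eq]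
          exact odd_orderOf_of_mem hLodd hg)
    rcases hxv with e | e
    · have := h.2.map (MulAut.conj v)
      simpa [MulAut.conj_apply, e] using this
    · have := h.2.inv_right.map (MulAut.conj v)
      simpa [MulAut.conj_apply, ← conj_inv, e] using this
  by_cases hall : ∀ g, F.P (F.t * z) g → Commute g x
  · refine ⟨L, F.good_of_odd hLodd hLy hLn fun v hv g hg => ?_⟩
    rcases hv with rfl | rfl | rfl
    · exact hAzL g hg
    · exact hAtL g hg
    · exact hLmem' g hg.1 (hall g hg) (F.P_odd hg)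
  -- a nontrivial element of `P (t * z)` commuting with `x`
  obtain ⟨v', hv', hv'x, hv'inv, hv'ne⟩ : ∃ v', F.P (F.t * z) v' ∧ Commute v' x ∧
      z * v' * z⁻¹ = v'⁻¹ ∧ v' ∉ Subgroup.zpowers F.y := by
    by_contra hcon
    push Not at hcon
    have hne : F.t * z ≠ z := fun e => F.t_ne_one (by norm_num) (mul_eq_right.mp e)
    have hfix : ∀ f ∈ L, Commute (F.t * z) f → f ∈ Subgroup.zpowers F.y := by
      intro f hf hfc
      have hP : F.P (F.t * z) f :=
        F.P_of_odd hItz (hLy f hf) hfc.symm (odd_orderOf_of_mem hLodd hf)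
      obtain ⟨e, i, he, hi, hinv, rfl⟩ := F.exists_split hItz hIz hne hP
      refine mul_mem he (hcon i hi ?_ hinv)
      obtain ⟨m, hm⟩ := Subgroup.mem_zpowers_iff.mp he
      have hex : Commute e x := hm ▸ hX.comm_y.symm.zpow_left m
      have := hex.inv_left.mul_left (memMx.mp (hLM hf)).2
      rwa [inv_mul_cancel_left] at this
    refine hQ.not_At_le_c fun g hg => ?_
    obtain ⟨e, i, he, hi, hinv, rfl⟩ := F.exists_split hIt hIz (F.t_ne_z (by norm_num)) hg
    obtain ⟨m, hm⟩ := Subgroup.mem_zpowers_iff.mp he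
    refine (hm ▸ F.c_y.symm.zpow_left m).mul_left ?_
    have hcP : F.P z F.c := F.form_P ⟨0, 0, 1, by simp⟩
    have htzc : F.t * z * F.c * (F.t * z)⁻¹ = F.c⁻¹ := by
      rw [show F.t * z * F.c * (F.t * z)⁻¹ = F.t * (z * F.c * z⁻¹) * F.t⁻¹ by group,
        ← F.c_comm.eq, mul_inv_cancel_right, F.c_tc]
    have htzi : F.t * z * i * (F.t * z)⁻¹ = i⁻¹ := by
      rw [show F.t * z * i * (F.t * z)⁻¹ = F.t * (z * i * z⁻¹) * F.t⁻¹ by group, hinv,
        hi.2.1.symm.inv_right.eq, mul_inv_cancel_right]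
    obtain ⟨f, hf, hfc, hcomm⟩ := exists_comm_fixed hLodd F.tz_sq (hLn _ hItz)
      (fun f hf hfc w hw => by
        obtain ⟨q, hq⟩ := Subgroup.mem_zpowers_iff.mp (hfix f hf hfc)
        exact hq ▸ (hLy w hw).symm.zpow_left q)
      (hAzL F.c hcP) (hAtL i hi) htzc htzi
    obtain ⟨q, hq⟩ := Subgroup.mem_zpowers_iff.mp (hfix f hf hfc)
    exact (commute_of_comm_fixed (u := z) (odd_orderOf_of_mem hLodd hf)
      (hq ▸ F.comm_y_z.symm.zpow_right q) (hq ▸ hi.1.symm.zpow_left q) F.c_comm.symm hinv hcomm).symm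
  -- its image in `P t` shows that `x` and `x'` commute
  set v'' := d⁻¹ * v' * d with hv''
  have hv''P : F.P F.t v'' := by
    have h := hPd' hv'
    rwa [show d⁻¹ * (F.t * z) * d = F.t by
      have h4 : d⁻¹ * (d * F.t * d⁻¹) * d = F.t := conj_back
      rwa [hdt] at h4] at h
  have hv''x' : Commute v'' x' := by
    have h := hv'x.map (MulAut.conj d⁻¹)
    simp only [MulAut.conj_apply, inv_inv, hdx] at h
    simpa [← hv''] using h.inv_right
  have hxx' : Commute x x' := by
    obtain ⟨f, hf, hfz, hcomm⟩ := exists_comm_fixed hQ.odd S.z_sq hQ.z_norm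
      (fun f hf hfz w hw => by
        obtain ⟨q, hq⟩ := Subgroup.mem_zpowers_iff.mp (hQ.cent_z f hf hfz.symm)
        exact hq ▸ (hQ.comm w hw).symm.zpow_left q)
      hX.mem hx'Q hX.z_inv hx'inv
    have hfc := hQ.cent_z f hf hfz.symm
    have hfe : f = x * x' * (x' * x)⁻¹ := by rw [hcomm]; group
    have hfv : Commute v'' f := by
      have h1 : Commute v'' x := F.P_comm hIt hv''P hX.hP
      rw [hfe]
      exact (h1.mul_right hv''x').mul_right (hv''x'.mul_right h1).inv_right
    by_cases hf1 : f = 1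
    · rw [hf1, one_mul] at hcomm; exact hcomm
    have hc' : F.c ∈ Subgroup.zpowers f := by
      have hle : Subgroup.zpowers f ≤ Subgroup.zpowers F.c := Subgroup.zpowers_le.mpr hfc
      have hd := Subgroup.card_dvd_of_le hle
      rw [Nat.card_zpowers, Nat.card_zpowers, F.c_ord] at hd
      rcases (Nat.dvd_prime Nat.prime_three).mp hd with e | e
      · exact absurd (orderOf_eq_one_iff.mp e) hf1
      · rw [Subgroup.eq_of_le_of_card_ge hle (by rw [Nat.card_zpowers, Nat.card_zpowers, F.c_ord, e])]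
        exact Subgroup.mem_zpowers _
    obtain ⟨q, hq⟩ := Subgroup.mem_zpowers_iff.mp hc'
    obtain ⟨i, j, hij⟩ := hS2 v'' hv''P (hq ▸ hfv.zpow_right q)
    have hxj : Commute (x ^ j) x' := by
      have h1 : Commute (F.y ^ i) x' := hx'P.1.symm.pow_left i
      have := h1.inv_left.mul_left (hij ▸ hv''x')
      rwa [inv_mul_cancel_left] at this
    by_cases hj : j % 3 = 0
    · exfalso
      apply hv'ne
      rw [pow_eq_pow_mod j hX.pow_three, hj, pow_zero, mul_one] at hij
      have hv'e : v' = d * v'' * d⁻¹ := by rw [hv'']; group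
      rw [hv'e, hij, ← conj_pow, hdy, inv_pow]
      exact inv_mem (Subgroup.pow_mem _ (Subgroup.mem_zpowers _) _)
    · rw [pow_eq_pow_mod j hX.pow_three] at hxj
      rcases (show j % 3 = 1 ∨ j % 3 = 2 by omega) with e | e <;> rw [e] at hxj
      · rwa [pow_one] at hxj
      · have := hxj.mul_left hxj
        rwa [← pow_add, show 2 + 2 = 3 + 1 by norm_num, pow_add, hX.pow_three, one_mul,
          pow_one] at this
  -- `P (t * z)` meets the centraliser of `x` in a group of order nine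
  set K' := F.A hItz ⊓ Subgroup.centralizer ({x} : Set G) with hK'
  have hK'le : Nat.card K' ≤ 9 := by
    have hd : Nat.card K' ∣ 27 := F.card_A hItz ▸ Subgroup.card_dvd_of_le inf_le_left
    have hne : Nat.card K' ≠ 27 := fun h => hall fun g hg => by
      have e : K' = F.A hItz :=
        Subgroup.eq_of_le_of_card_ge inf_le_left (by rw [F.card_A hItz, h])
      have : g ∈ K' := e.symm ▸ (hg : g ∈ F.A hItz)
      exact Subgroup.mem_centralizer_singleton_iff.mp this.2
    obtain ⟨k, hk, hk'⟩ := (Nat.dvd_prime_pow Nat.prime_three).mp (show Nat.card K' ∣ 3 ^ 3 from hd)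
    rw [hk'] at hne ⊢
    interval_cases k <;> omega
  have hK'ge : 9 ≤ Nat.card K' := by
    let φ : Fin 3 × Fin 3 → K' := fun p => ⟨F.y ^ (p.1 : ℕ) * x' ^ (p.2 : ℕ),
      (F.A hItz).mul_mem ((F.A hItz).pow_mem (F.P_y hItz) _) ((F.A hItz).pow_mem hx'P _),
      Subgroup.mem_centralizer_singleton_iff.mpr
        ((hX.comm_y.symm.pow_left _).mul_left (hxx'.symm.pow_left _)).eq⟩
    have hinj : Function.Injective φ := by
      rintro ⟨i, j⟩ ⟨i', j'⟩ h
      have h0 : F.y ^ (i : ℕ) * x' ^ (j : ℕ) = F.y ^ (i' : ℕ) * x' ^ (j' : ℕ) :=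
        congrArg Subtype.val h
      have h1 := congrArg (fun g => d⁻¹ * g * d) h0
      have e : ∀ m k : ℕ, d⁻¹ * (F.y ^ m * x' ^ k) * d = (F.y⁻¹) ^ m * x ^ k := fun m k => by
        rw [show d⁻¹ * (F.y ^ m * x' ^ k) * d =
          (d⁻¹ * F.y ^ m * d⁻¹⁻¹) * (d⁻¹ * x' ^ k * d⁻¹⁻¹) by group, ← conj_pow, ← conj_pow, inv_inv,
          hdy', hx', conj_back]
      simp only [e] at h1
      have hyo : orderOf (F.y⁻¹) = 3 := by rw [orderOf_inv]; exact F.y_ord (by norm_num)
      have hj : j = j' := by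
        by_contra hne
        apply hX.not_mem_y
        have hxm : x ^ ((j : ℕ) + (3 - (j' : ℕ))) ∈ Subgroup.zpowers F.y := by
          have e' : x ^ ((j : ℕ) + (3 - (j' : ℕ))) =
              (F.y⁻¹ ^ (i : ℕ))⁻¹ * F.y⁻¹ ^ (i' : ℕ) := by
            calc x ^ ((j : ℕ) + (3 - (j' : ℕ)))
                = (F.y⁻¹ ^ (i : ℕ))⁻¹ * (F.y⁻¹ ^ (i : ℕ) * x ^ (j : ℕ)) * x ^ (3 - (j' : ℕ)) := by
                  rw [pow_add]; group
              _ = (F.y⁻¹ ^ (i : ℕ))⁻¹ * F.y⁻¹ ^ (i' : ℕ) * (x ^ (j' : ℕ) * x ^ (3 - (j' : ℕ))) := by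
                  rw [h1]; group
              _ = _ := by rw [← pow_add, show (j' : ℕ) + (3 - (j' : ℕ)) = 3 by omega, hX.pow_three,
                  mul_one]
          rw [e']
          exact mul_mem (inv_mem (Subgroup.pow_mem _ (inv_mem (Subgroup.mem_zpowers _)) _))
            (Subgroup.pow_mem _ (inv_mem (Subgroup.mem_zpowers _)) _)
        have hm : ((j : ℕ) + (3 - (j' : ℕ))) % 3 = 1 ∨ ((j : ℕ) + (3 - (j' : ℕ))) % 3 = 2 := by
          have := j.isLt; have := j'.isLt
          have : (j : ℕ) ≠ (j' : ℕ) := fun e => hne (Fin.ext e)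
          omega
        rw [pow_eq_pow_mod _ hX.pow_three] at hxm
        rcases hm with e | e <;> rw [e] at hxm
        · rwa [pow_one] at hxm
        · have h2 := mul_mem hxm hxm
          rwa [← pow_add, show 2 + 2 = 3 + 1 by norm_num, pow_add, hX.pow_three, one_mul,
            pow_one] at h2
      subst hj
      rw [Fin.ext (pow_injOn_Iio_orderOf (by simp [hyo]) (by simp [hyo]) (mul_right_cancel h1) :
        (i : ℕ) = i')]
    simpa using Nat.card_le_card_of_injective φ hinj
  have hyL : F.y ∈ L := hAzL _ (F.P_y hIz)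
  have hcardL : Nat.card L = 729 := by
    have h := F.bw_y hLodd hLy hyL hLn
    rw [F.inf_cent_eq_A hLodd hLy hIz hAzL, F.inf_cent_eq_A hLodd hLy hIt hAtL] at h
    have h3 : L ⊓ Subgroup.centralizer {F.t * z} = K' := by
      refine le_antisymm (fun g hg => ⟨F.inf_cent_le_A hLodd hLy hItz hg,
        Subgroup.mem_centralizer_singleton_iff.mpr (memMx.mp (hLM hg.1)).2.eq⟩) (fun g hg => ?_)
      exact ⟨hLmem' g hg.1.1 (Subgroup.mem_centralizer_singleton_iff.mp hg.2) (F.P_odd hg.1),
        Subgroup.mem_centralizer_singleton_iff.mpr hg.1.2.1.eq⟩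
    rw [h3] at h
    omega
  -- the odd part `D` of the centraliser of `a`, `b`, `c`
  set MA := Subgroup.centralizer ({F.a, F.b, F.c} : Set G) with hMA
  have memMA : ∀ {g}, g ∈ MA ↔ Commute g F.a ∧ Commute g F.b ∧ Commute g F.c := fun {g} => by
    rw [hMA, Subgroup.mem_centralizer_iff]
    simp only [Set.mem_insert_iff, Set.mem_singleton_iff, forall_eq_or_imp, forall_eq]
    exact ⟨fun h => ⟨h.1.symm, h.2.1.symm, h.2.2.symm⟩, fun h => ⟨h.1.symm, h.2.1.symm, h.2.2.symm⟩⟩
  have hz2 : ∀ {w}, w ∈ Subgroup.zpowers z → w = 1 ∨ w = z := fun {w} hw => by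
    obtain ⟨m, rfl⟩ := Subgroup.mem_zpowers_iff.mp hw
    rcases Int.even_or_odd' m with ⟨q, rfl | rfl⟩
    · left; rw [zpow_mul, zpow_two, S.z_sq, one_zpow]
    · right; rw [zpow_add_one, zpow_mul, zpow_two, S.z_sq, one_zpow, one_mul]
  have hMAz : ∀ g, Commute g F.y → Commute g z → Commute g F.c →
      ∃ α w, F.P z α ∧ (w = 1 ∨ w = z) ∧ g = α * w := by
    intro g hgy hgz hgc
    obtain ⟨α, w, hα, hw, rfl⟩ := F.exists_form_mul hgy hgz
    refine ⟨α, w, F.form_P hα, ?_, rfl⟩
    have hαc : Commute α F.c := F.form_comm hα ⟨0, 0, 1, by simp⟩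
    have hwc : Commute w F.c := by
      have := hαc.inv_left.mul_left hgc
      rwa [inv_mul_cancel_left] at this
    have hnt : ¬ Commute F.t F.c := fun htc => by
      have h1 := F.c_tc
      rw [htc.eq, mul_inv_cancel_right] at h1
      have h2 := eq_one_of_sq F.c_odd (by nth_rewrite 1 [h1]; exact inv_mul_cancel _)
      have := F.c_ord
      rw [h2, orderOf_one] at this
      omega
    rcases hw with h | rfl | rfl | rfl
    · exact Or.inl h
    · exact Or.inr rfl
    · exact absurd hwc hnt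
    · refine absurd ?_ hnt
      have := hwc.mul_left F.c_comm.symm
      rwa [F.t_mul_z_z] at this
  obtain ⟨D, hDM, hDodd, -, hDmem⟩ := exists_odd_complement (M := MA)
    (V := Subgroup.zpowers z) (Subgroup.zpowers_le.mpr
      (memMA.mpr ⟨F.a_comm.symm, F.b_comm.symm, F.c_comm.symm⟩))
    (IsPGroup.of_card (n := 1) (by rw [Nat.card_zpowers, S.hz]; norm_num))
    (fun g _ hn v hv => by
      rcases hz2 (hn z (Subgroup.mem_zpowers _)) with e | e
      · exact absurd (conj_eq_one_iff.mp e) S.z_ne_one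
      · rcases hz2 hv with rfl | rfl
        · exact Commute.one_right g
        · exact mul_inv_eq_iff_eq_mul.mp e)
    (fun g hg hc ⟨k, hk⟩ => by
      obtain ⟨hga, hgb, hgc⟩ := memMA.mp hg
      obtain ⟨α, w, hα, hw, rfl⟩ := hMAz g (hga.mul_right hgb) (hc z (Subgroup.mem_zpowers _)) hgc
      have hw2 : w * w = 1 := by rcases hw with rfl | rfl <;> [rw [one_mul]; exact S.z_sq]
      have hαw : Commute α w := by
        rcases hw with rfl | rfl
        · exact Commute.one_right α
        · exact hα.2.1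
      have hα1 : α = 1 := by
        have h2 : (α * w) ^ 2 ^ (k + 1) = 1 := by rw [pow_succ, pow_mul, hk, one_pow]
        rw [pow_succ', pow_mul, hαw.mul_pow, pow_two w, hw2, mul_one, ← pow_mul] at h2
        have h3 : orderOf α ∣ 2 ^ (k + 1) :=
          orderOf_dvd_of_pow_eq_one (by rw [pow_succ']; exact h2)
        rw [← orderOf_eq_one_iff]
        exact Nat.eq_one_of_dvd_coprimes
          ((Nat.coprime_two_left.mpr (F.P_odd hα)).pow_left (k + 1)).symm dvd_rfl h3
      rw [hα1, one_mul]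
      rcases hw with rfl | rfl
      · exact one_mem _
      · exact Subgroup.mem_zpowers _)
  have hDy : ∀ g ∈ D, Commute g F.y := fun g hg =>
    (memMA.mp (hDM hg)).1.mul_right (memMA.mp (hDM hg)).2.1
  have hDmem' : ∀ g, Commute g F.a → Commute g F.b → Commute g F.c → Odd (orderOf g) → g ∈ D :=
    fun g h1 h2 h3 h4 => (hDmem g).mpr ⟨memMA.mpr ⟨h1, h2, h3⟩, h4⟩
  have hDz : ∀ g, F.P z g → g ∈ D := fun g hg => hDmem' g
    (F.form_comm (F.P_z_iff.mp hg) ⟨1, 0, 0, by simp⟩)
    (F.form_comm (F.P_z_iff.mp hg) ⟨0, 1, 0, by simp⟩)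
    (F.form_comm (F.P_z_iff.mp hg) ⟨0, 0, 1, by simp⟩) (F.P_odd hg)
  have hDn : ∀ v, F.Inv v → ∀ g ∈ D, v * g * v⁻¹ ∈ D := by
    intro v hv g hg
    obtain ⟨hga, hgb, hgc⟩ := memMA.mp (hDM hg)
    have hgA : ∀ w, F.Form w → Commute g w := fun w hw => by
      obtain ⟨i, j, k, rfl⟩ := hw
      exact ((hga.pow_right i).mul_right (hgb.pow_right j)).mul_right (hgc.pow_right k)
    have key : ∀ e, F.Form e → Commute (v * g * v⁻¹) e := fun e he => by
      have h1 := (hgA _ (F.conj_form' he (Or.inr hv))).map (MulAut.conj v)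
      simp only [MulAut.conj_apply] at h1
      rwa [show v * (v * e * v⁻¹) * v⁻¹ = (v * v) * e * (v * v)⁻¹ by group, F.inv_sq hv, one_mul,
        inv_one, mul_one] at h1
    exact hDmem' _ (key _ ⟨1, 0, 0, by simp⟩) (key _ ⟨0, 1, 0, by simp⟩) (key _ ⟨0, 0, 1, by simp⟩)
      (by rw [show v * g * v⁻¹ = MulAut.conj v g from rfl, MulEquiv.orderOf_eq]
          exact odd_orderOf_of_mem hDodd hg)
  have hxD : x ∈ D := hDmem' x hX.comm_a hX.comm_b hX.comm_c (F.P_odd hX.hP)
  have hx'D : x' ∈ D := hDmem' x' hx'a hx'b (hQ.comm x' hx'Q) (F.P_odd hx'P)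
  have hDt : ∀ g ∈ D, Commute g F.t → ∃ i j : ℕ, g = F.y ^ i * x ^ j := fun g hg hgt =>
    hS2 g (F.P_of_odd hIt (hDy g hg) hgt (odd_orderOf_of_mem hDodd hg)) (memMA.mp (hDM hg)).2.2
  have hDtz : ∀ g ∈ D, Commute g (F.t * z) → ∃ i j : ℕ, g = F.y ^ i * x' ^ j := by
    intro g hg hgt
    have hP : F.P (F.t * z) g := F.P_of_odd hItz (hDy g hg) hgt (odd_orderOf_of_mem hDodd hg)
    have h1 := hPd hP
    rw [hdtz] at h1
    have h2 : Commute (d * g * d⁻¹) F.c := (hdc.mul_left (memMA.mp (hDM hg)).2.2).mul_left hdc.inv_left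
    obtain ⟨i, j, hij⟩ := hS2 _ h1 h2
    refine ⟨2 * i, 2 * j, ?_⟩
    have hgd : g = d⁻¹ * (d * g * d⁻¹) * d := by group
    have e1 : d⁻¹ * F.y ^ i * d = F.y ^ (2 * i) := by
      have := conj_pow (i := i) (a := d⁻¹) (b := F.y)
      rw [inv_inv] at this
      rw [← this, hdy', pow_mul]
      congr 1
      exact inv_eq_of_mul_eq_one_right (by rw [← pow_succ']; exact F.y_pow)
    have e2 : d⁻¹ * x ^ j * d = x' ^ (2 * j) := by
      have := conj_pow (i := j) (a := d⁻¹) (b := x)
      rw [inv_inv] at this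
      rw [← this, hdx, pow_mul]
      congr 1
      exact inv_eq_of_mul_eq_one_right (by rw [← pow_succ']; exact hx'P.2.2)
    rw [hgd, hij, ← e1, ← e2]
    group
  have hDx : ∀ g ∈ D, Commute g x := by
    intro g hg
    refine Subgroup.mem_centralizer_singleton_iff.mp
      (F.le_of_parts (K := Subgroup.centralizer {x}) hDodd (hDn z hIz) (hDn _ hIt) ?_ hg)
    intro v hv w hw hwv
    refine Subgroup.mem_centralizer_singleton_iff.mpr (Commute.eq ?_)
    rcases hv with rfl | rfl | rfl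
    · exact hAzx w (F.P_of_odd hIz (hDy w hw) hwv (odd_orderOf_of_mem hDodd hw))
    · exact F.P_comm hIt (F.P_of_odd hIt (hDy w hw) hwv (odd_orderOf_of_mem hDodd hw)) hX.hP
    · obtain ⟨i, j, rfl⟩ := hDtz w hw hwv
      exact (hX.comm_y.symm.pow_left i).mul_left (hxx'.symm.pow_left j)
  have hDL : D ≤ L := fun g hg => hLmem' g (hDy g hg) (hDx g hg) (odd_orderOf_of_mem hDodd hg)
  have hcDt : Nat.card ↥(D ⊓ Subgroup.centralizer {F.t}) ≤ 9 := by
    let φ : Fin 3 × Fin 3 → ↥(D ⊓ Subgroup.centralizer {F.t}) := fun p =>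
      ⟨F.y ^ (p.1 : ℕ) * x ^ (p.2 : ℕ), D.mul_mem (D.pow_mem (hDz _ (F.P_y hIz)) _) (D.pow_mem hxD _),
        Subgroup.mem_centralizer_singleton_iff.mpr
          ((F.t_y.symm.pow_left _).mul_left (hX.comm_t.pow_left _)).eq⟩
    have hs : Function.Surjective φ := fun g => by
      obtain ⟨i, j, hij⟩ := hDt g g.2.1 (Subgroup.mem_centralizer_singleton_iff.mp g.2.2)
      refine ⟨(⟨i % 3, by omega⟩, ⟨j % 3, by omega⟩), Subtype.ext ?_⟩
      simp only [φ]
      rw [hij, ← pow_eq_pow_mod i F.y_pow, ← pow_eq_pow_mod j hX.pow_three]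
    simpa using Nat.card_le_card_of_surjective φ hs
  have hcDtz : Nat.card ↥(D ⊓ Subgroup.centralizer {F.t * z}) ≤ 9 := by
    let φ : Fin 3 × Fin 3 → ↥(D ⊓ Subgroup.centralizer {F.t * z}) := fun p =>
      ⟨F.y ^ (p.1 : ℕ) * x' ^ (p.2 : ℕ),
        D.mul_mem (D.pow_mem (hDz _ (F.P_y hIz)) _) (D.pow_mem hx'D _),
        Subgroup.mem_centralizer_singleton_iff.mpr
          (((F.inv_y hItz).symm.pow_left _).mul_left (hx'P.2.1.pow_left _)).eq⟩
    have hs : Function.Surjective φ := fun g => by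
      obtain ⟨i, j, hij⟩ := hDtz g g.2.1 (Subgroup.mem_centralizer_singleton_iff.mp g.2.2)
      refine ⟨(⟨i % 3, by omega⟩, ⟨j % 3, by omega⟩), Subtype.ext ?_⟩
      simp only [φ]
      rw [hij, ← pow_eq_pow_mod i F.y_pow, ← pow_eq_pow_mod j hx'P.2.2]
    simpa using Nat.card_le_card_of_surjective φ hs
  -- `D` has index three in `L`
  have hcardD : Nat.card D = 243 := by
    have h := F.bw_y hDodd hDy (hDz _ (F.P_y hIz)) hDn
    rw [F.inf_cent_eq_A hDodd hDy hIz hDz] at h
    have hge : ∀ {v w : G} (hv : F.Inv v), Commute w v → w ∈ D → w ∉ Subgroup.zpowers F.y →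
        9 ≤ Nat.card ↥(D ⊓ Subgroup.centralizer {v}) := by
      intro v w hv hwv hwD hwy
      set H := D ⊓ Subgroup.centralizer ({v} : Set G) with hH
      have hle : Subgroup.zpowers F.y < H := by
        refine lt_of_le_of_ne (Subgroup.zpowers_le.mpr ⟨hDz _ (F.P_y hIz),
          Subgroup.mem_centralizer_singleton_iff.mpr (F.inv_y hv).symm.eq⟩) fun e => hwy ?_
        rw [e]
        exact ⟨hwD, Subgroup.mem_centralizer_singleton_iff.mpr hwv.eq⟩
      have hd : Nat.card H ∣ 27 :=
        F.card_A hv ▸ Subgroup.card_dvd_of_le (F.inf_cent_le_A hDodd hDy hv)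
      have h3 : 3 < Nat.card H := by
        rw [← F.card_zpowers_y]
        by_contra hc
        exact absurd (Subgroup.eq_of_le_of_card_ge hle.le (Nat.le_of_not_lt hc)) hle.ne
      obtain ⟨k, hk, hk'⟩ := (Nat.dvd_prime_pow Nat.prime_three).mp (show Nat.card H ∣ 3 ^ 3 from hd)
      rw [hk'] at h3 ⊢
      interval_cases k <;> omega
    have hx'y : x' ∉ Subgroup.zpowers F.y := by
      intro h'
      obtain ⟨m, hm⟩ := Subgroup.mem_zpowers_iff.mp h'
      have hz' : Commute z x' := hm ▸ F.comm_y_z.symm.zpow_right m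
      have h1 := eq_one_of_fixed_inverted (F.P_odd hx'P) hz' hx'inv
      exact hX.ne (conj_eq_one_iff.mp h1)
    have h1 := hge hIt hX.comm_t hxD hX.not_mem_y
    have h2 := hge hItz hx'P.2.1 hx'D hx'y
    rw [show Nat.card ↥(D ⊓ Subgroup.centralizer {F.t}) = 9 by omega,
      show Nat.card ↥(D ⊓ Subgroup.centralizer {F.t * z}) = 9 by omega] at h
    omega
  have hLD : ∀ g ∈ L, ∀ w ∈ D, g * w * g⁻¹ ∈ D := by
    have hidx : (D.subgroupOf L).index = (Nat.card L).minFac := by
      have := Subgroup.card_mul_index (D.subgroupOf L)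
      rw [Nat.card_congr (Subgroup.subgroupOfEquivOfLe hDL).toEquiv, hcardD, hcardL] at this
      rw [hcardL, show (729 : ℕ) = 3 ^ 6 by norm_num, Nat.pow_minFac (by norm_num),
        Nat.Prime.minFac_eq Nat.prime_three]
      omega
    haveI := Subgroup.normal_of_index_eq_minFac_card hidx
    exact fun g hg w hw => this.conj_mem ⟨w, hDL hw⟩ hw ⟨g, hg⟩
  -- the normaliser of `D` in the centraliser of `y`
  set M := Subgroup.centralizer ({F.y} : Set G) ⊓ Subgroup.normalizer (D : Set G) with hM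
  have memN : ∀ g, (∀ w ∈ D, g * w * g⁻¹ ∈ D) → g ∈ Subgroup.normalizer (D : Set G) := by
    intro g h
    rw [Subgroup.mem_normalizer_iff]
    refine fun w => ⟨h w, fun hw => ?_⟩
    have hbij : Function.Bijective (fun w : D => (⟨g * w * g⁻¹, h w w.2⟩ : D)) :=
      Finite.injective_iff_bijective.mp fun p q e =>
        Subtype.ext ((MulAut.conj g).injective (congrArg Subtype.val e))
    obtain ⟨p, hp⟩ := hbij.2 ⟨g * w * g⁻¹, hw⟩
    have := (MulAut.conj g).injective (congrArg Subtype.val hp)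
    exact this ▸ p.2
  let V : Subgroup G :=
    { carrier := {v | v = 1 ∨ F.Inv v}
      one_mem' := Or.inl rfl
      mul_mem' := by
        rintro v w (rfl | hv) (rfl | hw)
        · exact Or.inl (one_mul 1)
        · exact Or.inr (by rwa [one_mul])
        · exact Or.inr (by rwa [mul_one])
        · have ht := F.t_comm
          rcases hv with rfl | rfl | rfl <;> rcases hw with rfl | rfl | rfl
          · exact Or.inl S.z_sq
          · exact Or.inr (Or.inr (Or.inr ht.symm.eq))
          · exact Or.inr (Or.inr (Or.inl (by rw [← mul_assoc, ← ht.eq, F.t_mul_z_z])))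
          · exact Or.inr (Or.inr (Or.inr rfl))
          · exact Or.inl F.t_sq
          · exact Or.inr (Or.inl (by rw [← mul_assoc, F.t_sq, one_mul]))
          · exact Or.inr (Or.inr (Or.inl F.t_mul_z_z))
          · exact Or.inr (Or.inl (by rw [mul_assoc, ← ht.eq, ← mul_assoc, F.t_sq, one_mul]))
          · exact Or.inl F.tz_sq
      inv_mem' := by
        rintro v (rfl | hv)
        · exact Or.inl inv_one
        · exact Or.inr (by rwa [F.inv_inv' hv]) }
  have hVcard : IsPGroup 2 V := fun v => ⟨1, Subtype.ext (by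
    rcases v.2 with h | h
    · simp [h]
    · simpa [pow_two] using F.inv_sq h)⟩
  have hVM : V ≤ M := by
    rintro v (rfl | hv)
    · exact one_mem _
    · exact ⟨Subgroup.mem_centralizer_singleton_iff.mpr (F.inv_y hv).eq, memN v (hDn v hv)⟩
  have hVzt : ∀ {g}, Commute g z → Commute g F.t → ∀ v ∈ V, Commute g v := by
    rintro g h1 h2 v (rfl | rfl | rfl | rfl)
    exacts [Commute.one_right g, h1, h2, h2.mul_right h1]
  obtain ⟨L2, hL2M, hL2odd, -, hL2mem⟩ := exists_odd_complement (M := M) (V := V) hVM hVcard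
    (fun g hg hn => by
      have hgz := hn z (Or.inr hIz)
      have hzg : Commute g z := by
        rcases hgz with e | hw
        · exact absurd (conj_eq_one_iff.mp e) S.z_ne_one
        · have hcl : ∀ w, F.Inv w → g * z * g⁻¹ = w → w ≠ z →
              Nat.card ↥(D ⊓ Subgroup.centralizer {w}) ≤ 9 → False := by
            intro w _ e _ h9'
            let φ : ↥(D ⊓ Subgroup.centralizer {z}) → ↥(D ⊓ Subgroup.centralizer {w}) := fun p =>
              ⟨g * p * g⁻¹, (Subgroup.mem_normalizer_iff.mp hg.2 p).mp p.2.1,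
                Subgroup.mem_centralizer_singleton_iff.mpr (e ▸
                  (Commute.map (show Commute (p : G) z from
                    Subgroup.mem_centralizer_singleton_iff.mp p.2.2) (MulAut.conj g)).eq)⟩
            have := Nat.card_le_card_of_injective φ fun p q e' =>
              Subtype.ext ((MulAut.conj g).injective (congrArg Subtype.val e'))
            rw [F.inf_cent_eq_A hDodd hDy hIz hDz] at this
            omega
          rcases hw with e | e | e
          · exact mul_inv_eq_iff_eq_mul.mp e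
          · exact (hcl _ hIt e (F.t_ne_z (by norm_num)) hcDt).elim
          · exact (hcl _ hItz e (fun e' => F.t_ne_one (by norm_num) (mul_eq_right.mp e')) hcDtz).elim
      obtain ⟨α, w, hα, hw, rfl⟩ :=
        F.exists_form_mul (Subgroup.mem_centralizer_singleton_iff.mp hg.1) hzg
      have hwt : Commute w F.t := by
        rcases hw with rfl | hw
        · exact Commute.one_left _
        · exact F.inv_comm hw hIt
      have hn' : α * F.t * α⁻¹ ∈ V := by
        have := hn F.t (Or.inr hIt)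
        rwa [show α * w * F.t * (α * w)⁻¹ = α * (w * F.t * w⁻¹) * α⁻¹ by group, hwt.eq,
          mul_inv_cancel_right] at this
      have hform : F.Form (α * (F.t * α⁻¹ * F.t⁻¹)) := by
        refine F.form_mul hα (F.conj_form ?_)
        have := F.form_pow hα 2
        rwa [show α⁻¹ = α ^ 2 from inv_eq_of_mul_eq_one_right (by
          rw [← pow_succ']; exact (F.form_P hα).2.2)]
      have hαt : Commute α F.t := by
        have hmem : α * (F.t * α⁻¹ * F.t⁻¹) ∈ V := by
          rw [show α * (F.t * α⁻¹ * F.t⁻¹) = α * F.t * α⁻¹ * F.t⁻¹ by group]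
          exact mul_mem hn' (inv_mem (Or.inr hIt))
        rcases hmem with e | e
        · exact mul_inv_eq_iff_eq_mul.mp (mul_inv_eq_one.mp (by rw [← e]; group))
        · exact absurd (eq_one_of_sq (F.P_odd (F.form_P hform)) (F.inv_sq e)) (F.inv_ne_one e)
      exact hVzt hzg (hαt.mul_left hwt))
    (fun g hg hc ⟨k, hk⟩ => by
      obtain ⟨α, w, hα, hw, rfl⟩ := F.exists_form_mul
        (Subgroup.mem_centralizer_singleton_iff.mp hg.1) (hc z (Or.inr hIz))
      have hwt : ∀ v, F.Inv v → Commute w v := fun v hv => by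
        rcases hw with rfl | hw
        · exact Commute.one_left _
        · exact F.inv_comm hw hv
      have hαt : Commute α F.t := by
        have := (hc F.t (Or.inr hIt)).mul_left (hwt _ hIt).inv_left
        rwa [mul_inv_cancel_right] at this
      have hαw : Commute α w := by
        rcases hw with rfl | rfl | rfl | rfl
        exacts [Commute.one_right α, (F.form_P hα).2.1, hαt, hαt.mul_right (F.form_P hα).2.1]
      have hw2 : w * w = 1 := by
        rcases hw with rfl | hw
        · rw [one_mul]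
        · exact F.inv_sq hw
      have hα1 : α = 1 := by
        have h2 : (α * w) ^ 2 ^ (k + 1) = 1 := by rw [pow_succ, pow_mul, hk, one_pow]
        rw [pow_succ', pow_mul, hαw.mul_pow, pow_two w, hw2, mul_one, ← pow_mul] at h2
        have h3 : orderOf α ∣ 2 ^ (k + 1) :=
          orderOf_dvd_of_pow_eq_one (by rw [pow_succ']; exact h2)
        rw [← orderOf_eq_one_iff]
        exact Nat.eq_one_of_dvd_coprimes
          ((Nat.coprime_two_left.mpr (F.P_odd (F.form_P hα))).pow_left (k + 1)).symm dvd_rfl h3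
      rw [hα1, one_mul]
      exact hw)
  have hL2mem' : ∀ g, Commute g F.y → (∀ w ∈ D, g * w * g⁻¹ ∈ D) → Odd (orderOf g) → g ∈ L2 :=
    fun g h1 h2 h3 =>
      (hL2mem g).mpr ⟨⟨Subgroup.mem_centralizer_singleton_iff.mpr h1.eq, memN g h2⟩, h3⟩
  have hdD : ∀ w ∈ D, d * w * d⁻¹ ∈ D ∧ d⁻¹ * w * d ∈ D := by
    intro w hw
    obtain ⟨h1, h2, h3⟩ := memMA.mp (hDM hw)
    have e : ∀ g, Commute (MulAut.conj g w) (MulAut.conj g F.a⁻¹) ∧
        Commute (MulAut.conj g w) (MulAut.conj g F.b⁻¹) ∧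
        Commute (MulAut.conj g w) (MulAut.conj g F.c) := fun g =>
      ⟨h1.inv_right.map (MulAut.conj g), h2.inv_right.map (MulAut.conj g), h3.map (MulAut.conj g)⟩
    constructor
    · obtain ⟨e1, e2, e3⟩ := e d
      simp only [MulAut.conj_apply, ← conj_inv, hda, hdb, inv_inv] at e1 e2 e3
      rw [hdc.eq, mul_inv_cancel_right] at e3
      exact hDmem' _ e1 e2 e3
        (by rw [show d * w * d⁻¹ = MulAut.conj d w from rfl, MulEquiv.orderOf_eq]
            exact odd_orderOf_of_mem hDodd hw)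
    · obtain ⟨e1, e2, e3⟩ := e d⁻¹
      simp only [MulAut.conj_apply, inv_inv] at e1 e2 e3
      have ha' : d⁻¹ * F.a⁻¹ * d = F.a := by
        have h4 : d⁻¹ * (d * F.a * d⁻¹) * d = F.a := conj_back
        rwa [hda] at h4
      have hb' : d⁻¹ * F.b⁻¹ * d = F.b := by
        have h4 : d⁻¹ * (d * F.b * d⁻¹) * d = F.b := conj_back
        rwa [hdb] at h4
      rw [ha'] at e1
      rw [hb'] at e2
      rw [hdc.inv_left.eq, mul_assoc F.c, inv_mul_cancel, mul_one] at e3
      exact hDmem' _ e1 e2 e3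
        (by rw [show d⁻¹ * w * d = MulAut.conj d⁻¹ w by simp [MulAut.conj_apply],
              MulEquiv.orderOf_eq]
            exact odd_orderOf_of_mem hDodd hw)
  refine ⟨L2, F.good_of_odd hL2odd
    (fun g hg => Subgroup.mem_centralizer_singleton_iff.mp (hL2M hg).1) ?_ ?_⟩
  · intro v hv g hg
    refine (hL2mem _).mpr ⟨M.mul_mem (M.mul_mem (hVM (Or.inr hv)) (hL2M hg))
      (M.inv_mem (hVM (Or.inr hv))), ?_⟩
    rw [show v * g * v⁻¹ = MulAut.conj v g from rfl, MulEquiv.orderOf_eq]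
    exact odd_orderOf_of_mem hL2odd hg
  · intro v hv g hg
    refine hL2mem' g hg.1 ?_ (F.P_odd hg)
    rcases hv with rfl | rfl | rfl
    · exact fun w hw => hLD g (hAzL g hg) w hw
    · exact fun w hw => hLD g (hAtL g hg) w hw
    · have h1 := hPd hg
      rw [hdtz] at h1
      intro w hw
      have h2 := hLD _ (hAtL _ h1) _ (hdD w hw).1
      have h3 := (hdD _ h2).2
      rwa [show d⁻¹ * (d * g * d⁻¹ * (d * w * d⁻¹) * (d * g * d⁻¹)⁻¹) * d = g * w * g⁻¹ by
        group] at h3

end Frame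

end CfsgLib.AltDoubleCent
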