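import Cfsg.Agent.Lib.AltDoubleCent.FrameDef

/-!
The centraliser of `(0 1 2)(3 4 5)` in degree nine, and two block permutations.
-/

set_option autoImplicit false
set_option maxRecDepth 8000

namespace CfsgLib.AltDoubleCent

open Equiv

theorem nine_facts (h : 9 ≤ 9) :
    (∀ x : Fin 9, a0 h x ≠ x → x = 0 ∨ x = 1 ∨ x = 2) ∧
    (∀ x : Fin 9, b0 h x ≠ x → x = 3 ∨ x = 4 ∨ x = 5) ∧
    (∀ x : Fin 9, (a0 h * b0 h) x ≠ x → a0 h x ≠ x ∨ b0 h x ≠ x) ∧
    (∀ x : Fin 9, (a0 h * b0 h) x = x → x = 6 ∨ x = 7 ∨ x = 8) ∧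
    (∀ x : Fin 9, a0 h x ≠ x → (a0 h * b0 h) x = a0 h x) ∧
    (∀ x : Fin 9, a0 h x ≠ x ↔ x = 0 ∨ x = 1 ∨ x = 2) ∧
    (∀ x : Fin 9, a0 h x ≠ x → b0 h x = x) ∧
    (a0 h * b0 h = b0 h * a0 h ∧ a0 h * c0 h = c0 h * a0 h ∧ b0 h * c0 h = c0 h * b0 h) ∧
    (a0 h (0 : Fin 9) = 1 ∧ a0 h (1 : Fin 9) = 2 ∧ a0 h (2 : Fin 9) = 0 ∧
      b0 h (3 : Fin 9) = 4 ∧ b0 h (4 : Fin 9) = 5 ∧ b0 h (5 : Fin 9) = 3) ∧
    (b0 h (0 : Fin 9) = 0 ∧ c0 h (0 : Fin 9) = 0 ∧ a0 h (3 : Fin 9) = 3 ∧ c0 h (3 : Fin 9) = 3 ∧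
      a0 h (6 : Fin 9) = 6 ∧ b0 h (6 : Fin 9) = 6) ∧
    (a0 h ^ 3 = 1 ∧ b0 h ^ 3 = 1 ∧ c0 h ^ 3 = 1) ∧
    (Perm.sign (a0 h) = 1 ∧ Perm.sign (b0 h) = 1 ∧ Perm.sign (c0 h) = 1 ∧ Perm.sign (t0 h) = 1) ∧
    t0 h * t0 h = 1 ∧ t0 h * (a0 h * b0 h) = a0 h * b0 h * t0 h ∧
    (∀ x : Fin 9, x = 3 ∨ x = 4 ∨ x = 5 → t0 h x = 0 ∨ t0 h x = 1 ∨ t0 h x = 2) := by
  refine ⟨?_, ?_, ?_, ?_, ?_, ?_, ?_, ?_, ?_, ?_, ?_, ?_, ?_, ?_, ?_⟩
  all_goals (revert h; decide +kernel)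

theorem orbit_pow (h : 9 ≤ 9) :
    (∀ x : Fin 9, x = 0 ∨ x = 1 ∨ x = 2 → ∃ i : Fin 3, (a0 h ^ (i : ℕ)) 0 = x) ∧
    (∀ x : Fin 9, x = 3 ∨ x = 4 ∨ x = 5 → ∃ i : Fin 3, (b0 h ^ (i : ℕ)) 3 = x) ∧
    (∀ x : Fin 9, x = 6 ∨ x = 7 ∨ x = 8 → ∃ i : Fin 3, (c0 h ^ (i : ℕ)) 6 = x) := by
  refine ⟨?_, ?_, ?_⟩
  all_goals (revert h; decide +kernel)

/-- An even permutation commuting with `(0 1 2)(3 4 5)` and stabilising `{0, 1, 2}` lies in the
base group. -/
theorem cent_y_stab (h : 9 ≤ 9) {s : Perm (Fin 9)} (hs : Perm.sign s = 1)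
    (hy : Commute s (a0 h * b0 h)) (h0 : s 0 = 0 ∨ s 0 = 1 ∨ s 0 = 2) :
    ∃ i j k : ℕ, s = a0 h ^ i * b0 h ^ j * c0 h ^ k := by
  obtain ⟨hA, hB, hyab, hyfix, hya, hA', hab', ⟨cab, cac, cbc⟩, ⟨a01, a12, a20, b34, b45, b53⟩,
    ⟨b_0, c_0, a_3, c_3, a_6, b_6⟩, -, ⟨sa, sb, sc, -⟩, -, -, -⟩ := nine_facts h
  obtain ⟨oA, oB, oC⟩ := orbit_pow h
  set y := a0 h * b0 h with hydef
  have key : ∀ x, s (y x) = y (s x) := fun x => by rw [← Perm.mul_apply, hy.eq, Perm.mul_apply]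
  obtain ⟨i, hi⟩ := oA _ h0
  have e1' : s 1 = a0 h (s 0) := by
    have e := key 0
    rwa [hya 0 (by rw [a01]; decide), a01, hya (s 0) ((hA' _).2 h0)] at e
  have hm1 : a0 h (s 1) ≠ s 1 := fun e => by
    rw [e1'] at e
    exact (hA' _).2 h0 ((a0 h).injective e)
  have e2' : s 2 = a0 h (s 1) := by
    have e := key 1
    rwa [hya 1 (by rw [a12]; decide), a12, hya (s 1) hm1] at e
  have horb : ∀ p q : Fin 9, p = 0 ∨ p = 1 ∨ p = 2 → q = 0 ∨ q = 1 ∨ q = 2 →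
      q = p ∨ q = a0 h p ∨ q = a0 h (a0 h p) := by
    clear * - h
    revert h; decide +kernel
  have h3 : s 3 = 3 ∨ s 3 = 4 ∨ s 3 = 5 := by
    have hmov : y (s 3) ≠ s 3 := fun e => by
      rw [← key] at e
      have := s.injective e
      rw [hydef, Perm.mul_apply, b34] at this
      clear * - this h
      revert this; revert h; decide +kernel
    have hout : ¬ (s 3 = 0 ∨ s 3 = 1 ∨ s 3 = 2) := by
      intro hc
      rcases horb _ _ h0 hc with e | e | e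
      · exact absurd (s.injective e) (by decide)
      · rw [← e1'] at e; exact absurd (s.injective e) (by decide)
      · rw [← e1', ← e2'] at e; exact absurd (s.injective e) (by decide)
    rcases hyab _ hmov with hc | hc
    · exact absurd (hA _ hc) hout
    · exact hB _ hc
  obtain ⟨j, hj⟩ := oB _ h3
  have h6 : s 6 = 6 ∨ s 6 = 7 ∨ s 6 = 8 := by
    refine hyfix _ ?_
    rw [← key, hydef, Perm.mul_apply, b_6, a_6]
  obtain ⟨k, hk⟩ := oC _ h6
  have hA0 : Commute (a0 h) (b0 h) := cab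
  have hAC : Commute (a0 h) (c0 h) := cac
  have hBC : Commute (b0 h) (c0 h) := cbc
  set w := a0 h ^ (i : ℕ) * b0 h ^ (j : ℕ) * c0 h ^ (k : ℕ) with hw
  have wy : Commute w y :=
    (((Commute.pow_self _ _).mul_right (hA0.pow_left _)).mul_left
      ((hA0.symm.pow_left _).mul_right (Commute.pow_self _ _))).mul_left
      ((hAC.symm.pow_left _).mul_right (hBC.symm.pow_left _))
  have fp : ∀ (σ : Perm (Fin 9)) (x : Fin 9) (m : ℕ), σ x = x → (σ ^ m) x = x := fun σ x m hx =>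
    Perm.pow_apply_eq_self_of_apply_eq_self hx m
  have w0 : w 0 = s 0 := by
    rw [hw, Perm.mul_apply, Perm.mul_apply, fp _ _ _ c_0, fp _ _ _ b_0, hi]
  have w3 : w 3 = s 3 := by
    rw [hw, (hA0.pow_pow (i : ℕ) (j : ℕ)).eq, Perm.mul_apply, Perm.mul_apply, fp _ _ _ c_3,
      fp _ _ _ a_3, hj]
  have w6 : w 6 = s 6 := by
    rw [hw, ((hAC.pow_pow (i : ℕ) (k : ℕ)).mul_left (hBC.pow_pow (j : ℕ) (k : ℕ))).eq,
      Perm.mul_apply, Perm.mul_apply, fp _ _ _ b_6, fp _ _ _ a_6, hk]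
  set u := w⁻¹ * s with hu
  have uy : Commute u y := wy.inv_left.mul_left hy
  have ukey : ∀ x, u x = x → u (y x) = y x := fun x hx => by
    rw [← Perm.mul_apply, uy.eq, Perm.mul_apply, hx]
  have ufix : ∀ x, w x = s x → u x = x := fun x hx => by
    rw [hu, Perm.mul_apply, ← hx]; simp
  have u0 := ufix 0 w0
  have u3 := ufix 3 w3
  have u6 := ufix 6 w6
  have e1 : y (0 : Fin 9) = 1 ∧ y (1 : Fin 9) = 2 ∧ y (3 : Fin 9) = 4 ∧ y (4 : Fin 9) = 5 := by
    rw [hydef]; clear_value y; clear * - h; revert h; decide +kernel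
  have u1 : u 1 = 1 := by have := ukey 0 u0; rwa [e1.1] at this
  have u2 : u 2 = 2 := by have := ukey 1 u1; rwa [e1.2.1] at this
  have u4 : u 4 = 4 := by have := ukey 3 u3; rwa [e1.2.2.1] at this
  have u5 : u 5 = 5 := by have := ukey 4 u4; rwa [e1.2.2.2] at this
  have hsu : Perm.sign u = 1 := by
    rw [hu, map_mul, map_inv, hs, hw]; simp [sa, sb, sc]
  have hcases : ∀ x : Fin 9, x = 0 ∨ x = 1 ∨ x = 2 ∨ x = 3 ∨ x = 4 ∨ x = 5 ∨ x = 6 ∨ x = 7 ∨ x = 8 := by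
    decide
  have h78 : u 7 = 7 ∨ u 7 = 8 := by
    rcases hcases (u 7) with e | e | e | e | e | e | e | e | e
    · exact absurd (u.injective (e.trans u0.symm)) (by decide)
    · exact absurd (u.injective (e.trans u1.symm)) (by decide)
    · exact absurd (u.injective (e.trans u2.symm)) (by decide)
    · exact absurd (u.injective (e.trans u3.symm)) (by decide)
    · exact absurd (u.injective (e.trans u4.symm)) (by decide)
    · exact absurd (u.injective (e.trans u5.symm)) (by decide)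
    · exact absurd (u.injective (e.trans u6.symm)) (by decide)
    · exact Or.inl e
    · exact Or.inr e
  have h88 : u 7 = 7 → u 8 = 8 := fun e7 => by
    rcases hcases (u 8) with e | e | e | e | e | e | e | e | e
    · exact absurd (u.injective (e.trans u0.symm)) (by decide)
    · exact absurd (u.injective (e.trans u1.symm)) (by decide)
    · exact absurd (u.injective (e.trans u2.symm)) (by decide)
    · exact absurd (u.injective (e.trans u3.symm)) (by decide)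
    · exact absurd (u.injective (e.trans u4.symm)) (by decide)
    · exact absurd (u.injective (e.trans u5.symm)) (by decide)
    · exact absurd (u.injective (e.trans u6.symm)) (by decide)
    · exact absurd (u.injective (e.trans e7.symm)) (by decide)
    · exact e
  rcases h78 with e7 | e7
  · have : u = 1 := Equiv.ext fun x => by
      rcases hcases x with rfl | rfl | rfl | rfl | rfl | rfl | rfl | rfl | rfl <;>
        first | assumption | exact h88 e7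
    exact ⟨i, j, k, (inv_mul_eq_one.mp this).symm⟩
  · have u8 : u 8 = 7 := by
      rcases hcases (u 8) with e | e | e | e | e | e | e | e | e
      · exact absurd (u.injective (e.trans u0.symm)) (by decide)
      · exact absurd (u.injective (e.trans u1.symm)) (by decide)
      · exact absurd (u.injective (e.trans u2.symm)) (by decide)
      · exact absurd (u.injective (e.trans u3.symm)) (by decide)
      · exact absurd (u.injective (e.trans u4.symm)) (by decide)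
      · exact absurd (u.injective (e.trans u5.symm)) (by decide)
      · exact absurd (u.injective (e.trans u6.symm)) (by decide)
      · exact e
      · exact absurd (u.injective (e.trans e7.symm)) (by decide)
    have : u = swap 7 8 := Equiv.ext fun x => by
      rcases hcases x with rfl | rfl | rfl | rfl | rfl | rfl | rfl | rfl | rfl <;>
        simp [swap_apply_def, u0, u1, u2, u3, u4, u5, u6, e7, u8]
    rw [this, Perm.sign_swap (by decide)] at hsu
    exact absurd hsu (by decide)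

/-- The centraliser of `(0 1 2)(3 4 5)` among even permutations is the base group extended by `t0`. -/
theorem cent_y_perm (h : 9 ≤ 9) {s : Perm (Fin 9)} (hs : Perm.sign s = 1)
    (hy : Commute s (a0 h * b0 h)) :
    ∃ i j k : ℕ, s = a0 h ^ i * b0 h ^ j * c0 h ^ k ∨
      t0 h * s = a0 h ^ i * b0 h ^ j * c0 h ^ k := by
  obtain ⟨hA, hB, hyab, -, -, -, -, -, -, -, -, ⟨-, -, -, st⟩, -, hty, ht0⟩ := nine_facts h
  have hmov : (a0 h * b0 h) (s 0) ≠ s 0 := fun e => by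
    rw [← Perm.mul_apply _ s, ← hy.eq, Perm.mul_apply] at e
    have := s.injective e
    clear * - this h
    revert this; revert h; decide +kernel
  rcases hyab _ hmov with hc | hc
  · obtain ⟨i, j, k, e⟩ := cent_y_stab h hs hy (hA _ hc)
    exact ⟨i, j, k, Or.inl e⟩
  · obtain ⟨i, j, k, e⟩ := cent_y_stab h (s := t0 h * s) (by rw [map_mul, st, hs, one_mul])
      ((show Commute (t0 h) (a0 h * b0 h) from hty).mul_left hy)
      (by rw [Perm.mul_apply]; exact ht0 _ (hB _ hc))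
    exact ⟨i, j, k, Or.inr e⟩

/-- Block three-cycles: `a ↦ b ↦ c ↦ a` and `a ↦ b ↦ c⁻¹`, `c ↦ a⁻¹`. -/
def g1 : Perm (Fin 9) :=
  CfsgLib.RealChar.AltCover.cyc 0 3 6 * CfsgLib.RealChar.AltCover.cyc 1 4 7 *
    CfsgLib.RealChar.AltCover.cyc 2 5 8

/-- The twisted block three-cycle. -/
def g2 : Perm (Fin 9) :=
  CfsgLib.RealChar.AltCover.cyc 0 3 6 * CfsgLib.RealChar.AltCover.cyc 1 4 8 *
    CfsgLib.RealChar.AltCover.cyc 2 5 7

theorem g_facts (h : 9 ≤ 9) :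
    Perm.sign g1 = 1 ∧ Perm.sign g2 = 1 ∧
    g1 * a0 h * g1⁻¹ = b0 h ∧ g1 * b0 h * g1⁻¹ = c0 h ∧ g1 * c0 h * g1⁻¹ = a0 h ∧
    g2 * a0 h * g2⁻¹ = b0 h ∧ g2 * b0 h * g2⁻¹ = (c0 h)⁻¹ ∧ g2 * c0 h * g2⁻¹ = (a0 h)⁻¹ := by
  refine ⟨?_, ?_, ?_, ?_, ?_, ?_, ?_, ?_⟩
  all_goals (revert h; decide +kernel)

end CfsgLib.AltDoubleCent
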