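import Cfsg.Agent.Lib.AltDoubleCent.BigCore

/-!
Degree nine: an element of the large three-subgroup centralising `a`, `b`, `c` and one of `t`, `t * z`.
-/

set_option autoImplicit false
set_option linter.unusedSectionVars false
set_option linter.style.haveILetI false

namespace CfsgLib.AltDoubleCent

open Equiv

universe u

variable {G : Type u} [Group G] [Finite G] {z : G} {S : Setting G 9 z} {h9 : 9 ≤ 9}

namespace Frame

variable {F : Frame S h9} {Q : Subgroup G}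

/-- The data: `x` in `Q`, fixed by `t`, centralising `a`, `b`, `c`. -/
structure XData (F : Frame S h9) (Q : Subgroup G) (x : G) : Prop where
  big : F.BigQ Q
  mem : x ∈ Q
  ne : x ≠ 1
  comm_t : Commute x F.t
  comm_a : Commute x F.a
  comm_b : Commute x F.b

theorem XData.comm_c {x : G} (hX : F.XData Q x) : Commute x F.c := hX.big.comm x hX.mem

theorem XData.comm_y {x : G} (hX : F.XData Q x) : Commute x F.y := hX.comm_a.mul_right hX.comm_b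

theorem XData.z_inv {x : G} (hX : F.XData Q x) : z * x * z⁻¹ = x⁻¹ :=
  hX.big.inverted_of_t hX.mem hX.comm_t

theorem XData.hP {x : G} (hX : F.XData Q x) : F.P F.t x :=
  F.P_of_odd (Or.inr (Or.inl rfl)) hX.comm_y hX.comm_t (odd_orderOf_of_mem hX.big.odd hX.mem)

theorem XData.pow_three {x : G} (hX : F.XData Q x) : x ^ 3 = 1 := hX.hP.2.2

theorem XData.not_mem_y {x : G} (hX : F.XData Q x) : x ∉ Subgroup.zpowers F.y := by
  intro h
  obtain ⟨m, hm⟩ := Subgroup.mem_zpowers_iff.mp h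
  exact hX.ne (eq_one_of_fixed_inverted (F.P_odd hX.hP)
    (hm ▸ F.comm_y_z.symm.zpow_right m) hX.z_inv)

theorem BigQ.exists_x (hQ : F.BigQ Q) :
    ∃ x : G, F.XData Q x ∨ F.other.XData Q x := by
  haveI : Fact (Nat.Prime 3) := ⟨Nat.prime_three⟩
  set Az := F.A (Or.inl rfl : F.Inv z) with hAz
  have hAc : ∀ g ∈ Az, Commute g F.c := fun g hg =>
    F.form_comm (F.P_z_iff.mp hg) ⟨0, 0, 1, by simp⟩
  have hAp : IsPGroup 3 Az := IsPGroup.of_card (n := 3) (by rw [F.card_Az]; norm_num)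
  have hAn : Az ≤ Subgroup.normalizer (Q : Set G) := fun g hg =>
    Subgroup.mem_normalizer_iff.mpr fun y => ⟨hQ.norm g y (hAc g hg), fun h => by
      have := hQ.norm g⁻¹ _ (hAc g hg).inv_left h
      rwa [show g⁻¹ * (g * y * g⁻¹) * g⁻¹⁻¹ = y by group] at this⟩
  set P0 := Q ⊔ Az with hP0
  have hP : IsPGroup 3 P0 := hQ.isp.to_sup_of_normal_left' hAp hAn
  have hle : P0 ≤ Subgroup.centralizer {F.c} := sup_le
    (fun g hg => Subgroup.mem_centralizer_singleton_iff.mpr (hQ.comm g hg).eq)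
    (fun g hg => Subgroup.mem_centralizer_singleton_iff.mpr (hAc g hg).eq)
  have hPc : ∀ g ∈ P0, Commute g F.c := fun g hg => Subgroup.mem_centralizer_singleton_iff.mp (hle hg)
  obtain ⟨q, hq, hqc⟩ : ∃ q ∈ Q, q ∉ Subgroup.zpowers F.c := by
    by_contra hcon
    push Not at hcon
    have := Subgroup.card_le_of_le (show Q ≤ Subgroup.zpowers F.c from hcon)
    rw [hQ.card, Nat.card_zpowers, F.c_ord] at this
    omega
  set C := Subgroup.zpowers F.c with hC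
  have hCfix : ∀ g, Commute g F.c → ∀ f ∈ C, g * f * g⁻¹ = f := fun g hg f hf => by
    obtain ⟨m, rfl⟩ := Subgroup.mem_zpowers_iff.mp hf
    rw [(hg.zpow_right m).eq, mul_inv_cancel_right]
  obtain ⟨x₁, hx₁, hx₁c, hcen⟩ := exists_central_mod hP le_sup_left
    (fun g hg x hx => hQ.norm g x (hPc g hg) hx)
    (fun g hg f hf => by rw [hCfix g (hPc g hg) f hf]; exact hf) hq hqc
  have ha : F.a ∈ P0 := Subgroup.mem_sup_right (F.form_P ⟨1, 0, 0, by simp⟩)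
  have hb : F.b ∈ P0 := Subgroup.mem_sup_right (F.form_P ⟨0, 1, 0, by simp⟩)
  let Q1 : Subgroup G :=
    { carrier := {x | x ∈ Q ∧ F.a * x * F.a⁻¹ * x⁻¹ ∈ C ∧ F.b * x * F.b⁻¹ * x⁻¹ ∈ C}
      one_mem' := ⟨Q.one_mem, by simp, by simp⟩
      mul_mem' := by
        rintro x x' ⟨hx, hxa, hxb⟩ ⟨hx', hxa', hxb'⟩
        have key : ∀ g : G, g * x * g⁻¹ * x⁻¹ ∈ C → g * x' * g⁻¹ * x'⁻¹ ∈ C →
            g * (x * x') * g⁻¹ * (x * x')⁻¹ ∈ C := fun g h h' => by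
          rw [show g * (x * x') * g⁻¹ * (x * x')⁻¹ =
            g * x * g⁻¹ * (g * x' * g⁻¹ * x'⁻¹) * x⁻¹ by group]
          have h1 : g * x * g⁻¹ * (g * x' * g⁻¹ * x'⁻¹) * x⁻¹ =
              g * x * g⁻¹ * x⁻¹ * (g * x' * g⁻¹ * x'⁻¹) := by
            have h2 := hCfix x (hQ.comm x hx) _ h'
            calc g * x * g⁻¹ * (g * x' * g⁻¹ * x'⁻¹) * x⁻¹
                = g * x * g⁻¹ * x⁻¹ * (x * (g * x' * g⁻¹ * x'⁻¹) * x⁻¹) := by group
              _ = _ := by rw [h2]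
          rw [h1]; exact mul_mem h h'
        exact ⟨Q.mul_mem hx hx', key _ hxa hxa', key _ hxb hxb'⟩
      inv_mem' := by
        rintro x ⟨hx, hxa, hxb⟩
        have key : ∀ g : G, g * x * g⁻¹ * x⁻¹ ∈ C → g * x⁻¹ * g⁻¹ * x⁻¹⁻¹ ∈ C := fun g h => by
          have h2 := hCfix x⁻¹ (hQ.comm x hx).inv_left _ (inv_mem h)
          rw [show g * x⁻¹ * g⁻¹ * x⁻¹⁻¹ = x⁻¹ * (g * x * g⁻¹ * x⁻¹)⁻¹ * x⁻¹⁻¹ by group, h2]
          exact inv_mem h
        exact ⟨Q.inv_mem hx, key _ hxa, key _ hxb⟩ }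
  have hQ1 : Odd (Nat.card Q1) := hQ.odd.of_dvd_nat (Subgroup.card_dvd_of_le fun x hx => hx.1)
  have hz1 : ∀ x ∈ Q1, z * x * z⁻¹ ∈ Q1 := by
    rintro x ⟨hx, hxa, hxb⟩
    have key : ∀ g : G, Commute g z → g * x * g⁻¹ * x⁻¹ ∈ C →
        g * (z * x * z⁻¹) * g⁻¹ * (z * x * z⁻¹)⁻¹ ∈ C := fun g hg h => by
      rw [show g * (z * x * z⁻¹) * g⁻¹ * (z * x * z⁻¹)⁻¹ =
        (g * z) * x * (g * z)⁻¹ * (z * x * z⁻¹)⁻¹ by group, hg.eq,
        show z * g * x * (z * g)⁻¹ * (z * x * z⁻¹)⁻¹ = z * (g * x * g⁻¹ * x⁻¹) * z⁻¹ by group,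
        (c_zpow h).eq, mul_inv_cancel_right]
      exact h
    exact ⟨hQ.z_norm x hx, key _ F.a_comm hxa, key _ F.b_comm hxb⟩
  have hCt : ∀ f ∈ C, F.t * f * F.t⁻¹ ∈ C := fun f hf => by
    obtain ⟨m, rfl⟩ := Subgroup.mem_zpowers_iff.mp hf
    rw [← conj_zpow, F.c_tc, inv_zpow]
    exact inv_mem (Subgroup.zpow_mem_zpowers _ m)
  have ht1 : ∀ x ∈ Q1, F.t * x * F.t⁻¹ ∈ Q1 := by
    rintro x ⟨hx, hxa, hxb⟩
    have key : ∀ g g' : G, F.t * g * F.t⁻¹ = g' → g * x * g⁻¹ * x⁻¹ ∈ C →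
        g' * (F.t * x * F.t⁻¹) * g'⁻¹ * (F.t * x * F.t⁻¹)⁻¹ ∈ C := fun g g' hg h => by
      rw [← hg, show F.t * g * F.t⁻¹ * (F.t * x * F.t⁻¹) * (F.t * g * F.t⁻¹)⁻¹ *
        (F.t * x * F.t⁻¹)⁻¹ = F.t * (g * x * g⁻¹ * x⁻¹) * F.t⁻¹ by group]
      exact hCt _ h
    exact ⟨hQ.t_norm x hx, key _ _ (F.t_conj_b (by norm_num)) hxb,
      key _ _ (F.t_conj_a (by norm_num)) hxa⟩
  -- an element of `Q1` fixed by `t` or `t * z`
  have hx₁Q : x₁ ∈ Q1 := ⟨hx₁, hcen _ ha, hcen _ hb⟩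
  obtain ⟨v, hv, x, hx, hxv, hxC⟩ : ∃ v, F.Inv v ∧ ∃ x ∈ Q1, Commute x v ∧ x ∉ C := by
    by_contra hcon
    push Not at hcon
    exact hx₁c (F.le_of_parts hQ1 hz1 ht1 (fun v hv g hg hgv => hcon v hv g hg hgv) hx₁Q)
  have hfinish : ∀ (F' : Frame S h9), F'.BigQ Q → F'.a = F.a → F'.b = F.b → Commute x F'.t →
      F'.XData Q x := by
    intro F' hQ' haa hbb hxt
    have hinv := hQ'.inverted_of_t hx.1 hxt
    have key : ∀ g : G, Commute g z → g * x * g⁻¹ * x⁻¹ ∈ C → Commute x g := fun g hg h => by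
      obtain ⟨m, hm⟩ := Subgroup.mem_zpowers_iff.mp h
      refine (commute_of_comm_fixed (u := z) (f := F.c ^ m)
        (odd_orderOf_of_mem hQ.odd (Q.zpow_mem hQ.c_mem m)) ?_
        ((hQ.comm x hx.1).symm.zpow_left m) hg.symm hinv ?_).symm
      · exact F.c_comm.symm.zpow_right m
      · rw [hm]; group
    refine ⟨hQ', hx.1, fun h => hxC (h ▸ one_mem C), hxt, ?_, ?_⟩
    · rw [haa]; exact key _ F.a_comm hx.2.1
    · rw [hbb]; exact key _ F.b_comm hx.2.2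
  rcases hv with rfl | rfl | rfl
  · exact absurd (hQ.cent_z x hx.1 hxv) hxC
  · exact ⟨x, Or.inl (hfinish F hQ rfl rfl hxv)⟩
  · exact ⟨x, Or.inr (hfinish F.other hQ.other rfl rfl hxv)⟩

end Frame

end CfsgLib.AltDoubleCent
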