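import Cfsg.Agent.Lib.AltDoubleCent.LargeCore

/-!
No two commuting involutions can each have a double cover of an alternating group of degree
at least 12 as centraliser.
-/

set_option autoImplicit false

namespace CfsgLib.AltDoubleCent

open Equiv

variable {G : Type*} [Group G] {n : ℕ} {z t : G}

namespace Pair

variable (P : Pair G n z t)

/-- A subgroup of `C(z) ∩ C(t)` stable under conjugation by it. -/
structure Stable (N : Subgroup G) : Prop where
  le : ∀ g ∈ N, P.InD g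
  conj : ∀ g x, P.InD g → x ∈ N → g * x * g⁻¹ ∈ N

/-- The elements preserving every transposition of `T`. -/
def blockKer : Subgroup G where
  carrier := {g | P.InD g ∧ ∀ a, P.S.img g a = a ∨ P.S.img g a = P.T a}
  one_mem' := ⟨⟨Commute.one_left _, Commute.one_left _⟩, fun a => Or.inl (by rw [P.S.img_one]; rfl)⟩
  mul_mem' := by
    rintro g h ⟨hg, hg'⟩ ⟨hh, hh'⟩
    refine ⟨⟨hg.1.mul_left hh.1, hg.2.mul_left hh.2⟩, fun a => ?_⟩
    rw [P.S.img_mul hg.1 hh.1, Perm.mul_apply]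
    rcases hh' a with e | e <;> rw [e]
    · exact hg' a
    · rw [P.T_comm hg]; rcases hg' a with e' | e' <;> rw [e']
      · exact Or.inr rfl
      · rw [P.T_sq]; exact Or.inl rfl
  inv_mem' := by
    rintro g ⟨hg, hg'⟩
    refine ⟨⟨hg.1.inv_left, hg.2.inv_left⟩, fun a => ?_⟩
    rw [P.S.img_inv hg.1]
    simp only [Perm.coe_inv, Equiv.symm_apply_eq]
    rcases hg' a with e | e
    · exact Or.inl e.symm
    · right; rw [P.T_comm hg, e, P.T_sq]

theorem blockKer_stable : P.Stable P.blockKer := by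
  refine ⟨fun g hg => hg.1, ?_⟩
  rintro g x hg ⟨hx, hx'⟩
  refine ⟨⟨(hg.1.mul_left hx.1).mul_left hg.1.inv_left, (hg.2.mul_left hx.2).mul_left hg.2.inv_left⟩,
    fun a => ?_⟩
  obtain ⟨b, rfl⟩ := (P.S.img g).surjective a
  rw [P.S.img_conj hg.1 hx.1, Perm.mul_apply, Perm.mul_apply, Perm.coe_inv, Equiv.symm_apply_apply]
  rcases hx' b with e | e <;> rw [e]
  · exact Or.inl rfl
  · exact Or.inr (P.T_comm hg b)

/-- The elements fixing every moved point of `T`. -/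
def fixKer : Subgroup G where
  carrier := {g | P.InD g ∧ ∀ a, P.Mv a → P.S.img g a = a}
  one_mem' := ⟨⟨Commute.one_left _, Commute.one_left _⟩, fun a _ => by rw [P.S.img_one]; rfl⟩
  mul_mem' := by
    rintro g h ⟨hg, hg'⟩ ⟨hh, hh'⟩
    refine ⟨⟨hg.1.mul_left hh.1, hg.2.mul_left hh.2⟩, fun a ha => ?_⟩
    rw [P.S.img_mul hg.1 hh.1, Perm.mul_apply, hh' a ha, hg' a ha]
  inv_mem' := by
    rintro g ⟨hg, hg'⟩
    refine ⟨⟨hg.1.inv_left, hg.2.inv_left⟩, fun a ha => ?_⟩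
    rw [P.S.img_inv hg.1, Perm.coe_inv, Equiv.symm_apply_eq, hg' a ha]

theorem fixKer_stable : P.Stable P.fixKer := by
  refine ⟨fun g hg => hg.1, ?_⟩
  rintro g x hg ⟨hx, hx'⟩
  refine ⟨⟨(hg.1.mul_left hx.1).mul_left hg.1.inv_left, (hg.2.mul_left hx.2).mul_left hg.2.inv_left⟩,
    fun a ha => ?_⟩
  obtain ⟨b, rfl⟩ := (P.S.img g).surjective a
  have hb : P.Mv b := fun e => ha (by rw [← P.T_comm hg, e])
  rw [P.S.img_conj hg.1 hx.1, Perm.mul_apply, Perm.mul_apply, Perm.coe_inv, Equiv.symm_apply_apply,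
    hx' b hb]

theorem inD_t : P.InD t := ⟨P.comm, Commute.refl t⟩

theorem not_t_mem_fixKer : t ∉ P.fixKer := fun h => P.T_ne_one (Equiv.ext fun a => by
  by_cases ha : P.Mv a
  · exact h.2 a ha
  · exact not_not.mp ha)

theorem pairPerm_inv (a b : Fin n) : (P.pairPerm a b)⁻¹ = P.pairPerm b a := by
  rw [pairPerm, pairPerm, mul_inv_rev, swap_inv, swap_inv]

theorem mv_img {g : G} (hg : P.InD g) {a : Fin n} (ha : P.Mv a) : P.Mv (P.S.img g a) := fun e =>
  ha ((P.S.img g).injective (by rw [P.T_comm hg, e]))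

theorem far_img {g : G} (hg : P.InD g) {a b : Fin n} (h : P.Far a b) :
    P.Far (P.S.img g a) (P.S.img g b) :=
  ⟨fun e => h.1 ((P.S.img g).injective e),
    fun e => h.2 ((P.S.img g).injective (by rw [P.T_comm hg]; exact e))⟩

theorem mem_commutator {N : Subgroup G} (hN : P.Stable N) {x L : G} (hx : x ∈ N) (hL : P.InD L) :
    x * L * x⁻¹ * L⁻¹ ∈ N := by
  rw [show x * L * x⁻¹ * L⁻¹ = x * (L * x⁻¹ * L⁻¹) by group]
  exact N.mul_mem hx (hN.conj L _ hL (N.inv_mem hx))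

theorem img_commutator {x L : G} (hx : P.InD x) (hL : P.InD L) {a b : Fin n}
    (hiL : P.S.img L = P.pairPerm a b) :
    P.S.img (x * L * x⁻¹ * L⁻¹) =
      P.pairPerm (P.S.img x a) (P.S.img x b) * P.pairPerm b a := by
  rw [P.S.img_mul ((hx.1.mul_left hL.1).mul_left hx.1.inv_left) hL.1.inv_left,
    P.S.img_conj hx.1 hL.1, P.S.img_inv hL.1, hiL, P.conj_pairPerm (P.T_comm hx), P.pairPerm_inv]

/-- An element of order three moving a moved point has `z` in its closure. -/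
theorem z_mem_of_moves {N : Subgroup G} (hN : P.Stable N) {x : G} (hx : x ∈ N) (h3 : x ^ 3 = 1)
    {a : Fin n} (ha : P.Mv a) (hmv : P.S.img x a ≠ a) : z ∈ N := by
  have hxD := hN.le x hx
  have hcube : ∀ p, P.S.img x (P.S.img x (P.S.img x p)) = p := by
    intro p
    have e : P.S.img (x ^ 3) = P.S.img x * P.S.img x * P.S.img x := by
      rw [pow_succ, pow_two, P.S.img_mul (hxD.1.mul_left hxD.1) hxD.1, P.S.img_mul hxD.1 hxD.1]
    rw [h3, P.S.img_one] at e
    exact (congrArg (fun σ : Perm (Fin n) => σ p) e).symm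
  obtain ⟨b, hb⟩ : ∃ b, P.S.img x a = b := ⟨_, rfl⟩
  obtain ⟨c, hc⟩ : ∃ c, P.S.img x b = c := ⟨_, rfl⟩
  have hca : P.S.img x c = a := by rw [← hc, ← hb]; exact hcube a
  have hab : P.Far a b := by
    refine ⟨fun e => hmv (by rw [hb, e]), fun e => ?_⟩
    have h2 : P.S.img x b = a := by rw [e, P.T_comm hxD, hb, e, P.T_sq]
    rw [hc] at h2
    rw [h2] at hca
    exact hmv hca
  have hbc : P.Far b c := by rw [← hb, ← hc, ← hb]; exact P.far_img hxD (hb.symm ▸ hab)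
  have hca' : P.Far c a := by rw [← hca, ← hc]; exact P.far_img hxD (hc.symm ▸ hbc)
  have hbm : P.Mv b := hb ▸ P.mv_img hxD ha
  have hcm : P.Mv c := hc ▸ P.mv_img hxD hbm
  obtain ⟨L, hL, hiL⟩ := P.exists_pair hcm ha hca'
  have hl := P.mem_commutator hN hx hL
  have himg := P.img_commutator hxD hL hiL
  rw [hca, hb, P.pairPerm_comm ha hbm hab, P.pairPerm_mul] at himg
  have := P.sq_of_img_pair (hN.le _ hl).1 hbm hcm hbc himg
  rw [← this]
  exact N.mul_mem hl hl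

/-- A subgroup stable under `C(z) ∩ C(t)` generated by the conjugates of `x`. -/
def ncl (x : G) : Subgroup G := Subgroup.closure {y | ∃ g, P.InD g ∧ y = g * x * g⁻¹}

theorem mem_ncl (x : G) : x ∈ P.ncl x :=
  Subgroup.subset_closure ⟨1, ⟨Commute.one_left _, Commute.one_left _⟩, by simp⟩

theorem ncl_le {x : G} {N : Subgroup G} (hN : P.Stable N) (hx : x ∈ N) : P.ncl x ≤ N :=
  (Subgroup.closure_le N).mpr fun _ ⟨g, hg, e⟩ => e ▸ hN.conj g x hg hx

theorem ncl_stable {x : G} (hx : P.InD x) : P.Stable (P.ncl x) := by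
  have hle : ∀ g ∈ P.ncl x, P.InD g := by
    intro g hg
    induction hg using Subgroup.closure_induction with
    | mem y hy =>
      obtain ⟨g, hg, rfl⟩ := hy
      exact ⟨(hg.1.mul_left hx.1).mul_left hg.1.inv_left, (hg.2.mul_left hx.2).mul_left hg.2.inv_left⟩
    | one => exact ⟨Commute.one_left _, Commute.one_left _⟩
    | mul a b _ _ ha hb => exact ⟨ha.1.mul_left hb.1, ha.2.mul_left hb.2⟩
    | inv a _ ha => exact ⟨ha.1.inv_left, ha.2.inv_left⟩
  refine ⟨hle, fun g y hg hy => ?_⟩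
  induction hy using Subgroup.closure_induction with
  | mem y hy =>
    obtain ⟨h, hh, rfl⟩ := hy
    exact Subgroup.subset_closure ⟨g * h, ⟨hg.1.mul_left hh.1, hg.2.mul_left hh.2⟩, by group⟩
  | one => rw [mul_one, mul_inv_cancel]; exact one_mem _
  | mul a b _ _ ha hb =>
    rw [show g * (a * b) * g⁻¹ = (g * a * g⁻¹) * (g * b * g⁻¹) by group]; exact mul_mem ha hb
  | inv a _ ha => rw [show g * a⁻¹ * g⁻¹ = (g * a * g⁻¹)⁻¹ by group]; exact inv_mem ha

/-- Four fixed points of `T`. -/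
theorem exists_witness {f₁ f₂ f₃ f₄ : Fin n} (h1 : P.T f₁ = f₁) (h2 : P.T f₂ = f₂)
    (h3 : P.T f₃ = f₃) (h4 : P.T f₄ = f₄) (n12 : f₁ ≠ f₂) (n13 : f₁ ≠ f₃) (n14 : f₁ ≠ f₄)
    (n23 : f₂ ≠ f₃) (n24 : f₂ ≠ f₄) (n34 : f₃ ≠ f₄) :
    ∃ x, P.InD x ∧ x ^ 3 = 1 ∧ x ∈ P.fixKer ∧ z ∈ P.ncl x := by
  have key : ∀ a b c, P.T a = a → P.T b = b → P.T c = c → a ≠ b → a ≠ c → b ≠ c →
      ∃ x, P.InD x ∧ P.S.img x = cyc a b c ∧ x ^ 3 = 1 := by
    intro a b c ha hb hc hab hac hbc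
    obtain ⟨x, hx, hix, hx3⟩ := P.S.lift_cube (sign_cyc hab hbc) (cyc_cube hab hac hbc)
    refine ⟨x, P.inD_of_cube hx hx3 ?_, hix, hx3⟩
    intro y
    have hT : P.T * cyc a b c * P.T⁻¹ = cyc a b c := by rw [conj_cyc, ha, hb, hc]
    rw [hix]
    have := congrArg (fun σ : Perm (Fin n) => σ (P.T y)) hT
    simp only [Perm.mul_apply, Perm.coe_inv, Equiv.symm_apply_apply] at this
    exact this.symm
  obtain ⟨x, hx, hix, hx3⟩ := key f₁ f₂ f₃ h1 h2 h3 n12 n13 n23
  obtain ⟨g, hg, hig, -⟩ := key f₁ f₂ f₄ h1 h2 h4 n12 n14 n24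
  have hfix : x ∈ P.fixKer := by
    refine ⟨hx, fun a ha => ?_⟩
    rw [hix]
    refine cyc_other (fun e => ha (e ▸ h1)) (fun e => ha (e ▸ h2)) (fun e => ha (e ▸ h3))
  refine ⟨x, hx, hx3, hfix, ?_⟩
  have hx' : g * x * g⁻¹ ∈ P.ncl x := Subgroup.subset_closure ⟨g, hg, rfl⟩
  have hl : x * (g * x * g⁻¹)⁻¹ ∈ P.ncl x := mul_mem (P.mem_ncl x) (inv_mem hx')
  have hx'z : Commute (g * x * g⁻¹) z := (hg.1.mul_left hx.1).mul_left hg.1.inv_left
  have himg : P.S.img (x * (g * x * g⁻¹)⁻¹) = swap f₁ f₂ * swap f₃ f₄ := by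
    rw [P.S.img_mul hx.1 hx'z.inv_left, P.S.img_inv hx'z, P.S.img_conj hg.1 hx.1, hix, hig,
      conj_cyc, cyc_fst n12 n14, cyc_snd n14 n24, cyc_other n13.symm n23.symm n34]
    rw [mul_inv_eq_iff_eq_mul]
    ext y
    rw [Perm.mul_apply, Perm.mul_apply]
    by_cases e1 : y = f₁
    · subst e1
      rw [cyc_fst n12 n13, cyc_other n12 n14 n13, swap_apply_of_ne_of_ne n13 n14, swap_apply_left]
    by_cases e2 : y = f₂
    · subst e2
      rw [cyc_snd n13 n23, cyc_fst n24 n23, swap_apply_right,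
        swap_apply_of_ne_of_ne n13.symm n23.symm]
    by_cases e3 : y = f₃
    · subst e3
      rw [cyc_thd, cyc_thd, swap_apply_of_ne_of_ne n23 n24, swap_apply_right]
    by_cases e4 : y = f₄
    · subst e4
      rw [cyc_other e1 e2 e3, cyc_snd n23 n34.symm, swap_apply_left,
        swap_apply_of_ne_of_ne n14.symm n24.symm]
    rw [cyc_other e1 e2 e3, cyc_other e2 e4 e3, swap_apply_of_ne_of_ne e3 e4,
      swap_apply_of_ne_of_ne e1 e2]
  have := P.S.dbl (hx.1.mul_left hx'z.inv_left) f₁ f₂ f₃ f₄ n12 n34 n13 n14 n23 n24 himg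
  have hm := mul_mem hl hl
  rwa [this] at hm

include P in
theorem commutator_of_squares {a b : G} (ha : a * a = z) (hb : b * b = z)
    (hab : a * b * (a * b) = z) : a * b * a⁻¹ * b⁻¹ = z := by
  have e : a * b = z * (b⁻¹ * a⁻¹) := by rw [← hab]; group
  rw [show a * b * a⁻¹ * b⁻¹ = (a * b) * (a⁻¹ * b⁻¹) from by group, e,
    show z * (b⁻¹ * a⁻¹) * (a⁻¹ * b⁻¹) = z * (b⁻¹ * (a * a)⁻¹ * b⁻¹) by group, ha,
    show (z⁻¹ : G) = z from inv_eq_of_mul_eq_one_right P.S.sq]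
  have hzb : z * b⁻¹ = b⁻¹ * z := by
    rw [← hb, ← mul_assoc, inv_mul_cancel, mul_assoc, mul_inv_cancel]; group
  calc z * (b⁻¹ * z * b⁻¹) = z * z * (b⁻¹ * b⁻¹) := by rw [← hzb]; group
    _ = (b * b)⁻¹ := by rw [P.S.sq, one_mul, mul_inv_rev]
    _ = z := by rw [hb]; exact inv_eq_of_mul_eq_one_right P.S.sq

/-- Two overlapping lifts with commutator `z`. -/
theorem commutator_pairs {a b c : Fin n} (ha : P.Mv a) (hb : P.Mv b) (hc : P.Mv c)
    (hab : P.Far a b) (hbc : P.Far b c) (hac : P.Far a c) {g h : G} (hg : P.InD g) (hh : P.InD h)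
    (hig : P.S.img g = P.pairPerm a b) (hih : P.S.img h = P.pairPerm b c) :
    g * h * g⁻¹ * h⁻¹ = z := by
  refine P.commutator_of_squares (P.sq_of_img_pair hg.1 ha hb hab hig)
    (P.sq_of_img_pair hh.1 hb hc hbc hih) ?_
  apply P.sq_of_img_pair (hg.1.mul_left hh.1) ha hc hac
  rw [P.S.img_mul hg.1 hh.1, hig, hih, P.pairPerm_mul]

theorem pairPerm_apply_or {a b : Fin n} (ha : P.Mv a) (hb : P.Mv b) (h : P.Far a b) (x : Fin n) :
    P.pairPerm a b x = x ∨ P.pairPerm a b x = P.T x := by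
  have h3 := P.far_T_right h
  have h2 := P.far_T_left h
  have h4 := P.far_T_left h3
  rw [pairPerm, Perm.mul_apply]
  by_cases e1 : x = b
  · subst e1; right; rw [swap_apply_left, swap_apply_of_ne_of_ne h3.1 h3.2]
  by_cases e2 : x = P.T b
  · subst e2; right; rw [swap_apply_right, P.T_sq, swap_apply_of_ne_of_ne h.1 h.2]
  rw [swap_apply_of_ne_of_ne e1 e2]
  by_cases e3 : x = a
  · subst e3; right; rw [swap_apply_left]
  by_cases e4 : x = P.T a
  · subst e4; right; rw [swap_apply_right, P.T_sq]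
  left; exact swap_apply_of_ne_of_ne e3 e4

theorem exists_commutator_eq :
    ∃ a ∈ P.blockKer, ∃ b ∈ P.blockKer, a * b * a⁻¹ * b⁻¹ = z := by
  obtain ⟨a, ha⟩ : ∃ a, P.Mv a := by
    by_contra h
    push Not at h
    exact P.T_ne_one (Equiv.ext fun a => not_not.mp (h a))
  obtain ⟨b, hb, hab, -⟩ := P.exists_third a a
  obtain ⟨c, hc, hac, hbc⟩ := P.exists_third a b
  obtain ⟨g, hg, hig⟩ := P.exists_pair ha hb hab
  obtain ⟨h, hh, hih⟩ := P.exists_pair hb hc hbc
  exact ⟨g, ⟨hg, fun x => hig ▸ P.pairPerm_apply_or ha hb hab x⟩,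
    h, ⟨hh, fun x => hih ▸ P.pairPerm_apply_or hb hc hbc x⟩,
    P.commutator_pairs ha hb hc hab hbc hac hg hh hig hih⟩

theorem img_commute_at {g h : G} (hg : P.InD g) (hh : P.InD h) {a : Fin n}
    (hg' : P.S.img g a = a ∨ P.S.img g a = P.T a) (hh' : P.S.img h a = a ∨ P.S.img h a = P.T a) :
    P.S.img (g * h) a = P.S.img (h * g) a := by
  rw [P.S.img_mul hg.1 hh.1, P.S.img_mul hh.1 hg.1, Perm.mul_apply, Perm.mul_apply]
  rcases hg' with e | e <;> rcases hh' with e' | e' <;>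
    simp only [e, e', P.T_comm hg, P.T_comm hh, P.T_sq]

theorem commutator_mem_blockKer {g h : G} (hg : g ∈ P.blockKer) (hh : h ∈ P.blockKer) :
    g * h * g⁻¹ * h⁻¹ = 1 ∨ g * h * g⁻¹ * h⁻¹ = z := by
  have e : P.S.img (g * h) = P.S.img (h * g) :=
    Equiv.ext fun a => P.img_commute_at hg.1 hh.1 (hg.2 a) (hh.2 a)
  have hz : Commute (g * h) z := hg.1.1.mul_left hh.1.1
  have hz' : Commute (h * g) z := hh.1.1.mul_left hg.1.1
  rcases P.S.eq_or hz hz' e with h1 | h1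
  · left; rw [h1]; group
  · right
    rw [h1, show h * g * z * g⁻¹ * h⁻¹ = (h * g) * z * (h * g)⁻¹ by group, hz'.eq,
      mul_inv_cancel_right]

theorem exists_pair_mem {N : Subgroup G} (hN : P.Stable N) {b : G} (hb : b ∈ N) {a : Fin n}
    (ha : P.Mv a) (hac' : P.Far a (P.S.img b a))
    (hfree : ∀ p q r s, ∃ g, P.Mv g ∧ P.Far p g ∧ P.Far q g ∧ P.Far r g ∧ P.Far s g) :
    ∃ p q l, P.Mv p ∧ P.Mv q ∧ P.Far p q ∧ l ∈ N ∧ P.S.img l = P.pairPerm p q := by
  have hbD := hN.le b hb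
  obtain ⟨c, hc⟩ : ∃ c, P.S.img b a = c := ⟨_, rfl⟩
  rw [hc] at hac'
  have hcm : P.Mv c := hc ▸ P.mv_img hbD ha
  obtain ⟨e, he⟩ : ∃ e, P.S.img b c = e := ⟨_, rfl⟩
  have hem : P.Mv e := he ▸ P.mv_img hbD hcm
  have hce : P.Far c e := by rw [← hc, ← he, ← hc]; exact P.far_img hbD (hc.symm ▸ hac')
  by_cases hea : P.Far e a
  · obtain ⟨L, hL, hiL⟩ := P.exists_pair ha hcm hac'
    refine ⟨e, a, _, hem, ha, hea, P.mem_commutator hN hb hL, ?_⟩
    rw [P.img_commutator hbD hL hiL, hc, he, P.pairPerm_comm hcm hem hce, P.pairPerm_mul]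
  obtain ⟨d, hd, had, hcd⟩ := P.exists_third a c
  obtain ⟨f, hf⟩ : ∃ f, P.S.img b d = f := ⟨_, rfl⟩
  have hfm : P.Mv f := hf ▸ P.mv_img hbD hd
  have hcf : P.Far c f := by rw [← hc, ← hf]; exact P.far_img hbD had
  have hef : P.Far e f := by rw [← he, ← hf]; exact P.far_img hbD hcd
  have haf : P.Far a f := by
    unfold Far at hea
    by_cases h1 : a = e
    · subst h1; exact hef
    · have h2 : a = P.T e := not_not.mp fun h => hea ⟨h1, h⟩
      rw [h2]; exact P.far_T_left hef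
  obtain ⟨L, hL, hiL⟩ := P.exists_pair ha hd had
  have hx := P.mem_commutator hN hb hL
  have hix := P.img_commutator hbD hL hiL
  rw [hc, hf] at hix
  by_cases hdf : P.Far d f
  · obtain ⟨g, hg, hag, hcg, hdg, hfg⟩ := hfree a c d f
    obtain ⟨r, hr, hra, hrg, hrc, hro⟩ :=
      P.exists_rho ha hg hcm hag hac' (P.far_symm hcg)
    have hrd : P.S.img r d = d := hro d had (P.far_symm hdg) hcd
    have hrf : P.S.img r f = f := hro f haf (P.far_symm hfg) hcf
    have hx' := hN.conj r _ hr hx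
    refine ⟨c, g, _, hcm, hg, hcg, N.mul_mem hx (N.inv_mem hx'), ?_⟩
    rw [P.S.img_mul (hN.le _ hx).1 (hN.le _ hx').1.inv_left, P.S.img_inv (hN.le _ hx').1,
      P.S.img_conj hr.1 (hN.le _ hx).1, hix,
      show P.S.img r * (P.pairPerm c f * P.pairPerm d a) * (P.S.img r)⁻¹ =
        (P.S.img r * P.pairPerm c f * (P.S.img r)⁻¹) * (P.S.img r * P.pairPerm d a * (P.S.img r)⁻¹)
        by group,
      P.conj_pairPerm (P.T_comm hr), P.conj_pairPerm (P.T_comm hr), hra, hrc, hrd, hrf,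
      mul_inv_rev, P.pairPerm_inv, P.pairPerm_inv]
    have e1 : P.pairPerm d a * P.pairPerm g d = P.pairPerm a g := by
      rw [P.pairPerm_comm hd ha (P.far_symm had), P.pairPerm_comm hg hd (P.far_symm hdg),
        P.pairPerm_mul]
    have e2 : P.pairPerm a g * P.pairPerm f a = P.pairPerm g f := by
      rw [P.pairPerm_comm ha hg hag, P.pairPerm_comm hfm ha (P.far_symm haf), P.pairPerm_mul]
    rw [mul_assoc, ← mul_assoc (P.pairPerm d a), e1, e2, P.pairPerm_comm hg hfm (P.far_symm hfg),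
      P.pairPerm_mul]
  · refine ⟨c, a, _, hcm, ha, P.far_symm hac', hx, ?_⟩
    rw [hix]
    have e : P.pairPerm c f = P.pairPerm c d := by
      unfold pairPerm Far at *
      by_cases h1 : f = d
      · rw [h1]
      · have h2 : f = P.T d := not_not.mp fun h => hdf ⟨h1, h⟩
        rw [h2, P.swap_T]
    rw [e, P.pairPerm_mul]

theorem false_of_commutators {N : Subgroup G} (hN : P.Stable N)
    (hall : ∀ a ∈ N, ∀ b ∈ N, a * b * a⁻¹ * b⁻¹ = 1 ∨ a * b * a⁻¹ * b⁻¹ = t)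
    (hex : ∃ a ∈ N, ∃ b ∈ N, a * b * a⁻¹ * b⁻¹ = t)
    (hfree : ∀ p q r s, ∃ g, P.Mv g ∧ P.Far p g ∧ P.Far q g ∧ P.Far r g ∧ P.Far s g) : False := by
  have hmove : ∃ b ∈ N, ∃ a, P.Mv a ∧ P.Far a (P.S.img b a) := by
    by_contra hcon
    push Not at hcon
    obtain ⟨g, hg, h, hh, e⟩ := hex
    have hsplit : ∀ g ∈ N, ∀ a, P.Mv a → P.S.img g a = a ∨ P.S.img g a = P.T a := by
      intro g hg a ha
      by_contra hne
      push Not at hne
      exact hcon g hg a ha ⟨hne.1, hne.2⟩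
    have hgD := hN.le g hg; have hhD := hN.le h hh
    refine P.not_t_mem_fixKer ⟨P.inD_t, fun a ha => ?_⟩
    have hc := P.img_commute_at hgD hhD (hsplit g hg a ha) (hsplit h hh a ha)
    have e' : g * h = t * (h * g) := by rw [← e]; group
    rw [e', P.S.img_mul P.comm (hhD.1.mul_left hgD.1), Perm.mul_apply] at hc
    have hh' : P.S.img (h * g) a = a ∨ P.S.img (h * g) a = P.T a := hsplit _ (N.mul_mem hh hg) a ha
    exfalso
    rcases hh' with h1 | h1 <;> rw [h1] at hc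
    · exact ha hc
    · exact P.mv_T ha hc
  obtain ⟨b, hb, a, ha, hfar⟩ := hmove
  obtain ⟨p, q, l, hp, hq, hpq, hl, hil⟩ := P.exists_pair_mem hN hb ha hfar hfree
  obtain ⟨w, hw, hpw, hqw⟩ := P.exists_third p q
  obtain ⟨r, hr, hrp, hrq, -, -⟩ := P.exists_rho hp hq hw hpq hpw hqw
  have hl' := hN.conj r l hr hl
  have hil' : P.S.img (r * l * r⁻¹) = P.pairPerm q w := by
    rw [P.S.img_conj hr.1 (hN.le l hl).1, hil, P.conj_pairPerm (P.T_comm hr), hrp, hrq]
  have e := P.commutator_pairs hp hq hw hpq hqw hpw (hN.le l hl) (hN.le _ hl') hil hil'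
  rcases hall l hl _ hl' with h | h <;> rw [e] at h
  · exact P.S.ne h
  · exact P.tz h.symm

/-- The two sides cannot coexist in degree at least 12. -/
theorem false_of_pair (P : Pair G n z t) (Q : Pair G n t z) (hn : 12 ≤ n) : False := by
  classical
  have hD : ∀ g, Q.InD g ↔ P.InD g := fun g => ⟨fun h => ⟨h.2, h.1⟩, fun h => ⟨h.2, h.1⟩⟩
  have hst : ∀ N : Subgroup G, Q.Stable N → P.Stable N := fun N h =>
    ⟨fun g hg => (hD g).mp (h.le g hg), fun g x hg hx => h.conj g x ((hD g).mpr hg) hx⟩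
  have hst' : ∀ N : Subgroup G, P.Stable N → Q.Stable N := fun N h =>
    ⟨fun g hg => (hD g).mpr (h.le g hg), fun g x hg hx => h.conj g x ((hD g).mp hg) hx⟩
  let F : Finset (Fin n) := Finset.univ.filter fun a => P.T a = a
  by_cases hF : 4 ≤ F.card
  · obtain ⟨F', hF', h4⟩ := Finset.exists_subset_card_eq hF
    let e : Fin 4 ≃ F' := (finCongr h4.symm).trans F'.equivFin.symm
    have hfix : ∀ i, P.T (e i) = e i := fun i => (Finset.mem_filter.mp (hF' (e i).2)).2
    have hne : ∀ i j, i ≠ j → (e i : Fin n) ≠ e j := fun i j h h' =>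
      h (e.injective (Subtype.ext h'))
    obtain ⟨x, hx, hx3, hxK, hzx⟩ := P.exists_witness (hfix 0) (hfix 1) (hfix 2) (hfix 3)
      (hne 0 1 (by decide)) (hne 0 2 (by decide)) (hne 0 3 (by decide)) (hne 1 2 (by decide))
      (hne 1 3 (by decide)) (hne 2 3 (by decide))
    by_cases hmv : ∃ a, Q.Mv a ∧ Q.S.img x a ≠ a
    · obtain ⟨a, ha, hax⟩ := hmv
      have := Q.z_mem_of_moves (hst' _ (P.ncl_stable hx)) (P.mem_ncl x) hx3 ha hax
      exact P.not_t_mem_fixKer (P.ncl_le P.fixKer_stable hxK this)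
    · push Not at hmv
      exact Q.not_t_mem_fixKer
        (P.ncl_le (hst _ Q.fixKer_stable) (show x ∈ Q.fixKer from ⟨(hD x).mpr hx, hmv⟩) hzx)
  · refine P.false_of_commutators (hst _ Q.blockKer_stable)
      (fun a ha b hb => Q.commutator_mem_blockKer ha hb) Q.exists_commutator_eq ?_
    intro p q r s
    let B : Finset (Fin n) := ({p, P.T p, q, P.T q, r, P.T r, s, P.T s} : Finset (Fin n))
    have hB : B.card ≤ 8 := by
      repeat (first | refine le_trans (Finset.card_insert_le _ _) (Nat.succ_le_succ ?_) | simp [B])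
    obtain ⟨g, hg⟩ : ∃ g, g ∉ F ∪ B := by
      by_contra h
      push Not at h
      have h1 := Finset.card_le_card (fun x (_ : x ∈ (Finset.univ : Finset (Fin n))) => h x)
      have h2 := Finset.card_union_le F B
      rw [Finset.card_univ, Fintype.card_fin] at h1
      omega
    simp only [F, B, Finset.mem_union, Finset.mem_filter, Finset.mem_univ, true_and,
      Finset.mem_insert, Finset.mem_singleton, not_or] at hg
    obtain ⟨h0, h1, h2, h3, h4, h5, h6, h7, h8⟩ := hg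
    exact ⟨g, h0, ⟨h1, h2⟩, ⟨h3, h4⟩, ⟨h5, h6⟩, ⟨h7, h8⟩⟩

end Pair

end CfsgLib.AltDoubleCent
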