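import Cfsg.Agent.Lib.AltDoubleCent.Setting
import Cfsg.Agent.Lib.AltDoubleCent.LargeFinal

/-!
Degree at least 12 is impossible.
-/

set_option autoImplicit false

namespace CfsgLib.AltDoubleCent

open Equiv CfsgLib.Classes.AltCoverComm

universe u

variable {G : Type u} [Group G] {n : ℕ} {z : G}

/-- The permutation data of a setting. -/
noncomputable def Setting.toSide [Finite G] (S : Setting G n z) : Side G n z where
  img := S.img
  sq := S.z_sq
  ne := S.z_ne_one
  img_u := S.img_z
  img_mul := fun ha hb => S.img_mul ha hb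
  lift := fun _ hσ => S.exists_img hσ
  ker := fun ha h => (S.img_eq_one ha).mp h
  even := fun {a} _ => S.sign_img a
  dbl := fun hg a b c d hab hcd hac had hbc hbd h =>
    S.sq_eq_z hg (p := a) (q := b) (r := c) (t := d)
      { pq := hab, pr := hac, pt := had, qr := hbc, qt := hbd, rt := hcd } h

/-- A centraliser of degree at least 12 does not occur. -/
theorem Setting.large_false [Finite G] [IsSimpleGroup G] (S : Setting G n z) (hn : 12 ≤ n) :
    False := by
  obtain ⟨g, hc, hne⟩ := S.exists_conj_ne (by omega)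
  have hsq : (g * z * g⁻¹) * (g * z * g⁻¹) = 1 := by
    rw [show (g * z * g⁻¹) * (g * z * g⁻¹) = g * (z * z) * g⁻¹ by group, S.z_sq]; group
  have h1 : g * z * g⁻¹ ≠ 1 := fun h => S.z_ne_one (by
    rw [show z = g⁻¹ * (g * z * g⁻¹) * g by group, h]; group)
  exact Pair.false_of_pair ⟨S.toSide, hc, hsq, h1, hne⟩
    ⟨(S.conj g rfl).toSide, hc.symm, S.z_sq, S.z_ne_one, hne.symm⟩ hn

end CfsgLib.AltDoubleCent
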