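import Mathlib

/-!
Two commuting involutions, each of whose centralisers is a double cover of an alternating group:
the permutation-side tools for degree at least 12.
-/

set_option autoImplicit false

namespace CfsgLib.AltDoubleCent

open Equiv

variable {G : Type*} [Group G] {n : ℕ}

/-- The data used of one side: `img` reads an element commuting with `u` as a permutation. -/
structure Side (G : Type*) [Group G] (n : ℕ) (u : G) where
  img : G → Perm (Fin n)
  sq : u * u = 1
  ne : u ≠ 1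
  img_u : img u = 1
  img_mul : ∀ {a b : G}, Commute a u → Commute b u → img (a * b) = img a * img b
  lift : ∀ σ : Perm (Fin n), Perm.sign σ = 1 → ∃ a, Commute a u ∧ img a = σ
  ker : ∀ {a : G}, Commute a u → img a = 1 → a = 1 ∨ a = u
  even : ∀ {a : G}, Commute a u → Perm.sign (img a) = 1
  dbl : ∀ {g : G}, Commute g u → ∀ a b c d : Fin n, a ≠ b → c ≠ d → a ≠ c → a ≠ d → b ≠ c →
    b ≠ d → img g = swap a b * swap c d → g * g = u

namespace Side

variable {u : G} (S : Side G n u)

theorem img_one : S.img 1 = 1 := by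
  have h := S.img_mul (Commute.one_left u) (Commute.one_left u)
  rw [one_mul] at h
  exact mul_right_cancel (a := S.img 1) (b := S.img 1) (by rw [one_mul]; exact h.symm)

theorem img_inv {a : G} (ha : Commute a u) : S.img a⁻¹ = (S.img a)⁻¹ := by
  have h := S.img_mul ha.inv_left ha
  rw [inv_mul_cancel, S.img_one] at h
  exact eq_inv_of_mul_eq_one_left h.symm

theorem img_conj {g a : G} (hg : Commute g u) (ha : Commute a u) :
    S.img (g * a * g⁻¹) = S.img g * S.img a * (S.img g)⁻¹ := by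
  rw [S.img_mul (hg.mul_left ha) hg.inv_left, S.img_mul hg ha, S.img_inv hg]

theorem eq_or {a b : G} (ha : Commute a u) (hb : Commute b u) (h : S.img a = S.img b) :
    a = b ∨ a = b * u := by
  have h1 : S.img (b⁻¹ * a) = 1 := by
    rw [S.img_mul hb.inv_left ha, S.img_inv hb, h, inv_mul_cancel]
  rcases S.ker (hb.inv_left.mul_left ha) h1 with h2 | h2
  · exact Or.inl ((inv_mul_eq_one.mp h2).symm)
  · exact Or.inr (inv_mul_eq_iff_eq_mul.mp h2)

theorem lift_cube {σ : Perm (Fin n)} (hσ : Perm.sign σ = 1) (h3 : σ ^ 3 = 1) :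
    ∃ a, Commute a u ∧ S.img a = σ ∧ a ^ 3 = 1 := by
  obtain ⟨a, ha, hia⟩ := S.lift σ hσ
  have hpow : S.img (a ^ 3) = 1 := by
    rw [pow_succ, pow_two, S.img_mul (ha.mul_left ha) ha, S.img_mul ha ha, hia, ← pow_two,
      ← pow_succ, h3]
  rcases S.ker (ha.pow_left 3) hpow with h | h
  · exact ⟨a, ha, hia, h⟩
  · refine ⟨a * u, ha.mul_left (Commute.refl u), ?_, ?_⟩
    · rw [S.img_mul ha (Commute.refl u), S.img_u, mul_one, hia]
    · rw [ha.mul_pow, h, pow_succ, pow_two, S.sq, one_mul, S.sq]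

end Side

/-- A common setting: `z` and `t` commute, `S` reads the centraliser of `z`. -/
structure Pair (G : Type*) [Group G] (n : ℕ) (z t : G) where
  S : Side G n z
  comm : Commute t z
  tsq : t * t = 1
  tne : t ≠ 1
  tz : t ≠ z

namespace Pair

variable {z t : G} (P : Pair G n z t)

/-- The permutation induced by `t`. -/
def T : Perm (Fin n) := P.S.img t

theorem T_sq (a : Fin n) : P.T (P.T a) = a := by
  have h := P.S.img_mul P.comm P.comm
  rw [P.tsq, P.S.img_one] at h
  exact (congrArg (fun σ : Perm (Fin n) => σ a) h).symm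

theorem T_ne_one : P.T ≠ 1 := fun h => by
  rcases P.S.ker P.comm h with h1 | h1
  · exact P.tne h1
  · exact P.tz h1

/-- An element of `C(z) ∩ C(t)`. -/
def InD (_P : Pair G n z t) (g : G) : Prop := Commute g z ∧ Commute g t

theorem T_comm {g : G} (hg : P.InD g) (a : Fin n) : P.S.img g (P.T a) = P.T (P.S.img g a) := by
  have h1 := P.S.img_mul hg.1 P.comm
  have h2 := P.S.img_mul P.comm hg.1
  rw [hg.2.eq, h2] at h1
  exact (congrArg (fun σ : Perm (Fin n) => σ a) h1).symm

/-- Lift with `g t g⁻¹ ∈ {t, t z}`. -/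
theorem conj_or {g : G} (hg : Commute g z) (hσ : ∀ a, P.S.img g (P.T a) = P.T (P.S.img g a)) :
    g * t * g⁻¹ = t ∨ g * t * g⁻¹ = t * z := by
  apply P.S.eq_or ((hg.mul_left P.comm).mul_left hg.inv_left) P.comm
  rw [P.S.img_conj hg P.comm, mul_inv_eq_iff_eq_mul]
  exact Equiv.ext hσ

theorem inD_of_cube {g : G} (hg : Commute g z) (h3 : g ^ 3 = 1)
    (hσ : ∀ a, P.S.img g (P.T a) = P.T (P.S.img g a)) : P.InD g := by
  refine ⟨hg, ?_⟩
  rcases P.conj_or hg hσ with h | h
  · exact (mul_inv_eq_iff_eq_mul.mp h)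
  · exfalso
    have hz : g * z * g⁻¹ = z := by rw [hg.eq, mul_inv_cancel_right]
    have e2 : g ^ 2 * t * (g ^ 2)⁻¹ = t := by
      have : g ^ 2 * t * (g ^ 2)⁻¹ = g * (g * t * g⁻¹) * g⁻¹ := by rw [pow_two]; group
      rw [this, h, show g * (t * z) * g⁻¹ = (g * t * g⁻¹) * (g * z * g⁻¹) by group, h, hz,
        mul_assoc, P.S.sq, mul_one]
    have e3 : g ^ 3 * t * (g ^ 3)⁻¹ = t * z := by
      have : g ^ 3 * t * (g ^ 3)⁻¹ = g * (g ^ 2 * t * (g ^ 2)⁻¹) * g⁻¹ := by rw [pow_succ' g 2, mul_inv_rev]; simp only [mul_assoc]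
      rw [this, e2, h]
    rw [h3, one_mul, inv_one, mul_one] at e3
    exact P.S.ne (mul_eq_left.mp e3.symm)

end Pair

/-- The three-cycle `a ↦ b ↦ c ↦ a`. -/
def cyc (a b c : Fin n) : Perm (Fin n) := swap a b * swap b c

section cyc

variable {a b c : Fin n}

theorem cyc_fst (hab : a ≠ b) (hac : a ≠ c) : cyc a b c a = b := by
  rw [cyc, Perm.mul_apply, swap_apply_of_ne_of_ne hab hac, swap_apply_left]

theorem cyc_snd (hac : a ≠ c) (hbc : b ≠ c) : cyc a b c b = c := by
  rw [cyc, Perm.mul_apply, swap_apply_left, swap_apply_of_ne_of_ne hac.symm hbc.symm]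

theorem cyc_thd : cyc a b c c = a := by
  rw [cyc, Perm.mul_apply, swap_apply_right, swap_apply_right]

theorem cyc_other {x : Fin n} (h1 : x ≠ a) (h2 : x ≠ b) (h3 : x ≠ c) : cyc a b c x = x := by
  rw [cyc, Perm.mul_apply, swap_apply_of_ne_of_ne h2 h3, swap_apply_of_ne_of_ne h1 h2]

theorem cyc_cube (hab : a ≠ b) (hac : a ≠ c) (hbc : b ≠ c) : cyc a b c ^ 3 = 1 := by
  ext x
  simp only [pow_succ, pow_zero, one_mul, Perm.mul_apply, Perm.one_apply]
  by_cases h1 : x = a
  · subst h1; rw [cyc_fst hab hac, cyc_snd hac hbc, cyc_thd]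
  by_cases h2 : x = b
  · subst h2; rw [cyc_snd hac hbc, cyc_thd, cyc_fst hab hac]
  by_cases h3 : x = c
  · subst h3; rw [cyc_thd, cyc_fst hab hac, cyc_snd hac hbc]
  rw [cyc_other h1 h2 h3, cyc_other h1 h2 h3, cyc_other h1 h2 h3]

theorem sign_cyc (hab : a ≠ b) (hbc : b ≠ c) : Perm.sign (cyc a b c) = 1 := by
  rw [cyc, map_mul, Perm.sign_swap hab, Perm.sign_swap hbc]; simp

theorem conj_cyc (σ : Perm (Fin n)) : σ * cyc a b c * σ⁻¹ = cyc (σ a) (σ b) (σ c) := by
  rw [cyc, cyc, swap_apply_apply, swap_apply_apply]; group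

theorem cyc_commute {a' b' c' : Fin n} (h : ∀ x ∈ [a, b, c], x ∉ [a', b', c']) :
    cyc a b c * cyc a' b' c' = cyc a' b' c' * cyc a b c := by
  simp only [List.mem_cons, List.not_mem_nil, or_false, forall_eq_or_imp, forall_eq, not_or] at h
  obtain ⟨⟨h1, h2, h3⟩, ⟨h4, h5, h6⟩, ⟨h7, h8, h9⟩⟩ := h
  have d1 : Commute (swap a b) (swap a' b') := by
    apply Perm.Disjoint.commute
    intro x; by_cases x = a <;> by_cases x = b <;> by_cases x = a' <;> by_cases x = b' <;>
      simp_all [swap_apply_of_ne_of_ne]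
  have d2 : Commute (swap a b) (swap b' c') := by
    apply Perm.Disjoint.commute
    intro x; by_cases x = a <;> by_cases x = b <;> by_cases x = b' <;> by_cases x = c' <;>
      simp_all [swap_apply_of_ne_of_ne]
  have d3 : Commute (swap b c) (swap a' b') := by
    apply Perm.Disjoint.commute
    intro x; by_cases x = c <;> by_cases x = b <;> by_cases x = a' <;> by_cases x = b' <;>
      simp_all [swap_apply_of_ne_of_ne]
  have d4 : Commute (swap b c) (swap b' c') := by
    apply Perm.Disjoint.commute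
    intro x; by_cases x = c <;> by_cases x = b <;> by_cases x = b' <;> by_cases x = c' <;>
      simp_all [swap_apply_of_ne_of_ne]
  exact ((d1.mul_right d2).mul_left (d3.mul_right d4)).eq

end cyc

end CfsgLib.AltDoubleCent
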