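import Cfsg.Agent.Lib.AltDoubleCent.LargeBase

/-!
An element intrinsic to the centraliser of two involutions, each with centraliser a double
cover of an alternating group of degree at least 12.
-/

set_option autoImplicit false

namespace CfsgLib.AltDoubleCent

open Equiv

variable {G : Type*} [Group G] {n : ℕ} {z t : G}

namespace Pair

variable (P : Pair G n z t)

/-- A moved point. -/
def Mv (a : Fin n) : Prop := P.T a ≠ a

/-- `a` and `b` lie in different transpositions of `T`. -/
def Far (a b : Fin n) : Prop := b ≠ a ∧ b ≠ P.T a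

theorem mv_T {a : Fin n} (h : P.Mv a) : P.Mv (P.T a) := fun e => h (by rw [P.T_sq] at e; exact e.symm)

theorem far_symm {a b : Fin n} (h : P.Far a b) : P.Far b a :=
  ⟨h.1.symm, fun e => h.2 (by rw [e, P.T_sq])⟩

theorem far_T_right {a b : Fin n} (h : P.Far a b) : P.Far a (P.T b) :=
  ⟨fun e => h.2 (by rw [← e, P.T_sq]), fun e => h.1 (P.T.injective e)⟩

theorem far_T_left {a b : Fin n} (h : P.Far a b) : P.Far (P.T a) b :=
  P.far_symm (P.far_T_right (P.far_symm h))

/-- The product of the transpositions of `T` through `a` and `b`. -/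
def pairPerm (a b : Fin n) : Perm (Fin n) := swap a (P.T a) * swap b (P.T b)

/-- The product of the two three-cycles on the blocks of `a`, `b`, `c`. -/
def rho (a b c : Fin n) : Perm (Fin n) := cyc a b c * cyc (P.T a) (P.T b) (P.T c)

theorem swap_commute {a b : Fin n} (ha : P.Mv a) (hb : P.Mv b) (h : P.Far a b) :
    Commute (swap a (P.T a)) (swap b (P.T b)) := by
  have h2 := P.far_T_left h; have h3 := P.far_T_right h; have h4 := P.far_T_left h3
  obtain ⟨x1, x2⟩ := h; obtain ⟨y1, y2⟩ := h2; obtain ⟨u1, u2⟩ := h3; obtain ⟨v1, v2⟩ := h4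
  apply Perm.Disjoint.commute
  intro x
  by_cases e1 : x = a
  · subst e1; right; exact swap_apply_of_ne_of_ne x1.symm u1.symm
  by_cases e2 : x = P.T a
  · subst e2; right; exact swap_apply_of_ne_of_ne y1.symm v1.symm
  left; exact swap_apply_of_ne_of_ne e1 e2

theorem swap_T (a : Fin n) : swap (P.T a) (P.T (P.T a)) = swap a (P.T a) := by
  rw [P.T_sq, swap_comm]

theorem conj_swap {σ : Perm (Fin n)} (hσ : ∀ x, σ (P.T x) = P.T (σ x)) (a : Fin n) :
    σ * swap a (P.T a) * σ⁻¹ = swap (σ a) (P.T (σ a)) := by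
  rw [← hσ, swap_apply_apply]

theorem conj_pairPerm {σ : Perm (Fin n)} (hσ : ∀ x, σ (P.T x) = P.T (σ x)) (a b : Fin n) :
    σ * P.pairPerm a b * σ⁻¹ = P.pairPerm (σ a) (σ b) := by
  unfold pairPerm
  rw [← P.conj_swap hσ a, ← P.conj_swap hσ b]; group

/-- `(a c)(c e) = (a e)` on transpositions. -/
theorem pairPerm_mul (a b c : Fin n) : P.pairPerm a b * P.pairPerm b c = P.pairPerm a c := by
  unfold pairPerm
  rw [mul_assoc, ← mul_assoc (swap b (P.T b)), swap_mul_self, one_mul]

theorem pairPerm_comm {a b : Fin n} (ha : P.Mv a) (hb : P.Mv b) (h : P.Far a b) :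
    P.pairPerm a b = P.pairPerm b a := (P.swap_commute ha hb h).eq

theorem sign_pairPerm {a b : Fin n} (ha : P.Mv a) (hb : P.Mv b) :
    Perm.sign (P.pairPerm a b) = 1 := by
  rw [pairPerm, map_mul, Perm.sign_swap (Ne.symm ha), Perm.sign_swap (Ne.symm hb)]; simp

theorem sq_of_img_pair {g : G} (hg : Commute g z) {a b : Fin n} (ha : P.Mv a) (hb : P.Mv b)
    (h : P.Far a b) (himg : P.S.img g = P.pairPerm a b) : g * g = z := by
  have h3 := P.far_T_right h
  exact P.S.dbl hg a (P.T a) b (P.T b) (Ne.symm ha) (Ne.symm hb) h.1.symm h3.1.symm h.2.symm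
    (fun e => h.1 (P.T.injective e).symm) himg

theorem exists_rho {a b c : Fin n} (ha : P.Mv a) (hb : P.Mv b) (hc : P.Mv c)
    (hab : P.Far a b) (hac : P.Far a c) (hbc : P.Far b c) :
    ∃ r, P.InD r ∧ P.S.img r a = b ∧ P.S.img r b = c ∧ P.S.img r c = a ∧
      ∀ x, P.Far a x → P.Far b x → P.Far c x → P.S.img r x = x := by
  have Tne : ∀ {x y : Fin n}, x ≠ y → P.T x ≠ P.T y := fun h e => h (P.T.injective e)
  have hdisj : cyc a b c * cyc (P.T a) (P.T b) (P.T c) =
      cyc (P.T a) (P.T b) (P.T c) * cyc a b c := by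
    apply cyc_commute
    simp only [List.mem_cons, List.not_mem_nil, or_false, forall_eq_or_imp, forall_eq, not_or]
    exact ⟨⟨Ne.symm ha, (P.far_symm hab).2, (P.far_symm hac).2⟩,
      ⟨hab.2, Ne.symm hb, (P.far_symm hbc).2⟩, hac.2, hbc.2, Ne.symm hc⟩
  have hsign : Perm.sign (P.rho a b c) = 1 := by
    rw [rho, map_mul, sign_cyc hab.1.symm hbc.1.symm,
      sign_cyc (Tne hab.1.symm) (Tne hbc.1.symm), one_mul]
  have hcube : P.rho a b c ^ 3 = 1 := by
    rw [rho, Commute.mul_pow hdisj, cyc_cube hab.1.symm hac.1.symm hbc.1.symm,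
      cyc_cube (Tne hab.1.symm) (Tne hac.1.symm) (Tne hbc.1.symm), one_mul]
  obtain ⟨r, hr, hir, hr3⟩ := P.S.lift_cube hsign hcube
  have hcomm : ∀ x, P.rho a b c (P.T x) = P.T (P.rho a b c x) := by
    have hTT : P.T * P.rho a b c * P.T⁻¹ = P.rho a b c := by
      rw [rho, show P.T * (cyc a b c * cyc (P.T a) (P.T b) (P.T c)) * P.T⁻¹ =
        (P.T * cyc a b c * P.T⁻¹) * (P.T * cyc (P.T a) (P.T b) (P.T c) * P.T⁻¹) by group,
        conj_cyc, conj_cyc, P.T_sq, P.T_sq, P.T_sq, ← hdisj]
    intro x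
    have := congrArg (fun σ : Perm (Fin n) => σ (P.T x)) hTT
    simp only [Perm.mul_apply, Perm.coe_inv, Equiv.symm_apply_apply] at this
    exact this.symm
  have hD : P.InD r := P.inD_of_cube hr hr3 (by rw [hir]; exact hcomm)
  refine ⟨r, hD, ?_, ?_, ?_, ?_⟩
  · rw [hir, rho, Perm.mul_apply, cyc_other (Ne.symm ha) (P.far_symm hab).2 (P.far_symm hac).2,
      cyc_fst hab.1.symm hac.1.symm]
  · rw [hir, rho, Perm.mul_apply, cyc_other hab.2 (Ne.symm hb) (P.far_symm hbc).2,
      cyc_snd hac.1.symm hbc.1.symm]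
  · rw [hir, rho, Perm.mul_apply, cyc_other hac.2 hbc.2 (Ne.symm hc), cyc_thd]
  · intro x hax hbx hcx
    rw [hir, rho, Perm.mul_apply, cyc_other hax.2 hbx.2 hcx.2, cyc_other hax.1 hbx.1 hcx.1]

theorem exists_third (a b : Fin n) : ∃ c, P.Mv c ∧ P.Far a c ∧ P.Far b c := by
  by_contra hcon
  push Not at hcon
  have hT : ∀ c, c ≠ a → c ≠ P.T a → c ≠ b → c ≠ P.T b → P.T c = c := fun c h1 h2 h3 h4 =>
    not_not.mp fun hc => hcon c hc ⟨h1, h2⟩ ⟨h3, h4⟩
  have single : ∀ a : Fin n, (∀ c, c ≠ a → c ≠ P.T a → P.T c = c) → False := by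
    intro a h
    have hTs : P.T = swap a (P.T a) := by
      ext c
      by_cases h1 : c = a
      · rw [h1, swap_apply_left]
      by_cases h2 : c = P.T a
      · rw [h2, swap_apply_right, P.T_sq]
      rw [h c h1 h2, swap_apply_of_ne_of_ne h1 h2]
    by_cases ha : P.T a = a
    · exact P.T_ne_one (by rw [hTs, ha, swap_self]; rfl)
    · have := P.S.even P.comm
      rw [show P.S.img t = swap a (P.T a) from hTs, Perm.sign_swap (Ne.symm ha)] at this
      exact absurd this (by decide)
  by_cases ha : P.Mv a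
  · by_cases hb : P.Mv b
    · by_cases hfar : P.Far a b
      · have hTs : P.T = P.pairPerm a b := by
          ext c
          have h2 := P.far_T_left hfar; have h3 := P.far_T_right hfar
          have h4 := P.far_T_left h3
          rw [pairPerm, Perm.mul_apply]
          by_cases h1 : c = a
          · subst h1; rw [swap_apply_of_ne_of_ne hfar.1.symm h3.1.symm, swap_apply_left]
          by_cases h1' : c = P.T a
          · subst h1'; rw [swap_apply_of_ne_of_ne h2.1.symm h4.1.symm, swap_apply_right, P.T_sq]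
          by_cases h5 : c = b
          · subst h5; rw [swap_apply_left, swap_apply_of_ne_of_ne h3.1 h3.2]
          by_cases h5' : c = P.T b
          · subst h5'; rw [swap_apply_right, P.T_sq, swap_apply_of_ne_of_ne hfar.1 hfar.2]
          rw [swap_apply_of_ne_of_ne h5 h5', swap_apply_of_ne_of_ne h1 h1', hT c h1 h1' h5 h5']
        have := P.sq_of_img_pair P.comm ha hb hfar hTs
        exact P.S.ne (this.symm.trans P.tsq)
      · unfold Far at hfar
        refine single a fun c h1 h2 => hT c h1 h2 (fun e => ?_) (fun e => ?_)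
        · subst e; exact hfar ⟨h1, h2⟩
        · subst e
          exact hfar ⟨fun e => h2 (by rw [e]), fun e => h1 (by rw [e, P.T_sq])⟩
    · have hb' : P.T b = b := not_not.mp hb
      refine single a fun c h1 h2 => ?_
      by_cases h3 : c = b
      · rw [h3, hb']
      · exact hT c h1 h2 h3 (by rw [hb']; exact h3)
  · have ha' : P.T a = a := not_not.mp ha
    refine single b fun c h3 h4 => ?_
    by_cases h1 : c = a
    · rw [h1, ha']
    · exact hT c h1 (by rw [ha']; exact h1) h3 h4

/-- The lift of the product of two transpositions of `T` centralises `t`. -/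
theorem exists_pair {a c : Fin n} (ha : P.Mv a) (hc : P.Mv c) (hac : P.Far a c) :
    ∃ L, P.InD L ∧ P.S.img L = P.pairPerm a c := by
  obtain ⟨b, hb, hab, hcb⟩ := P.exists_third a c
  have hbc := P.far_symm hcb
  obtain ⟨r, hr, hra, hrb, -, -⟩ := P.exists_rho ha hb hc hab hac hbc
  obtain ⟨L, hL, hiL⟩ := P.S.lift _ (P.sign_pairPerm ha hb)
  have hcomm : ∀ x, P.pairPerm a b (P.T x) = P.T (P.pairPerm a b x) := by
    have h : P.T * P.pairPerm a b * P.T⁻¹ = P.pairPerm a b := by
      rw [P.conj_pairPerm (fun _ => rfl) a b, pairPerm, pairPerm, P.swap_T a, P.swap_T b]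
    intro x
    have := congrArg (fun σ : Perm (Fin n) => σ (P.T x)) h
    simp only [Perm.mul_apply, Perm.coe_inv, Equiv.symm_apply_apply] at this
    exact this.symm
  have hcase := P.conj_or hL (by rw [hiL]; exact hcomm)
  have hL2 : Commute (r * L * r⁻¹) z := (hr.1.mul_left hL).mul_left hr.1.inv_left
  refine ⟨L * (r * L * r⁻¹), ⟨hL.mul_left hL2, ?_⟩, ?_⟩
  · have hrt : r * t * r⁻¹ = t := by rw [hr.2.eq, mul_inv_cancel_right]
    have hrt' : r⁻¹ * t * r = t := by rw [mul_assoc, ← hr.2.eq, inv_mul_cancel_left]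
    have hrz : r * z * r⁻¹ = z := by rw [hr.1.eq, mul_inv_cancel_right]
    have hLz : L * z * L⁻¹ = z := by rw [hL.eq, mul_inv_cancel_right]
    have key : (L * (r * L * r⁻¹)) * t * (L * (r * L * r⁻¹))⁻¹ =
        L * (r * (L * (r⁻¹ * t * r) * L⁻¹) * r⁻¹) * L⁻¹ := by group
    rw [hrt'] at key
    apply mul_inv_eq_iff_eq_mul.mp
    rcases hcase with h | h
    · rw [key, h, hrt, h]
    · rw [key, h, show r * (t * z) * r⁻¹ = (r * t * r⁻¹) * (r * z * r⁻¹) by group, hrt, hrz,
        show L * (t * z) * L⁻¹ = (L * t * L⁻¹) * (L * z * L⁻¹) by group, h, hLz, mul_assoc,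
        P.S.sq, mul_one]
  · rw [P.S.img_mul hL hL2, P.S.img_conj hr.1 hL, hiL,
      P.conj_pairPerm (P.T_comm hr) a b, hra, hrb, P.pairPerm_mul]

end Pair

end CfsgLib.AltDoubleCent
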