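import Cfsg.Agent.Lib.AltDoubleCent.Frame
import Cfsg.Agent.Lib.GW.FourFormula

/-!
Degrees nine and ten: the centraliser of the lift `c` of a three-cycle is the product of its odd
core and its intersection with the centraliser of `z`; the order of its Sylow three-subgroup.
-/

set_option autoImplicit false
set_option linter.unusedSectionVars false

namespace CfsgLib.AltDoubleCent

open Equiv CfsgLib.RealChar.AltCover CfsgLib.Classes.AltCoverComm

universe u

variable {n : ℕ}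

/-- The points different from `6`, `7`, `8`. -/
def OffThree (p : Fin n) : Prop := p.val < 6 ∨ 8 < p.val

instance : DecidablePred (OffThree (n := n)) := fun p => by unfold OffThree; infer_instance

/-- A permutation fixing `6`, `7`, `8`. -/
def FixThree (σ : Perm (Fin n)) : Prop := ∀ p, ¬ OffThree p → σ p = p

theorem notOff_cases (h9 : 9 ≤ n) {p : Fin n} (hp : ¬ OffThree p) :
    p = ⟨6, by omega⟩ ∨ p = ⟨7, by omega⟩ ∨ p = ⟨8, by omega⟩ := by
  unfold OffThree at hp
  simp only [Fin.ext_iff]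
  omega

theorem c0_six (h9 : 9 ≤ n) : c0 h9 ⟨6, by omega⟩ = ⟨7, by omega⟩ :=
  cyc_apply_fst _ _ _ (by simp [Fin.ext_iff]) (by simp [Fin.ext_iff])

theorem c0_seven (h9 : 9 ≤ n) : c0 h9 ⟨7, by omega⟩ = ⟨8, by omega⟩ := cyc_apply_snd _ _ _

theorem c0_eight (h9 : 9 ≤ n) : c0 h9 ⟨8, by omega⟩ = ⟨6, by omega⟩ :=
  cyc_apply_thd _ _ _ (by simp [Fin.ext_iff]) (by simp [Fin.ext_iff])

theorem c0_off (h9 : 9 ≤ n) {p : Fin n} (hp : OffThree p) : c0 h9 p = p := by
  unfold OffThree at hp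
  refine cyc_apply_other _ _ _ _ ?_ ?_ ?_ <;> simp [Fin.ext_iff] <;> omega

theorem c0_cycleType (h9 : 9 ≤ n) : (c0 h9).cycleType = {3} :=
  Perm.isThreeCycle_swap_mul_swap_same (by simp [Fin.ext_iff]) (by simp [Fin.ext_iff])
    (by simp [Fin.ext_iff])

theorem commute_c0 (h9 : 9 ≤ n) {σ : Perm (Fin n)} (h : FixThree σ) : Commute σ (c0 h9) := by
  refine Perm.Disjoint.commute fun p => ?_
  by_cases hp : OffThree p
  · exact Or.inr (c0_off h9 hp)
  · exact Or.inl (h p hp)

theorem fixThree_of_six (h9 : 9 ≤ n) {σ : Perm (Fin n)} (hc : Commute σ (c0 h9))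
    (h6 : σ ⟨6, by omega⟩ = ⟨6, by omega⟩) : FixThree σ := by
  have key : ∀ p, σ (c0 h9 p) = c0 h9 (σ p) := fun p => by
    rw [← Perm.mul_apply, hc.eq, Perm.mul_apply]
  have h7 : σ ⟨7, by omega⟩ = ⟨7, by omega⟩ := by rw [← c0_six h9, key, h6]
  have h8 : σ ⟨8, by omega⟩ = ⟨8, by omega⟩ := by rw [← c0_seven h9, key, h7]
  intro p hp
  rcases notOff_cases h9 hp with rfl | rfl | rfl <;> assumption

theorem exists_pow_c0_six (h9 : 9 ≤ n) {σ : Perm (Fin n)} (hc : Commute σ (c0 h9)) :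
    ∃ i : ℕ, σ ⟨6, by omega⟩ = (c0 h9 ^ i) ⟨6, by omega⟩ := by
  by_cases hp : OffThree (σ ⟨6, by omega⟩)
  · exfalso
    have h : σ (c0 h9 ⟨6, by omega⟩) = σ ⟨6, by omega⟩ := by
      rw [← Perm.mul_apply, hc.eq, Perm.mul_apply, c0_off h9 hp]
    rw [c0_six h9] at h
    simpa [Fin.ext_iff] using σ.injective h
  · rcases notOff_cases h9 hp with h | h | h
    · exact ⟨0, by rw [pow_zero, Perm.one_apply, h]⟩
    · exact ⟨1, by rw [pow_one, c0_six h9, h]⟩
    · exact ⟨2, by rw [pow_two, Perm.mul_apply, c0_six h9, c0_seven h9, h]⟩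

theorem c0_cube (h9 : 9 ≤ n) : c0 h9 ^ 3 = 1 :=
  cyc_pow_three _ _ _ (by simp [Fin.ext_iff]) (by simp [Fin.ext_iff]) (by simp [Fin.ext_iff])

/-- The cube of a permutation commuting with `c0` fixes `6`, `7`, `8`. -/
theorem fixThree_cube (h9 : 9 ≤ n) {σ : Perm (Fin n)} (hc : Commute σ (c0 h9)) :
    FixThree (σ ^ 3) := by
  refine fixThree_of_six h9 (hc.pow_left 3) ?_
  obtain ⟨i, hi⟩ := exists_pow_c0_six h9 hc
  have key : ∀ k : ℕ, (σ ^ k) ⟨6, by omega⟩ = (c0 h9 ^ (i * k)) ⟨6, by omega⟩ := by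
    intro k
    induction k with
    | zero => simp
    | succ k ih =>
      rw [pow_succ', Perm.mul_apply, ih, ← Perm.mul_apply, (hc.pow_right _).eq, Perm.mul_apply, hi,
        ← Perm.mul_apply, ← pow_add, Nat.mul_succ]
  rw [key, Nat.mul_comm, pow_mul, c0_cube h9, one_pow, Perm.one_apply]

variable {G : Type u} [Group G] [Finite G] {z : G}

namespace Frame

variable {S : Setting G n z} {h9 : 9 ≤ n} (F : Frame S h9)

theorem three_commute_img {x : G} (hxz : Commute x z) (hxc : Commute x F.c) :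
    Commute (S.img x) (c0 h9) := by
  rw [← F.img_c]
  exact S.commute_img hxz F.c_comm hxc

include F in
theorem three_lift {σ : Perm (Fin n)} (hσ : Perm.sign σ = 1) (hfix : FixThree σ) :
    ∃ h : G, Commute h z ∧ Commute h F.c ∧ S.img h = σ := by
  obtain ⟨h, hh, hi⟩ := S.exists_img hσ
  refine ⟨h, hh, (S.commute_of_img F.c_comm hh (by rw [F.c_ord]; decide) ?_).symm, hi⟩
  rw [F.img_c, hi]
  exact (commute_c0 h9 hfix).symm

/-- The only involution in the centraliser of `z` and `c` is `z`. -/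
theorem three_invol (h10 : n ≤ 10) {u : G} (huz : Commute u z) (huc : Commute u F.c)
    (h2 : u * u = 1) (h1 : u ≠ 1) : u = z := by
  by_contra hne
  have ho : orderOf (S.img F.c) = 3 := by
    rw [F.img_c, ← Perm.lcm_cycleType, c0_cycleType h9]; rfl
  have h := cycleType_of_commute h10 (S.img F.c) (S.img u) ho
    (by rw [← S.img_mul huz huz, h2, S.img_one]) (S.fix_le_two h10 huz h2 h1 hne)
    (S.commute_img huz F.c_comm huc).eq
  rw [F.img_c, c0_cycleType h9] at h
  simpa using congrArg Multiset.card h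

include F in
/-- A subgroup of the centraliser of `z` normalised by the centraliser of `z` and `c` covers
either nothing or everything among the even permutations fixing `6`, `7`, `8`. -/
theorem fix_dichotomy (M : Subgroup G) (hM : ∀ x ∈ M, Commute x z)
    (hn : ∀ g x : G, Commute g z → Commute g F.c → x ∈ M → g * x * g⁻¹ ∈ M) :
    (∀ x ∈ M, FixThree (S.img x) → S.img x = 1) ∨
      ∀ σ : Perm (Fin n), Perm.sign σ = 1 → FixThree σ → ∃ x ∈ M, S.img x = σ := by
  classical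
  let A := alternatingGroup {p : Fin n // OffThree p}
  let f : A →* Perm (Fin n) := Perm.ofSubtype.comp A.subtype
  have hsign : ∀ a : A, Perm.sign (f a) = 1 := fun a => by
    show Perm.sign (Perm.ofSubtype (a : Perm {p : Fin n // OffThree p})) = 1
    rw [Perm.sign_ofSubtype]
    exact Perm.mem_alternatingGroup.mp a.2
  have hffix : ∀ a : A, FixThree (f a) := fun a p hp =>
    Perm.ofSubtype_apply_of_not_mem _ hp
  have hpre : ∀ σ : Perm (Fin n), Perm.sign σ = 1 → FixThree σ → ∃ a : A, f a = σ := by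
    intro σ hσ hfix
    have h1 : ∀ p, OffThree (σ p) ↔ OffThree p := fun p => by
      constructor
      · intro hp
        by_contra hp'
        exact hp' (by rwa [hfix p hp'] at hp)
      · intro hp
        by_contra hp'
        have := σ.injective (hfix (σ p) hp')
        exact hp' (by rwa [this])
    have h2 : ∀ p, σ p ≠ p → OffThree p := fun p hp => by
      by_contra hp'
      exact hp (hfix p hp')
    refine ⟨⟨σ.subtypePerm h1, Perm.mem_alternatingGroup.mpr ?_⟩, Perm.ofSubtype_subtypePerm h1 h2⟩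
    rw [← Perm.sign_ofSubtype, Perm.ofSubtype_subtypePerm h1 h2, hσ]
  let K : Subgroup A :=
    { carrier := {a | ∃ x ∈ M, S.img x = f a}
      one_mem' := ⟨1, M.one_mem, by rw [S.img_one, map_one]⟩
      mul_mem' := by
        rintro a b ⟨x, hx, hxa⟩ ⟨y, hy, hyb⟩
        exact ⟨x * y, M.mul_mem hx hy, by rw [S.img_mul (hM x hx) (hM y hy), hxa, hyb, map_mul]⟩
      inv_mem' := by
        rintro a ⟨x, hx, hxa⟩
        exact ⟨x⁻¹, M.inv_mem hx, by rw [S.img_inv (hM x hx), hxa, map_inv]⟩ }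
  have hK : K.Normal := ⟨fun a ⟨x, hx, hxa⟩ b => by
    obtain ⟨g, hgz, hgc, hg⟩ := F.three_lift (hsign b) (hffix b)
    exact ⟨g * x * g⁻¹, hn g x hgz hgc hx, by
      rw [S.img_conj hgz (hM x hx), hg, hxa, map_mul, map_mul, map_inv]⟩⟩
  have h5 : 5 ≤ Nat.card {p : Fin n // OffThree p} := by
    have h := Nat.card_le_card_of_injective
      (fun i : Fin 5 => (⟨⟨i.val, by omega⟩, Or.inl (by have := i.isLt; show i.val < 6; omega)⟩ :
        {p : Fin n // OffThree p}))
      (fun i j h => Fin.ext (congrArg (fun q : {p : Fin n // OffThree p} => q.1.val) h))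
    simpa using h
  haveI := alternatingGroup.isSimpleGroup h5
  rcases hK.eq_bot_or_eq_top with hb | ht
  · left
    intro x hx hfix
    obtain ⟨a, ha⟩ := hpre _ (S.sign_img x) hfix
    have haK : a ∈ K := ⟨x, hx, ha.symm⟩
    rw [hb, Subgroup.mem_bot] at haK
    rw [← ha, haK, map_one]
  · right
    intro σ hσ hfix
    obtain ⟨a, ha⟩ := hpre σ hσ hfix
    obtain ⟨x, hx, hxa⟩ : a ∈ K := ht ▸ Subgroup.mem_top a
    exact ⟨x, hx, hxa.trans ha⟩

/-- The odd core of the centraliser of `c`, as a subgroup of `G`. -/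
noncomputable def threeCore : Subgroup G :=
  (Cfsg.oddCore (Subgroup.centralizer ({F.c} : Set G))).map (Subgroup.subtype _)

theorem threeCore_odd : Odd (Nat.card F.threeCore) := by
  rw [threeCore, Subgroup.card_map_of_injective (Subgroup.subtype_injective _)]
  exact CfsgLib.Cores.odd_card_oddCore

theorem threeCore_commute {x : G} (hx : x ∈ F.threeCore) : Commute x F.c := by
  obtain ⟨y, -, rfl⟩ := Subgroup.mem_map.mp hx
  exact mem_cent.mp y.2

theorem threeCore_conj {g x : G} (hg : Commute g F.c) (hx : x ∈ F.threeCore) :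
    g * x * g⁻¹ ∈ F.threeCore := by
  obtain ⟨y, hy, rfl⟩ := Subgroup.mem_map.mp hx
  haveI : (Cfsg.oddCore (Subgroup.centralizer ({F.c} : Set G))).Normal := inferInstance
  exact Subgroup.mem_map.mpr ⟨_, Subgroup.Normal.conj_mem inferInstance y hy ⟨g, mem_cent.mpr hg⟩,
    rfl⟩

theorem le_threeCore {M : Subgroup G} (hM : ∀ x ∈ M, Commute x F.c) (hodd : Odd (Nat.card M))
    (hn : ∀ g x, Commute g F.c → x ∈ M → g * x * g⁻¹ ∈ M) : M ≤ F.threeCore := by
  have hle : M ≤ Subgroup.centralizer ({F.c} : Set G) := fun x hx => mem_cent.mpr (hM x hx)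
  haveI : (M.subgroupOf (Subgroup.centralizer ({F.c} : Set G))).Normal :=
    ⟨fun x hx g => hn g x (mem_cent.mp g.2) hx⟩
  intro x hx
  refine Subgroup.mem_map.mpr ⟨⟨x, hle hx⟩,
    CfsgLib.Cores.le_oddCore (N := M.subgroupOf _) ?_ (Subgroup.mem_subgroupOf.mpr hx), rfl⟩
  rwa [Nat.card_congr (Subgroup.subgroupOfEquivOfLe hle).toEquiv]

theorem c_mem_threeCore : F.c ∈ F.threeCore := by
  refine F.le_threeCore (M := Subgroup.zpowers F.c) ?_ ?_ ?_ (Subgroup.mem_zpowers _)
  · rintro x ⟨k, rfl⟩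
    exact (Commute.refl F.c).zpow_left k
  · rw [Nat.card_zpowers, F.c_ord]; decide
  · rintro g x hg ⟨k, rfl⟩
    refine ⟨k, ?_⟩
    show F.c ^ k = g * F.c ^ k * g⁻¹
    rw [(hg.zpow_right k).eq, mul_inv_cancel_right]

/-- The centraliser of `c` is the product of its odd core and the part commuting with `z`. -/
theorem threeCore_factor (h10 : n ≤ 10) {g : G} (hg : Commute g F.c) :
    ∃ m ∈ F.threeCore, ∃ h, Commute h z ∧ Commute h F.c ∧ g = m * h := by
  let X := Subgroup.centralizer ({F.c} : Set G)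
  let u : X := ⟨z, mem_cent.mpr F.c_comm.symm⟩
  have hu : orderOf u = 2 := by rw [Subgroup.orderOf_mk, S.hz]
  haveI : Fact (Nat.Prime 2) := ⟨Nat.prime_two⟩
  obtain ⟨P, hP⟩ := IsPGroup.exists_le_sylow (G := X) (p := 2) (P := Subgroup.zpowers u)
    (IsPGroup.of_card (n := 1) (by rw [Nat.card_zpowers, hu]; norm_num))
  have huP : u ∈ P := hP (Subgroup.mem_zpowers u)
  haveI : Nontrivial P := ⟨⟨⟨u, huP⟩, 1, fun e => S.z_ne_one
    (congrArg (fun v : P => ((v : X) : G)) e)⟩⟩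
  obtain ⟨v, hv⟩ : ∃ v : Subgroup.center P, orderOf v = 2 := by
    haveI := P.2.center_nontrivial
    obtain ⟨k, hk⟩ := (P.2.to_subgroup (Subgroup.center P)).exists_card_eq
    refine exists_prime_orderOf_dvd_card' 2 (hk ▸ dvd_pow_self 2 ?_)
    rintro rfl
    have := Finite.one_lt_card (α := Subgroup.center P)
    rw [hk, pow_zero] at this
    omega
  have hvcomm : ∀ w : P, Commute ((v.1 : X) : G) ((w : X) : G) := fun w =>
    congrArg (fun q : P => ((q : X) : G)) (Subgroup.mem_center_iff.mp v.2 w).symm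
  have hvz : ((v.1 : X) : G) = z := by
    refine F.three_invol h10 (hvcomm ⟨u, huP⟩) (mem_cent.mp (v.1 : X).2) ?_ ?_
    · have h := pow_orderOf_eq_one v
      rw [hv, pow_two] at h
      exact congrArg (fun q : Subgroup.center P => ((q.1 : X) : G)) h
    · intro e
      have : v = 1 := Subtype.ext (Subtype.ext (Subtype.ext e))
      rw [this, orderOf_one] at hv
      omega
  have hiso : ∀ g : X, g * u * g⁻¹ ∈ P → g * u * g⁻¹ = u := by
    intro g hgP
    apply Subtype.ext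
    show (g : G) * z * (g : G)⁻¹ = z
    refine F.three_invol h10 ?_ (mem_cent.mp (g * u * g⁻¹).2) ?_ ?_
    · have := hvcomm ⟨_, hgP⟩
      rw [hvz] at this
      exact this.symm
    · rw [show (g : G) * z * (g : G)⁻¹ * ((g : G) * z * (g : G)⁻¹) = g * (z * z) * (g : G)⁻¹ by group,
        S.z_sq]
      group
    · intro e
      apply S.z_ne_one
      calc z = (g : G)⁻¹ * ((g : G) * z * (g : G)⁻¹) * g := by group
        _ = 1 := by rw [e]; group
  let gX : X := ⟨g, mem_cent.mpr hg⟩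
  have hcom := CfsgLib.Involutions.zstar_isolated P hu hiso gX
  set N := Cfsg.oddCore X with hN
  haveI : N.Normal := by rw [hN]; infer_instance
  set w : X := gX * u * gX⁻¹ * u⁻¹ with hw
  have hwN : w ∈ N := by
    have := N.inv_mem hcom
    rwa [show (u * gX * u⁻¹ * gX⁻¹)⁻¹ = w by rw [hw]; group] at this
  have huu : u * u = 1 := Subtype.ext S.z_sq
  have hui : u⁻¹ = u := inv_eq_of_mul_eq_one_right huu
  have hodd : Odd (Nat.card N) := CfsgLib.Cores.odd_card_oddCore
  have huw : u * w * u⁻¹ = w⁻¹ := by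
    rw [hw, hui]
    calc u * (gX * u * gX⁻¹ * u) * u = u * gX * u * gX⁻¹ * (u * u) := by group
      _ = u⁻¹ * gX * u⁻¹ * gX⁻¹ := by rw [huu, mul_one, hui]
      _ = (gX * u * gX⁻¹ * u)⁻¹ := by group
  set m : X := w ^ ((Nat.card N + 1) / 2) with hm
  have hum : u * m * u⁻¹ = m⁻¹ := by rw [hm, ← conj_pow, huw, inv_pow]
  have hmu : m * u * m⁻¹ = gX * u * gX⁻¹ := by
    calc m * u * m⁻¹ = m * (u * m * u⁻¹)⁻¹ * u := by group
      _ = m * m * u := by rw [hum, inv_inv]
      _ = w * u := by rw [hm, CfsgLib.GW.root_sq hodd hwN]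
      _ = _ := by rw [hw]; group
  refine ⟨(m : G), Subgroup.mem_map.mpr ⟨m, N.pow_mem hwN _, rfl⟩, ((m⁻¹ * gX : X) : G), ?_,
    mem_cent.mp (m⁻¹ * gX : X).2, ?_⟩
  · have h1 : (m⁻¹ * gX) * u * (m⁻¹ * gX)⁻¹ = u := by
      calc (m⁻¹ * gX) * u * (m⁻¹ * gX)⁻¹ = m⁻¹ * (gX * u * gX⁻¹) * m := by group
        _ = u := by rw [← hmu]; group
    exact congrArg (fun q : X => (q : G)) (mul_inv_eq_iff_eq_mul.mp h1)
  · show g = (m : G) * ((m : G)⁻¹ * g)
    group

/-- The odd core of the centraliser of `c` meets the centraliser of `z` in `⟨c⟩`. -/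
theorem threeCore_cent (h10 : n ≤ 10) {x : G} (hx : x ∈ F.threeCore) (hxz : Commute x z) :
    x ∈ Subgroup.zpowers F.c := by
  let M : Subgroup G := F.threeCore ⊓ Subgroup.centralizer ({z} : Set G)
  have hodd : ∀ y ∈ F.threeCore, Odd (orderOf y) := fun y hy =>
    Odd.of_dvd_nat F.threeCore_odd (Subgroup.orderOf_dvd_natCard _ hy)
  obtain ⟨i, hi⟩ := exists_pow_c0_six h9 (F.three_commute_img hxz (F.threeCore_commute hx))
  set y := (F.c ^ i)⁻¹ * x with hy
  have hci : Commute (F.c ^ i) z := F.c_comm.pow_left i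
  have hyN : y ∈ F.threeCore :=
    F.threeCore.mul_mem (F.threeCore.inv_mem (F.threeCore.pow_mem F.c_mem_threeCore i)) hx
  have hyz : Commute y z := hci.inv_left.mul_left hxz
  have hyfix : FixThree (S.img y) := by
    refine fixThree_of_six h9 (F.three_commute_img hyz (F.threeCore_commute hyN)) ?_
    rw [hy, S.img_mul hci.inv_left hxz, S.img_inv hci, S.img_pow F.c_comm, F.img_c,
      Perm.mul_apply, hi, ← Perm.mul_apply, inv_mul_cancel, Perm.one_apply]
  rcases F.fix_dichotomy M (fun a ha => mem_cent.mp ha.2)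
      (fun g a hgz hgc ha => ⟨F.threeCore_conj hgc ha.1,
        mem_cent.mpr ((hgz.mul_left (mem_cent.mp ha.2)).mul_left hgz.inv_left)⟩) with h | h
  · rcases (S.img_eq_one hyz).mp (h y ⟨hyN, mem_cent.mpr hyz⟩ hyfix) with e | e
    · rw [hy, inv_mul_eq_one] at e
      exact ⟨i, (zpow_natCast F.c i).trans e⟩
    · exact absurd (S.z_odd (Or.inr e) (hodd y hyN)) (fun e' => S.z_ne_one (e ▸ e'))
  · exfalso
    have h4 : Four (⟨0, by omega⟩ : Fin n) ⟨1, by omega⟩ ⟨2, by omega⟩ ⟨3, by omega⟩ := by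
      constructor <;> simp [Fin.ext_iff]
    have hfix : FixThree (swap (⟨0, by omega⟩ : Fin n) ⟨1, by omega⟩ *
        swap ⟨2, by omega⟩ ⟨3, by omega⟩) := fun p hp => by
      rcases notOff_cases h9 hp with rfl | rfl | rfl <;>
        simp [swap_apply_def, Fin.ext_iff]
    obtain ⟨a, ha, hai⟩ := h _ h4.sign hfix
    have haz : Commute a z := mem_cent.mp ha.2
    have h2 := S.sq_eq_z haz h4 hai
    have := hodd _ (F.threeCore.mul_mem ha.1 ha.1)
    rw [h2, S.hz] at this
    exact absurd this (by decide)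

/-- The centraliser of `c` is an odd normal subgroup times its intersection with `C(z)`. -/
theorem exists_core (h10 : n ≤ 10) :
    ∃ N : Subgroup G, Odd (Nat.card N) ∧ F.c ∈ N ∧ (∀ x ∈ N, Commute x F.c) ∧
      (∀ g x, Commute g F.c → x ∈ N → g * x * g⁻¹ ∈ N) ∧
      (∀ g, Commute g F.c → ∃ m ∈ N, ∃ h, Commute h z ∧ Commute h F.c ∧ g = m * h) ∧
      (∀ x ∈ N, Commute x z → x ∈ Subgroup.zpowers F.c) :=
  ⟨F.threeCore, F.threeCore_odd, F.c_mem_threeCore, fun _ hx => F.threeCore_commute hx,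
    fun _ _ hg hx => F.threeCore_conj hg hx, fun _ hg => F.threeCore_factor h10 hg,
    fun _ hx hxz => F.threeCore_cent h10 hx hxz⟩

theorem zpowers_c_commute {e g : G} (he : e ∈ Subgroup.zpowers F.c) (hg : Commute g F.c) :
    Commute g e := by
  obtain ⟨k, rfl⟩ := he
  exact hg.zpow_right k

theorem three_eq_one_of_inverted {w e : G} (hwc : w * F.c * w⁻¹ = F.c⁻¹)
    (he : e ∈ Subgroup.zpowers F.c) (hcomm : Commute e w) : e = 1 := by
  obtain ⟨k, hk⟩ := he
  have h1 : w * e * w⁻¹ = e⁻¹ := by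
    rw [← hk, ← conj_zpow, hwc, inv_zpow]
  rw [← hcomm.eq, mul_inv_cancel_right] at h1
  have h2 : e ^ 2 = 1 := by rw [pow_two]; exact eq_inv_iff_mul_eq_one.mp h1
  have h3 : e ^ 3 = 1 := by
    rw [← hk, ← zpow_natCast, ← zpow_mul, mul_comm k, zpow_mul, zpow_natCast,
      show F.c ^ 3 = 1 by rw [← F.c_ord]; exact pow_orderOf_eq_one _, one_zpow]
  rw [pow_succ, h2, one_mul] at h3
  exact h3

theorem threeCore_conj_inv {w x : G} (hwc : w * F.c * w⁻¹ = F.c⁻¹) (hx : x ∈ F.threeCore) :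
    w * x * w⁻¹ ∈ F.threeCore := by
  have hc' : ∀ y : G, Commute y F.c → Commute (w * y * w⁻¹) F.c := fun y hy => by
    have h := hy.map (MulAut.conj w)
    simp only [MulAut.conj_apply, hwc] at h
    simpa using h.inv_right
  refine F.le_threeCore (M := F.threeCore.map (MulAut.conj w).toMonoidHom) ?_ ?_ ?_
    (Subgroup.mem_map.mpr ⟨x, hx, rfl⟩)
  · intro y hy
    obtain ⟨v, hv, rfl⟩ := Subgroup.mem_map.mp hy
    exact hc' v (F.threeCore_commute hv)
  · rw [Subgroup.card_map_of_injective (MulAut.conj w).injective]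
    exact F.threeCore_odd
  · intro g y hg hy
    obtain ⟨v, hv, rfl⟩ := Subgroup.mem_map.mp hy
    have hwg : Commute (w⁻¹ * g * w) F.c := by
      have h2 : w⁻¹ * F.c * w = F.c⁻¹ := by
        calc w⁻¹ * F.c * w = w⁻¹ * (w * F.c * w⁻¹)⁻¹ * w := by rw [hwc, inv_inv]
          _ = F.c⁻¹ := by group
      have h := hg.map (MulAut.conj w⁻¹)
      simp only [MulAut.conj_apply, inv_inv, h2] at h
      simpa using h.inv_right
    refine Subgroup.mem_map.mpr ⟨w⁻¹ * g * w * v * (w⁻¹ * g * w)⁻¹, F.threeCore_conj hwg hv, ?_⟩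
    show w * (w⁻¹ * g * w * v * (w⁻¹ * g * w)⁻¹) * w⁻¹ = g * (w * v * w⁻¹) * g⁻¹
    group

/-- Modulo `⟨c⟩`, the involution `z` inverts the odd core of the centraliser of `c`. -/
theorem threeCore_z_conj (h10 : n ≤ 10) {x : G} (hx : x ∈ F.threeCore) :
    ∃ e ∈ Subgroup.zpowers F.c, z * x * z⁻¹ = x⁻¹ * e := by
  have hzx : z * x * z⁻¹ ∈ F.threeCore := F.threeCore_conj F.c_comm.symm hx
  set p := x * (z * x * z⁻¹)⁻¹ with hp
  have hpN : p ∈ F.threeCore := F.threeCore.mul_mem hx (F.threeCore.inv_mem hzx)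
  have hzp : z * p * z⁻¹ = p⁻¹ := by
    rw [hp]
    simp only [S.z_inv]
    calc z * (x * (z * x * z)⁻¹) * z = z * x * z⁻¹ * x⁻¹ * (z⁻¹ * z) := by group
      _ = _ := by rw [inv_mul_cancel, mul_one, S.z_inv]; group
  set i := p ^ ((Nat.card F.threeCore + 1) / 2) with hi
  have hzi : z * i * z⁻¹ = i⁻¹ := by rw [hi, ← conj_pow, hzp, inv_pow]
  have hii : i * i = p := CfsgLib.GW.root_sq F.threeCore_odd hpN
  set u := i⁻¹ * x with hu
  have huN : u ∈ F.threeCore :=
    F.threeCore.mul_mem (F.threeCore.inv_mem (F.threeCore.pow_mem hpN _)) hx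
  have hxz' : z * x * z⁻¹ = (i * i)⁻¹ * x := by rw [hii, hp]; group
  have hzu : z * u * z⁻¹ = u := by
    rw [hu, show z * (i⁻¹ * x) * z⁻¹ = (z * i * z⁻¹)⁻¹ * (z * x * z⁻¹) by group, hzi, hxz']
    group
  have huc : u ∈ Subgroup.zpowers F.c :=
    F.threeCore_cent h10 huN (mul_inv_eq_iff_eq_mul.mp hzu).symm
  refine ⟨u * u, Subgroup.mul_mem _ huc huc, ?_⟩
  have hiu : Commute u i :=
    (F.zpowers_c_commute huc (F.threeCore_commute (F.threeCore.pow_mem hpN _))).symm
  have hx' : x = i * u := by rw [hu]; group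
  calc z * x * z⁻¹ = (i * i)⁻¹ * x := hxz'
    _ = i⁻¹ * u := by rw [hx']; group
    _ = u⁻¹ * (u * i⁻¹) * u := by group
    _ = u⁻¹ * (i⁻¹ * u) * u := by rw [hiu.inv_right.eq]
    _ = x⁻¹ * (u * u) := by rw [hx']; group

theorem threeCore_comm_mem (h10 : n ≤ 10) {x y : G} (hx : x ∈ F.threeCore)
    (hy : y ∈ F.threeCore) : x * y * x⁻¹ * y⁻¹ ∈ Subgroup.zpowers F.c := by
  obtain ⟨e1, he1, h1⟩ := F.threeCore_z_conj h10 hx
  obtain ⟨e2, he2, h2⟩ := F.threeCore_z_conj h10 hy
  obtain ⟨e3, he3, h3⟩ := F.threeCore_z_conj h10 (F.threeCore.mul_mem hx hy)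
  have hc : Commute e1 y⁻¹ :=
    (F.zpowers_c_commute he1 (F.threeCore_commute (F.threeCore.inv_mem hy))).symm
  have h4 : y⁻¹ * x⁻¹ * e3 = x⁻¹ * y⁻¹ * (e1 * e2) := by
    calc y⁻¹ * x⁻¹ * e3 = z * (x * y) * z⁻¹ := by rw [h3, mul_inv_rev]
      _ = z * x * z⁻¹ * (z * y * z⁻¹) := by group
      _ = x⁻¹ * (e1 * y⁻¹) * e2 := by rw [h1, h2]; group
      _ = _ := by rw [hc.eq]; group
  have h5 : x * y * x⁻¹ * y⁻¹ = e3 * (e1 * e2)⁻¹ := by
    calc x * y * x⁻¹ * y⁻¹ = x * y * (x⁻¹ * y⁻¹ * (e1 * e2)) * (e1 * e2)⁻¹ := by group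
      _ = e3 * (e1 * e2)⁻¹ := by rw [← h4]; group
  rw [h5]
  exact Subgroup.mul_mem _ he3 (Subgroup.inv_mem _ (Subgroup.mul_mem _ he1 he2))

/-- The Sylow three-subgroup of the odd core. -/
noncomputable def threeQ : Subgroup G :=
  ((default : Sylow 3 F.threeCore) : Subgroup F.threeCore).map (Subgroup.subtype _)

theorem threeQ_sylow_normal (h10 : n ≤ 10) (P : Sylow 3 F.threeCore) :
    (P : Subgroup F.threeCore).Normal := by
  haveI : Fact (Nat.Prime 3) := ⟨Nat.prime_three⟩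
  let c' : F.threeCore := ⟨F.c, F.c_mem_threeCore⟩
  haveI : (Subgroup.zpowers c').Normal := ⟨fun a ha g => by
    obtain ⟨k, rfl⟩ := ha
    have hgc : Commute g c' := Subtype.ext (F.threeCore_commute g.2)
    show g * c' ^ k * g⁻¹ ∈ _
    rw [(hgc.zpow_right k).eq, mul_inv_cancel_right]
    exact ⟨k, rfl⟩⟩
  have hC : IsPGroup 3 (Subgroup.zpowers c') :=
    IsPGroup.of_card (n := 1) (by rw [Nat.card_zpowers, Subgroup.orderOf_mk, F.c_ord]; norm_num)
  have hle : Subgroup.zpowers c' ≤ (P : Subgroup F.threeCore) := by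
    rw [← P.is_maximal' (P.2.to_sup_of_normal_right hC) le_sup_left]
    exact le_sup_right
  refine ⟨fun x hx y => ?_⟩
  have hcomm : y * x * y⁻¹ * x⁻¹ ∈ Subgroup.zpowers c' := by
    obtain ⟨k, hk⟩ := F.threeCore_comm_mem h10 y.2 x.2
    exact ⟨k, Subtype.ext hk⟩
  simpa using (P : Subgroup F.threeCore).mul_mem (hle hcomm) hx

theorem mem_threeQ (h10 : n ≤ 10) {x : G} :
    x ∈ F.threeQ ↔ x ∈ F.threeCore ∧ ∃ k : ℕ, x ^ 3 ^ k = 1 := by
  haveI : Fact (Nat.Prime 3) := ⟨Nat.prime_three⟩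
  set P : Sylow 3 F.threeCore := default
  constructor
  · intro hx
    obtain ⟨y, hy, rfl⟩ := Subgroup.mem_map.mp hx
    obtain ⟨k, hk⟩ := P.2 ⟨y, hy⟩
    exact ⟨y.2, k, congrArg (fun q : P => ((q : F.threeCore) : G)) hk⟩
  · rintro ⟨hx, k, hk⟩
    let x' : F.threeCore := ⟨x, hx⟩
    haveI := F.threeQ_sylow_normal h10 P
    have hX : IsPGroup 3 (Subgroup.zpowers x') := by
      obtain ⟨j, -, hj⟩ := (Nat.dvd_prime_pow Nat.prime_three).mp (orderOf_dvd_of_pow_eq_one hk)
      exact IsPGroup.of_card (n := j) (by rw [Nat.card_zpowers, Subgroup.orderOf_mk, hj])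
    refine Subgroup.mem_map.mpr ⟨x', ?_, rfl⟩
    rw [← P.is_maximal' (IsPGroup.to_sup_of_normal_right hX P.2) le_sup_right]
    exact Subgroup.mem_sup_left (Subgroup.mem_zpowers x')

theorem threeQ_le (h10 : n ≤ 10) {x : G} (hx : x ∈ F.threeQ) : x ∈ F.threeCore :=
  ((F.mem_threeQ h10).mp hx).1

theorem threeQ_isPGroup : IsPGroup 3 F.threeQ :=
  (default : Sylow 3 F.threeCore).2.map _

theorem threeQ_odd : Odd (Nat.card F.threeQ) := by
  haveI : Fact (Nat.Prime 3) := ⟨Nat.prime_three⟩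
  obtain ⟨k, hk⟩ := F.threeQ_isPGroup.exists_card_eq
  rw [hk]
  exact (by decide : Odd 3).pow

theorem c_mem_threeQ (h10 : n ≤ 10) : F.c ∈ F.threeQ :=
  (F.mem_threeQ h10).mpr ⟨F.c_mem_threeCore, 1, by
    rw [pow_one, ← F.c_ord]; exact pow_orderOf_eq_one _⟩

theorem threeQ_conj (h10 : n ≤ 10) {g x : G} (hg : Commute g F.c) (hx : x ∈ F.threeQ) :
    g * x * g⁻¹ ∈ F.threeQ := by
  obtain ⟨hxN, k, hk⟩ := (F.mem_threeQ h10).mp hx
  refine (F.mem_threeQ h10).mpr ⟨F.threeCore_conj hg hxN, k, ?_⟩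
  rw [conj_pow, hk, mul_one, mul_inv_cancel]

theorem threeQ_conj_inv (h10 : n ≤ 10) {w x : G} (hwc : w * F.c * w⁻¹ = F.c⁻¹)
    (hx : x ∈ F.threeQ) : w * x * w⁻¹ ∈ F.threeQ := by
  obtain ⟨hxN, k, hk⟩ := (F.mem_threeQ h10).mp hx
  refine (F.mem_threeQ h10).mpr ⟨F.threeCore_conj_inv hwc hxN, k, ?_⟩
  rw [conj_pow, hk, mul_one, mul_inv_cancel]

theorem threeQ_inverted_mem (h10 : n ≤ 10) {r : G} (hrc : Commute r F.c)
    (hr : z * r * z⁻¹ = r⁻¹) (h3 : r ^ 3 = 1) : r ∈ F.threeQ := by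
  obtain ⟨m, hm, h, hhz, hhc, rfl⟩ := F.threeCore_factor h10 hrc
  refine (F.mem_threeQ h10).mpr ⟨?_, 1, by rwa [pow_one]⟩
  have hzh : z * h * z⁻¹ = h := by rw [← hhz.eq, mul_inv_cancel_right]
  have h2 : (m * h) ^ 2 = m * (z * m * z⁻¹)⁻¹ := by
    calc (m * h) ^ 2 = m * h * (z * (m * h) * z⁻¹)⁻¹ := by rw [pow_two, hr, inv_inv]
      _ = m * h * ((z * h * z⁻¹)⁻¹ * (z * m * z⁻¹)⁻¹) := by group
      _ = _ := by rw [hzh]; group
  have h4 : m * h = (m * h) ^ 2 * (m * h) ^ 2 := by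
    rw [← pow_add, pow_succ, h3, one_mul]
  have hin : (m * h) ^ 2 ∈ F.threeCore := by
    rw [h2]
    exact F.threeCore.mul_mem hm (F.threeCore.inv_mem (F.threeCore_conj F.c_comm.symm hm))
  rw [h4]
  exact F.threeCore.mul_mem hin hin

/-- The fixed points in `Q` of a conjugate of `z` inverting `c`. -/
theorem threeQ_fix_le_nine (h10 : n ≤ 10) {w : G} (hw : ∃ g : G, g * z * g⁻¹ = w)
    (hwz : Commute w z) (hne : w ≠ z) (hwc : w * F.c * w⁻¹ = F.c⁻¹) :
    Nat.card (F.threeQ ⊓ Subgroup.centralizer {w} : Subgroup G) ≤ 9 := by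
  classical
  obtain ⟨g, hg⟩ := hw
  let S' := S.conj g hg
  set R : Subgroup G := F.threeQ ⊓ Subgroup.centralizer {w} with hR
  have hRw : ∀ x : R, Commute (x : G) w := fun x => mem_cent.mp x.2.2
  have hinv : ∀ x : R, z * (x : G) * z⁻¹ = (x : G)⁻¹ := by
    intro x
    obtain ⟨e, he, hxe⟩ := F.threeCore_z_conj h10 (F.threeQ_le h10 x.2.1)
    have he' : e = (x : G) * (z * x * z⁻¹) := by rw [hxe]; group
    have hew : Commute e w := by
      rw [he']
      exact (hRw x).mul_left ((hwz.symm.mul_left (hRw x)).mul_left hwz.symm.inv_left)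
    rw [hxe, F.three_eq_one_of_inverted hwc he hew, mul_one]
  let f : R →* Perm (Fin n) :=
    { toFun := fun x => S'.img x
      map_one' := S'.img_one
      map_mul' := fun x y => S'.img_mul (hRw x) (hRw y) }
  have hodd : ∀ x : R, Odd (orderOf (x : G)) := fun x =>
    Odd.of_dvd_nat F.threeQ_odd (Subgroup.orderOf_dvd_natCard _ x.2.1)
  have hinj : Function.Injective f := fun x y h =>
    Subtype.ext (S'.eq_of_odd (hRw x) (hRw y) (hodd x) (hodd y) h).symm
  have hRp : IsPGroup 3 R := F.threeQ_isPGroup.to_le inf_le_left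
  have hA : IsPGroup 3 f.range := hRp.of_surjective f.rangeRestrict f.rangeRestrict_surjective
  rw [show Nat.card R = Nat.card f.range from
    Nat.card_congr (MonoidHom.ofInjective hinj).toEquiv]
  have hz2 : z * z = 1 := S.z_sq
  have hτinv : (S'.img z)⁻¹ = S'.img z := by rw [← S'.img_inv hwz.symm, S.z_inv]
  have hconj : ∀ x : R, S'.img z * f x * S'.img z = (f x)⁻¹ := by
    intro x
    show S'.img z * S'.img (x : G) * S'.img z = (S'.img (x : G))⁻¹
    conv_lhs => arg 2; rw [← hτinv]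
    rw [← S'.img_conj hwz.symm (hRw x), hinv x, S'.img_inv (hRw x)]
  refine card_le_nine_of_inverted h10 f.range hA ?_ (S'.img z)
    (by rw [← S'.img_mul hwz.symm hwz.symm, hz2, S'.img_one])
    (S'.fix_le_two h10 hwz.symm hz2 S.z_ne_one hne.symm) ?_
  · rintro _ ⟨x, rfl⟩ _ ⟨y, rfl⟩
    have hxy : (x : G)⁻¹ * (y : G)⁻¹ = (y : G)⁻¹ * (x : G)⁻¹ := by
      rw [← hinv x, ← hinv y]
      calc z * (x : G) * z⁻¹ * (z * y * z⁻¹) = z * (x * y : R) * z⁻¹ := by
            rw [Subgroup.coe_mul]; group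
        _ = ((x * y : R) : G)⁻¹ := hinv (x * y)
        _ = (y : G)⁻¹ * (x : G)⁻¹ := by rw [Subgroup.coe_mul, mul_inv_rev]
        _ = _ := by rw [← hinv x, ← hinv y]
    have hxy' : x * y = y * x := Subtype.ext (by
      show (x : G) * y = y * x
      have := congrArg (·⁻¹) hxy
      simpa using this.symm)
    rw [← map_mul, hxy', map_mul]
  · rintro _ ⟨x, rfl⟩
    exact hconj x

theorem threeQ_card_mul (h10 : n ≤ 10) :
    Nat.card F.threeQ = Nat.card (F.threeQ ⊓ Subgroup.centralizer {F.t} : Subgroup G) * 3 *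
      Nat.card (F.threeQ ⊓ Subgroup.centralizer {F.t * z} : Subgroup G) := by
  have nt : F.t ∈ Subgroup.normalizer (F.threeQ : Set G) := by
    rw [Subgroup.mem_normalizer_iff]
    intro x
    refine ⟨fun hx => F.threeQ_conj_inv h10 (F.t_conj_c h10) hx, fun hx => ?_⟩
    have h := F.threeQ_conj_inv h10 (F.t_conj_c h10) hx
    rwa [show F.t * (F.t * x * F.t⁻¹) * F.t⁻¹ = F.t * F.t * x * (F.t * F.t)⁻¹ by group, F.t_sq,
      one_mul, inv_one, mul_one] at h
  have nz : z ∈ Subgroup.normalizer (F.threeQ : Set G) := by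
    rw [Subgroup.mem_normalizer_iff]
    intro x
    refine ⟨fun hx => F.threeQ_conj h10 F.c_comm.symm hx, fun hx => ?_⟩
    have h := F.threeQ_conj h10 F.c_comm.symm hx
    rwa [show z * (z * x * z⁻¹) * z⁻¹ = z * z * x * (z * z)⁻¹ by group, S.z_sq, one_mul, inv_one,
      mul_one] at h
  have h := CfsgLib.GW.card_mul_sq_eq F.threeQ_odd F.t_sq S.z_sq F.t_comm nt nz
  have hbot : F.threeQ ⊓ Subgroup.centralizer ({F.t, z} : Set G) = ⊥ := by
    rw [eq_bot_iff]
    intro x hx
    have h1 := Subgroup.mem_centralizer_iff.mp hx.2 F.t (Set.mem_insert _ _)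
    have h2 := Subgroup.mem_centralizer_iff.mp hx.2 z (Set.mem_insert_of_mem _ rfl)
    rw [Subgroup.mem_bot]
    exact F.three_eq_one_of_inverted (F.t_conj_c h10)
      (F.threeCore_cent h10 (F.threeQ_le h10 hx.1) (show Commute x z from h2.symm))
      (show Commute x F.t from h1.symm)
  have hzc : F.threeQ ⊓ Subgroup.centralizer ({z} : Set G) = Subgroup.zpowers F.c :=
    le_antisymm (fun x hx => F.threeCore_cent h10 (F.threeQ_le h10 hx.1) (mem_cent.mp hx.2))
      (Subgroup.zpowers_le.mpr ⟨F.c_mem_threeQ h10, mem_cent.mpr F.c_comm⟩)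
  rwa [hbot, Subgroup.card_bot, one_pow, mul_one, hzc, Nat.card_zpowers, F.c_ord] at h

theorem threeQ_fix_t (h10 : n ≤ 10) :
    Nat.card (F.threeQ ⊓ Subgroup.centralizer {F.t} : Subgroup G) ≤ 9 :=
  F.threeQ_fix_le_nine h10 F.isConj F.t_comm (F.t_ne_z h10) (F.t_conj_c h10)

theorem threeQ_fix_tz (h10 : n ≤ 10) :
    Nat.card (F.threeQ ⊓ Subgroup.centralizer {F.t * z} : Subgroup G) ≤ 9 := by
  obtain ⟨g, hg⟩ := F.isConj
  obtain ⟨k, -, hk⟩ := F.exists_conj_tz h10
  refine F.threeQ_fix_le_nine h10 ⟨k * g, by rw [← hk, ← hg]; group⟩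
    (F.t_comm.mul_left (Commute.refl z)) (fun e => F.t_ne_one h10 (mul_eq_right.mp e)) ?_
  calc F.t * z * F.c * (F.t * z)⁻¹ = F.t * (z * F.c * z⁻¹) * F.t⁻¹ := by group
    _ = F.c⁻¹ := by rw [← F.c_comm.eq, mul_inv_cancel_right, F.t_conj_c h10]

/-- An element of order five or seven in the centraliser of `z` and `c`. -/
theorem threeQ_prime (h10 : n ≤ 10) {p : ℕ} (hp : p = 5 ∨ p = 7) {s : G} (hsz : Commute s z)
    (hsc : Commute s F.c) (hso : orderOf s = p) :
    Nat.card F.threeQ = 3 ∨ (p = 5 ∧ Nat.card F.threeQ = 243 ∧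
      ∀ x ∈ F.threeQ, Commute x s → x ∈ Subgroup.zpowers F.c) := by
  classical
  have hpr : p.Prime := by rcases hp with rfl | rfl <;> norm_num
  haveI : Fact p.Prime := ⟨hpr⟩
  haveI : Fact (Nat.Prime 3) := ⟨Nat.prime_three⟩
  have hodd : Odd p := by rcases hp with rfl | rfl <;> decide
  have hsp : s ^ p = 1 := by rw [← hso]; exact pow_orderOf_eq_one s
  have hs1 : S.img s ≠ 1 := fun e => by
    rcases (S.img_eq_one hsz).mp e with e | e
    · rw [e, orderOf_one] at hso; exact hpr.ne_one hso.symm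
    · rw [e, S.hz] at hso; exact absurd (hso ▸ hodd) (by decide)
  have hσp : S.img s ^ p = 1 := by rw [← S.img_pow hsz, hsp, S.img_one]
  have hσc : Commute (S.img s) (c0 h9) := F.three_commute_img hsz hsc
  have hfix : FixThree (S.img s) := by
    have h3 : ∀ q, ¬ OffThree q → (S.img s ^ 3) q = q := fixThree_cube h9 hσc
    have hpow : ∀ j : ℕ, ∀ q, ¬ OffThree q → ((S.img s ^ 3) ^ j) q = q := by
      intro j q hq
      induction j with
      | zero => simp
      | succ j ih => rw [pow_succ, Perm.mul_apply, h3 q hq, ih]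
    obtain ⟨j, hj⟩ : ∃ j : ℕ, (S.img s ^ 3) ^ j = S.img s := by
      rcases hp with rfl | rfl
      · exact ⟨2, by rw [← pow_mul, show 3 * 2 = 5 + 1 by norm_num, pow_succ, hσp, one_mul]⟩
      · exact ⟨5, by rw [← pow_mul, show 3 * 5 = 7 * 2 + 1 by norm_num, pow_succ, pow_mul, hσp,
          one_pow, one_mul]⟩
    intro q hq
    rw [← hj]
    exact hpow j q hq
  by_cases hcent : ∀ x ∈ F.threeQ, Commute x s
  · left
    let M : Subgroup G := Subgroup.centralizer ({z} : Set G) ⊓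
      Subgroup.centralizer ({F.c} : Set G) ⊓ Subgroup.centralizer (F.threeQ : Set G)
    rcases F.fix_dichotomy M (fun x hx => mem_cent.mp hx.1.1) (by
        rintro g x hgz hgc ⟨⟨hxz, hxc⟩, hxQ⟩
        refine ⟨⟨mem_cent.mpr ((hgz.mul_left (mem_cent.mp hxz)).mul_left hgz.inv_left),
          mem_cent.mpr ((hgc.mul_left (mem_cent.mp hxc)).mul_left hgc.inv_left)⟩, ?_⟩
        refine Subgroup.mem_centralizer_iff.mpr fun q hq => ?_
        have hq' : g⁻¹ * q * g⁻¹⁻¹ ∈ F.threeQ := F.threeQ_conj h10 hgc.inv_left hq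
        have := Subgroup.mem_centralizer_iff.mp hxQ _ hq'
        calc q * (g * x * g⁻¹) = g * (g⁻¹ * q * g⁻¹⁻¹ * x) * g⁻¹ := by group
          _ = g * (x * (g⁻¹ * q * g⁻¹⁻¹)) * g⁻¹ := by rw [this]
          _ = g * x * g⁻¹ * q := by group) with h | h
    · exact absurd (h s ⟨⟨mem_cent.mpr hsz, mem_cent.mpr hsc⟩,
        Subgroup.mem_centralizer_iff.mpr fun q hq => (hcent q hq).eq⟩ hfix) hs1
    · have h4 : Four (⟨0, by omega⟩ : Fin n) ⟨1, by omega⟩ ⟨2, by omega⟩ ⟨3, by omega⟩ := by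
        constructor <;> simp [Fin.ext_iff]
      have hf : FixThree (swap (⟨0, by omega⟩ : Fin n) ⟨1, by omega⟩ *
          swap ⟨2, by omega⟩ ⟨3, by omega⟩) := fun q hq => by
        rcases notOff_cases h9 hq with rfl | rfl | rfl <;> simp [swap_apply_def, Fin.ext_iff]
      obtain ⟨a, ha, hai⟩ := h _ h4.sign hf
      have h2 := S.sq_eq_z (mem_cent.mp ha.1.1) h4 hai
      have hzQ : z ∈ Subgroup.centralizer (F.threeQ : Set G) := by
        have := Subgroup.mul_mem _ ha.2 ha.2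
        rwa [h2] at this
      have heq : F.threeQ = Subgroup.zpowers F.c :=
        le_antisymm (fun x hx => F.threeCore_cent h10 (F.threeQ_le h10 hx)
          (Subgroup.mem_centralizer_iff.mp hzQ x hx))
          (Subgroup.zpowers_le.mpr (F.c_mem_threeQ h10))
      rw [heq, Nat.card_zpowers, F.c_ord]
  · right
    letI : MulAction (Subgroup.zpowers s) F.threeQ :=
      { smul := fun a x => ⟨(a : G) * x * (a : G)⁻¹, F.threeQ_conj h10 (by
          obtain ⟨k, hk⟩ := a.2
          rw [← hk]; exact hsc.zpow_left k) x.2⟩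
        one_smul := fun x => Subtype.ext (show (1 : G) * x * (1 : G)⁻¹ = x by group)
        mul_smul := fun a b x => Subtype.ext (show ((a * b : Subgroup.zpowers s) : G) * x *
          ((a * b : Subgroup.zpowers s) : G)⁻¹ = (a : G) * ((b : G) * x * (b : G)⁻¹) * (a : G)⁻¹ by
          rw [Subgroup.coe_mul]; group) }
    set C : Subgroup G := F.threeQ ⊓ Subgroup.centralizer {s} with hC
    have hfp : Nat.card (MulAction.fixedPoints (Subgroup.zpowers s) F.threeQ) = Nat.card C := by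
      refine Nat.card_congr
        { toFun := fun x => ⟨(x.1 : G), x.1.2, mem_cent.mpr ?_⟩
          invFun := fun x => ⟨⟨x.1, x.2.1⟩, fun a => Subtype.ext ?_⟩
          left_inv := fun x => rfl
          right_inv := fun x => rfl }
      · have h : s * (x.1 : G) * s⁻¹ = x.1 :=
          congrArg Subtype.val (x.2 ⟨s, Subgroup.mem_zpowers s⟩)
        exact (mul_inv_eq_iff_eq_mul.mp h).symm
      · show (a : G) * x.1 * (a : G)⁻¹ = x.1
        obtain ⟨k, hk⟩ := a.2
        have h : Commute (a : G) x.1 := hk ▸ (mem_cent.mp x.2.2).symm.zpow_left k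
        rw [h.eq, mul_inv_cancel_right]
    have hZ : IsPGroup p (Subgroup.zpowers s) :=
      IsPGroup.of_card (n := 1) (by rw [Nat.card_zpowers, hso, pow_one])
    have hmod := hZ.card_modEq_card_fixedPoints F.threeQ
    rw [hfp] at hmod
    obtain ⟨k, hk⟩ := F.threeQ_isPGroup.exists_card_eq
    obtain ⟨j, hj⟩ := (F.threeQ_isPGroup.to_le (inf_le_left : C ≤ F.threeQ)).exists_card_eq
    have hk5 : k ≤ 5 := by
      have h1 := F.threeQ_card_mul h10
      have h2 : Nat.card F.threeQ ≤ 9 * 3 * 9 := by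
        rw [h1]
        exact Nat.mul_le_mul (Nat.mul_le_mul_right 3 (F.threeQ_fix_t h10)) (F.threeQ_fix_tz h10)
      by_contra hc
      have : 3 ^ 6 ≤ 3 ^ k := Nat.pow_le_pow_right (by norm_num) (by omega)
      rw [← hk] at this
      norm_num at this
      omega
    have hcC : Subgroup.zpowers F.c ≤ C :=
      Subgroup.zpowers_le.mpr ⟨F.c_mem_threeQ h10, mem_cent.mpr hsc.symm⟩
    have hj1 : 1 ≤ j := by
      have := Subgroup.card_le_of_le hcC
      rw [Nat.card_zpowers, F.c_ord, hj] at this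
      by_contra hc
      rw [show j = 0 by omega] at this
      norm_num at this
    have hjk : j < k := by
      by_contra hc
      apply hcent
      intro x hx
      have heq : C = F.threeQ := Subgroup.eq_of_le_of_card_ge inf_le_left (by
        rw [hj, hk]; exact Nat.pow_le_pow_right (by norm_num) (by omega))
      exact mem_cent.mp (heq.symm ▸ hx : x ∈ C).2
    rw [hk, hj] at hmod
    obtain ⟨hp5, hk5', hj1'⟩ : p = 5 ∧ k = 5 ∧ j = 1 := by
      rcases hp with rfl | rfl <;> interval_cases k <;> interval_cases j <;>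
        revert hmod <;> simp [Nat.ModEq]
    subst hj1'
    refine ⟨hp5, by rw [hk, hk5']; norm_num, fun x hx hxs => ?_⟩
    have heq : Subgroup.zpowers F.c = C := Subgroup.eq_of_le_of_card_ge hcC (by
      rw [hj, Nat.card_zpowers, F.c_ord, pow_one])
    exact heq ▸ ⟨hx, mem_cent.mpr hxs⟩

include F in
theorem exists_prime_element (h10 : n ≤ 10) :
    ∃ p : ℕ, (p = 5 ∨ p = 7) ∧ (n = 10 → p = 7) ∧
      ∃ s : G, Commute s z ∧ Commute s F.c ∧ orderOf s = p := by
  classical
  suffices key : ∃ p : ℕ, (p = 5 ∨ p = 7) ∧ (n = 10 → p = 7) ∧ ∃ σ : Perm (Fin n),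
      σ ^ p = 1 ∧ σ ≠ 1 ∧ Perm.sign σ = 1 ∧ FixThree σ by
    obtain ⟨p, hp, hp', σ, h1, h2, h3, h4⟩ := key
    haveI : Fact p.Prime := ⟨by rcases hp with rfl | rfl <;> norm_num⟩
    have ho := orderOf_eq_prime h1 h2
    have hodd : Odd p := by rcases hp with rfl | rfl <;> decide
    obtain ⟨s, hsz, hsi, hso⟩ := S.exists_odd_img h3 (by rw [ho]; exact hodd)
    refine ⟨p, hp, hp', s, hsz, ?_, hso.trans ho⟩
    refine S.commute_of_img hsz F.c_comm (by rw [hso, ho]; exact hodd) ?_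
    rw [hsi, F.img_c]
    exact commute_c0 h9 h4
  obtain rfl | rfl : n = 9 ∨ n = 10 := by omega
  · refine ⟨5, Or.inl rfl, fun h => absurd h (by norm_num), cyc 0 1 2 * cyc 2 3 4, ?_⟩
    (clear F h10; revert h9; unfold FixThree; decide +kernel)
  · refine ⟨7, Or.inr rfl, fun _ => rfl, cyc 0 1 2 * cyc 2 3 4 * cyc 4 5 9, ?_⟩
    (clear F h10; revert h9; unfold FixThree; decide +kernel)

theorem three_card_not_dvd (h10 : n ≤ 10) (hQ : Nat.card F.threeQ = 3) :
    ¬ 81 ∣ Nat.card (Subgroup.centralizer ({F.c} : Set G)) := by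
  classical
  haveI : Fact (Nat.Prime 3) := ⟨Nat.prime_three⟩
  set X := Subgroup.centralizer ({F.c} : Set G) with hX
  set H : Subgroup G := Subgroup.centralizer ({z} : Set G) ⊓ X with hH
  -- the order of `H`
  have hH81 : ¬ 81 ∣ Nat.card H := by
    let ψ : H →* Perm (Fin n) :=
      { toFun := fun x => S.img x
        map_one' := S.img_one
        map_mul' := fun x y => S.img_mul (mem_cent.mp x.2.1) (mem_cent.mp y.2.1) }
    have hrange : ψ.range ≤ Subgroup.centralizer ({c0 h9} : Set (Perm (Fin n))) := by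
      rintro _ ⟨x, rfl⟩
      exact mem_cent.mpr (F.three_commute_img (mem_cent.mp x.2.1) (mem_cent.mp x.2.2))
    let z' : H := ⟨z, mem_cent.mpr (Commute.refl z), mem_cent.mpr F.c_comm.symm⟩
    have hker : ψ.ker ≤ Subgroup.zpowers z' := fun x hx => by
      rcases (S.img_eq_one (mem_cent.mp x.2.1)).mp hx with e | e
      · rw [show x = 1 from Subtype.ext e]; exact Subgroup.one_mem _
      · rw [show x = z' from Subtype.ext e]; exact Subgroup.mem_zpowers _
    have hk2 : Nat.card ψ.ker ∣ 2 := by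
      have := Subgroup.card_dvd_of_le hker
      rw [Nat.card_zpowers, ← Subgroup.orderOf_coe] at this
      exact this.trans (dvd_of_eq S.hz)
    have hc : Nat.card (Subgroup.centralizer ({c0 h9} : Set (Perm (Fin n)))) ∣ 15120 := by
      rw [Perm.nat_card_centralizer, c0_cycleType h9, Fintype.card_fin]
      obtain rfl | rfl : n = 9 ∨ n = 10 := by omega
      all_goals (simp [Nat.factorial]; try norm_num)
    intro hd
    have hcard : Nat.card H = Nat.card ψ.ker * Nat.card ψ.range := by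
      rw [← Subgroup.index_ker, Subgroup.card_mul_index]
    have h1 : Nat.card H ∣ 2 * 15120 :=
      hcard ▸ Nat.mul_dvd_mul hk2 ((Subgroup.card_dvd_of_le hrange).trans hc)
    exact absurd (hd.trans h1) (by norm_num)
  -- the orders of `X` and of its odd core
  set N := Cfsg.oddCore X with hN
  haveI : N.Normal := by rw [hN]; infer_instance
  set H₁ : Subgroup X := H.subgroupOf X with hH₁
  have htop : H₁ ⊔ N = ⊤ := by
    rw [eq_top_iff]
    intro g _
    obtain ⟨m, hm, h, hhz, hhc, hg⟩ := F.threeCore_factor h10 (mem_cent.mp g.2)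
    obtain ⟨m', hm', rfl⟩ := Subgroup.mem_map.mp hm
    have hh : (⟨h, mem_cent.mpr hhc⟩ : X) ∈ H₁ := ⟨mem_cent.mpr hhz, mem_cent.mpr hhc⟩
    rw [show g = m' * ⟨h, mem_cent.mpr hhc⟩ from Subtype.ext hg]
    exact Subgroup.mul_mem _ (Subgroup.mem_sup_right hm') (Subgroup.mem_sup_left hh)
  have hcH : Nat.card H₁ = Nat.card H :=
    Nat.card_congr (Subgroup.subgroupOfEquivOfLe (inf_le_right : H ≤ X)).toEquiv
  let c' : X := ⟨F.c, mem_cent.mpr (Commute.refl F.c)⟩
  have hinf : N ⊓ H₁ = Subgroup.zpowers c' := by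
    refine le_antisymm (fun x hx => ?_) (Subgroup.zpowers_le.mpr ⟨?_, ?_⟩)
    · obtain ⟨k, hk⟩ := F.threeCore_cent h10 (Subgroup.mem_map.mpr ⟨x, hx.1, rfl⟩)
        (mem_cent.mp hx.2.1)
      exact ⟨k, Subtype.ext hk⟩
    · obtain ⟨y, hy, hyc⟩ := Subgroup.mem_map.mp F.c_mem_threeCore
      rwa [show y = c' from Subtype.ext hyc] at hy
    · exact ⟨mem_cent.mpr F.c_comm, mem_cent.mpr (Commute.refl F.c)⟩
  have h3 : 3 * N.index = Nat.card H := by
    rw [← hcH, ← Subgroup.card_mul_index (N.subgroupOf H₁)]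
    congr 1
    · rw [← Subgroup.inf_subgroupOf_right,
        Nat.card_congr (Subgroup.subgroupOfEquivOfLe (inf_le_right : N ⊓ H₁ ≤ H₁)).toEquiv, hinf,
        Nat.card_zpowers, Subgroup.orderOf_mk, F.c_ord]
    · show N.index = N.relIndex H₁
      rw [← Subgroup.relIndex_sup_right (H := H₁), htop, Subgroup.relIndex_top_right]
  -- the core has Sylow subgroup of order three
  set P : Sylow 3 F.threeCore := default
  haveI := F.threeQ_sylow_normal h10 P
  have hP : Nat.card P = 3 := by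
    refine Eq.trans ?_ hQ
    exact (Subgroup.card_map_of_injective (Subgroup.subtype_injective _)).symm
  have hPi : ¬ 3 ∣ (P : Subgroup F.threeCore).index := P.not_dvd_index
  have hNc : Nat.card N = 3 * (P : Subgroup F.threeCore).index := by
    rw [← Subgroup.card_map_of_injective (Subgroup.subtype_injective X) (K := N), hN]
    show Nat.card F.threeCore = _
    have h := Subgroup.card_mul_index (P : Subgroup F.threeCore)
    rw [hP] at h
    exact h.symm
  intro hd
  apply hH81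
  have hXm : Nat.card X = (P : Subgroup F.threeCore).index * Nat.card H := by
    rw [← Subgroup.card_mul_index N, hNc, ← h3]; ring
  rw [hXm] at hd
  refine Nat.Coprime.dvd_of_dvd_mul_left ?_ hd
  rw [show (81 : ℕ) = 3 ^ 4 by norm_num]
  exact Nat.Coprime.pow_left _ (Nat.prime_three.coprime_iff_not_dvd.mpr hPi)

/-- Either the centraliser of `c` has Sylow three-subgroups of order 27, or its odd core has a
normal three-subgroup of order `3 ^ 5`. -/
theorem threeCycle_dichotomy (h10 : n ≤ 10) :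
    ¬ (81 ∣ Nat.card (Subgroup.centralizer ({F.c} : Set G))) ∨
      (n = 9 ∧ ∃ Q : Subgroup G, IsPGroup 3 Q ∧ Nat.card Q = 243 ∧ F.c ∈ Q ∧
        (∀ x ∈ Q, Commute x F.c) ∧ (∀ g x, Commute g F.c → x ∈ Q → g * x * g⁻¹ ∈ Q) ∧
        (∀ x ∈ Q, Commute x z → x ∈ Subgroup.zpowers F.c) ∧
        Nat.card (Q ⊓ Subgroup.centralizer {F.t} : Subgroup G) = 9 ∧
        Nat.card (Q ⊓ Subgroup.centralizer {F.t * z} : Subgroup G) = 9 ∧
        (∀ r, Commute r F.c → z * r * z⁻¹ = r⁻¹ → r ^ 3 = 1 → r ∈ Q) ∧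
        (∀ s, Commute s z → Commute s F.c → orderOf s = 5 →
          ∀ x ∈ Q, Commute x s → x ∈ Subgroup.zpowers F.c)) := by
  by_cases hQ : Nat.card F.threeQ = 3
  · exact Or.inl (F.three_card_not_dvd h10 hQ)
  right
  obtain ⟨p, hp, hp', s, hsz, hsc, hso⟩ := F.exists_prime_element h10
  obtain ⟨hp5, hcard, -⟩ := (F.threeQ_prime h10 hp hsz hsc hso).resolve_left hQ
  have hn9 : n = 9 := by
    by_contra hne
    have := hp' (by omega)
    omega
  have hprod := F.threeQ_card_mul h10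
  have ht := F.threeQ_fix_t h10
  have htz := F.threeQ_fix_tz h10
  rw [hcard] at hprod
  refine ⟨hn9, F.threeQ, F.threeQ_isPGroup, hcard, F.c_mem_threeQ h10,
    fun x hx => F.threeCore_commute (F.threeQ_le h10 hx), fun g x hg hx => F.threeQ_conj h10 hg hx,
    fun x hx hxz => F.threeCore_cent h10 (F.threeQ_le h10 hx) hxz, by nlinarith, by nlinarith,
    fun r hrc hr h3 => F.threeQ_inverted_mem h10 hrc hr h3, fun u huz huc huo => ?_⟩
  exact ((F.threeQ_prime h10 (Or.inl rfl) huz huc huo).resolve_left hQ).2.2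


end Frame

end CfsgLib.AltDoubleCent
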